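import Cfsg.Agent.Lib.H15.MH0

/-! # Piece X6 of S4221: the four point stabilizers are trivial in degree 11 -/

set_option autoImplicit false

namespace H41.MHX6

open H15.MH

universe u v

variable {G : Type u} {α : Type v} [Group G] [MulAction G α]

theorem pow_smul_fix {g : G} {x : α} (h : g • x = x) (n : ℕ) : g ^ n • x = x := by
  induction n with
  | zero => simp
  | succ n ih => rw [pow_succ, mul_smul, h, ih]

/-- an element of odd order fixing `x` under its square fixes `x` -/
theorem fix_of_sq {g : G} (ho : Odd (orderOf g)) {x : α} (h : g • g • x = x) : g • x = x := by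
  obtain ⟨k, hk⟩ := ho
  have h1 : (g * g) ^ (k + 1) = g := by
    rw [← pow_two, ← pow_mul, show 2 * (k + 1) = orderOf g + 1 by omega, pow_succ, pow_orderOf_eq_one, one_mul]
  have h2 : (g * g) • x = x := by rw [mul_smul, h]
  have h3 := pow_smul_fix h2 (k + 1)
  rwa [h1] at h3

/-- odd order permutations moving an even number of points, at most four, are trivial -/
theorem perm_eq_one [Fintype α] [DecidableEq α] (σ : Equiv.Perm α) (ho : Odd (orderOf σ)) (he : Even σ.support.card)
    (h4 : σ.support.card ≤ 4) : σ = 1 := by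
  have hodd : ∀ n ∈ σ.cycleType, Odd n ∧ 3 ≤ n := by
    intro n hn
    have h1 := Equiv.Perm.dvd_of_mem_cycleType hn
    have h2 := Equiv.Perm.two_le_of_mem_cycleType hn
    have h3 : Odd n := by
      rcases Nat.even_or_odd n with h | h
      · exfalso
        have h5 : 2 ∣ orderOf σ := (even_iff_two_dvd.1 h).trans h1
        exact (Nat.not_even_iff_odd.2 ho) (even_iff_two_dvd.2 h5)
      · exact h
    refine ⟨h3, ?_⟩
    obtain ⟨k, hk⟩ := h3
    omega
  rw [← Equiv.Perm.sum_cycleType] at he h4
  have hz : σ.cycleType = 0 := by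
    by_contra hne
    obtain ⟨n, hn⟩ := Multiset.exists_mem_of_ne_zero hne
    obtain ⟨t, ht⟩ := Multiset.exists_cons_of_mem hn
    obtain ⟨hn1, hn2⟩ := hodd n hn
    rw [ht, Multiset.sum_cons] at he h4
    by_cases ht0 : t = 0
    · rw [ht0, Multiset.sum_zero, add_zero] at he
      exact (Nat.not_even_iff_odd.2 hn1) he
    · obtain ⟨m, hm⟩ := Multiset.exists_mem_of_ne_zero ht0
      obtain ⟨t', ht'⟩ := Multiset.exists_cons_of_mem hm
      have hm3 := (hodd m (by rw [ht]; exact Multiset.mem_cons_of_mem hm)).2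
      rw [ht', Multiset.sum_cons] at h4
      omega
  exact Equiv.Perm.cycleType_eq_zero.1 hz

theorem triv [Finite α] [FaithfulSMul G α] (h : Hyp3 G α)
    (hu : ∀ a b c d : α, D4 a b c d → ∀ s t : G, orderOf s = 2 → orderOf t = 2 → s • a = a → s • b = b →
      s • c = d → t • a = a → t • b = b → t • c = d → s = t)
    (h11 : Nat.card α = 11) {a b c d : α} (hD : D4 a b c d) (g : G) (ga : g • a = a) (gb : g • b = b)
    (gc : g • c = c) (gd : g • d = d) : g = 1 := by
  classical
  haveI : Fintype α := Fintype.ofFinite α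
  obtain ⟨hab, hac, had, hbc, hbd, hcd⟩ := id hD
  have hD' : D4 c d a b := ⟨hcd, hac.symm, hbc.symm, had.symm, hbd.symm, hab⟩
  have ho : Odd (orderOf g) := h.od a b c d hD g ga gb gc gd
  have hinv : ∀ {x : α}, g • x = x → g⁻¹ • x = x := fun {x} hx => by rw [inv_smul_eq_iff, hx]
  have hconj : ∀ (k s : G), orderOf s = 2 → orderOf (k * s * k⁻¹) = 2 := by
    intro k s hs
    rw [← hs]
    exact orderOf_injective (MulAut.conj k).toMonoidHom (MulAut.conj k).injective s
  have sq : ∀ s : G, orderOf s = 2 → s * s = 1 := fun s hs => by rw [← pow_two, ← hs, pow_orderOf_eq_one]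
  have comm_of : ∀ s : G, g * s * g⁻¹ = s → g * s = s * g := fun s hs => by
    calc g * s = g * s * g⁻¹ * g := by group
      _ = s * g := by rw [hs]
  -- u
  obtain ⟨u, u2, ua, ub, uc, ud⟩ := exists_u h.toHyp hD
  have gu : g * u = u * g := comm_of u (hu a b c d hD _ _ (hconj g u u2) u2
    (by rw [mul_smul, mul_smul, hinv ga, ua, ga]) (by rw [mul_smul, mul_smul, hinv gb, ub, gb])
    (by rw [mul_smul, mul_smul, hinv gc, uc, gd]) ua ub uc)
  -- w = u'
  obtain ⟨w, w2, wc, wd, wa, wb⟩ := exists_u h.toHyp hD'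
  have gw : g * w = w * g := comm_of w (hu c d a b hD' _ _ (hconj g w w2) w2
    (by rw [mul_smul, mul_smul, hinv gc, wc, gc]) (by rw [mul_smul, mul_smul, hinv gd, wd, gd])
    (by rw [mul_smul, mul_smul, hinv ga, wa, gb]) wc wd wa)
  have uinv : u⁻¹ = u := inv_eq_of_mul_eq_one_left (sq u u2)
  have uw : u * w * u⁻¹ = w := hu c d a b hD' _ _ (hconj u w w2) w2
    (by rw [mul_smul, mul_smul, uinv, uc, wd, ud]) (by rw [mul_smul, mul_smul, uinv, ud, wc, uc])
    (by rw [mul_smul, mul_smul, uinv, ua, wa, ub]) wc wd wa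
  have uw' : u * w = w * u := by
    calc u * w = u * w * u⁻¹ * u := by group
      _ = w * u := by rw [uw]
  -- x
  have xa : (u * w) • a = b := by rw [mul_smul, wa, ub]
  have xb : (u * w) • b = a := by rw [mul_smul, wb, ua]
  have xc : (u * w) • c = d := by rw [mul_smul, wc, uc]
  have xd : (u * w) • d = c := by rw [mul_smul, wd, ud]
  have x2 : orderOf (u * w) = 2 := by
    refine orderOf_eq_prime ?_ ?_
    · calc (u * w) ^ 2 = u * (w * u) * w := by rw [pow_two]; group
        _ = (u * u) * (w * w) := by rw [← uw']; group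
        _ = 1 := by rw [sq u u2, sq w w2, one_mul]
    · intro h1
      rw [h1, one_smul] at xa
      exact hab xa
  have gx : g * (u * w) = (u * w) * g := by
    rw [← mul_assoc, gu, mul_assoc, gw, mul_assoc]
  have xu : (u * w) * u = u * (u * w) := by
    rw [mul_assoc, ← uw']
  -- third fixed point of u
  have third : ∀ s : G, orderOf s = 2 → s • a = a → s • b = b → ∃ e : α, e ≠ a ∧ e ≠ b ∧
      ∀ y : α, s • y = y ↔ (y = a ∨ y = b ∨ y = e) := by
    intro s hs sa sb
    obtain ⟨p, q, r, hpq, hpr, hqr, hf⟩ := h.fx s hs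
    have h1 := (hf a).1 sa
    have h2 := (hf b).1 sb
    rcases h1 with rfl | rfl | rfl <;> rcases h2 with rfl | rfl | rfl
    · exact absurd rfl hab
    · exact ⟨r, hpr.symm, hqr.symm, hf⟩
    · exact ⟨q, hpq.symm, hqr, fun y => by rw [hf y]; tauto⟩
    · exact ⟨r, hqr.symm, hpr.symm, fun y => by rw [hf y]; tauto⟩
    · exact absurd rfl hab
    · exact ⟨p, hpq, hpr, fun y => by rw [hf y]; tauto⟩
    · exact ⟨q, hqr, hpq.symm, fun y => by rw [hf y]; tauto⟩
    · exact ⟨p, hpr, hpq, fun y => by rw [hf y]; tauto⟩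
    · exact absurd rfl hab
  obtain ⟨e, hea, heb, hfu⟩ := third u u2 ua ub
  have ue : u • e = e := (hfu e).2 (Or.inr (Or.inr rfl))
  have hec : e ≠ c := by rintro rfl; exact hcd (ue.symm.trans uc)
  have hed : e ≠ d := by rintro rfl; exact hcd (ud.symm.trans ue)
  have ge : g • e = e := by
    have h1 : u • (g • e) = g • e := by rw [← mul_smul, ← gu, mul_smul, ue]
    rcases (hfu _).1 h1 with h2 | h2 | h2
    · exact absurd (MulAction.injective g (h2.trans ga.symm)) hea
    · exact absurd (MulAction.injective g (h2.trans gb.symm)) heb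
    · exact h2
  have xe : (u * w) • e = e := by
    have h1 : u • ((u * w) • e) = (u * w) • e := by rw [← mul_smul, ← xu, mul_smul, ue]
    rcases (hfu _).1 h1 with h2 | h2 | h2
    · exact absurd (MulAction.injective (u * w) (h2.trans xb.symm)) heb
    · exact absurd (MulAction.injective (u * w) (h2.trans xa.symm)) hea
    · exact h2
  -- fixed points of x
  have hfx : ∃ p q : α, p ≠ e ∧ q ≠ e ∧ p ≠ q ∧ ∀ y : α, (u * w) • y = y ↔ (y = e ∨ y = p ∨ y = q) := by
    obtain ⟨p, q, r, hpq, hpr, hqr, hf⟩ := h.fx (u * w) x2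
    rcases (hf e).1 xe with rfl | rfl | rfl
    · exact ⟨q, r, hpq.symm, hpr.symm, hqr, hf⟩
    · exact ⟨p, r, hpq, hqr.symm, hpr, fun y => by rw [hf y]; tauto⟩
    · exact ⟨p, q, hpr, hqr, hpq, fun y => by rw [hf y]; tauto⟩
  obtain ⟨p, q, hpe, hqe, hpq, hfx⟩ := hfx
  have xp : (u * w) • p = p := (hfx p).2 (Or.inr (Or.inl rfl))
  have xq : (u * w) • q = q := (hfx q).2 (Or.inr (Or.inr rfl))
  have hmv : ∀ y : α, (u * w) • y = y → y ≠ a ∧ y ≠ b ∧ y ≠ c ∧ y ≠ d := by
    intro y hy
    refine ⟨?_, ?_, ?_, ?_⟩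
    · rintro rfl; exact hab (hy.symm.trans xa)
    · rintro rfl; exact hab (xb.symm.trans hy)
    · rintro rfl; exact hcd (hy.symm.trans xc)
    · rintro rfl; exact hcd (xd.symm.trans hy)
  have gxf : ∀ y : α, (u * w) • y = y → (u * w) • (g • y) = g • y := by
    intro y hy
    rw [← mul_smul, ← gx, mul_smul, hy]
  have gp : g • p = p := by
    rcases (hfx _).1 (gxf p xp) with h1 | h1 | h1
    · exact absurd (MulAction.injective g (h1.trans ge.symm)) hpe
    · exact h1
    · apply fix_of_sq ho
      rw [h1]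
      rcases (hfx _).1 (gxf q xq) with h2 | h2 | h2
      · exact absurd (MulAction.injective g (h2.trans ge.symm)) hqe
      · exact h2
      · exact absurd (MulAction.injective g (h1.trans h2.symm)) hpq
  have gq : g • q = q := by
    rcases (hfx _).1 (gxf q xq) with h1 | h1 | h1
    · exact absurd (MulAction.injective g (h1.trans ge.symm)) hqe
    · exact absurd (MulAction.injective g (h1.trans gp.symm)) hpq.symm
    · exact h1
  -- z
  have hz : ∃ z : G, orderOf z = 2 ∧ z • a = a ∧ z • b = b ∧ z • c = c := by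
    obtain ⟨k, k1, k2, k3, -⟩ := h.tr a b e c a b c e ⟨hab, hea.symm, hac, heb.symm, hbc, hec⟩
      ⟨hab, hac, hea.symm, hbc, heb.symm, hec.symm⟩
    have hki : ∀ {y y' : α}, k • y = y' → k⁻¹ • y' = y := fun {y y'} hy => by rw [inv_smul_eq_iff, hy]
    exact ⟨k * u * k⁻¹, hconj k u u2, by rw [mul_smul, mul_smul, hki k1, ua, k1],
      by rw [mul_smul, mul_smul, hki k2, ub, k2], by rw [mul_smul, mul_smul, hki k3, ue, k3]⟩
  obtain ⟨z, z2, za, zb, zc⟩ := hz
  have gz : g * z = z * g := comm_of z (h.un a b c hab hac hbc _ _ (hconj g z z2) z2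
    (by rw [mul_smul, mul_smul, hinv ga, za, ga]) (by rw [mul_smul, mul_smul, hinv gb, zb, gb])
    (by rw [mul_smul, mul_smul, hinv gc, zc, gc]) za zb zc)
  have hfz : ∀ y : α, z • y = y → y = a ∨ y = b ∨ y = c := by
    obtain ⟨e', he1, he2, hf⟩ := third z z2 za zb
    rcases (hf c).1 zc with h1 | h1 | h1
    · exact absurd h1 hac.symm
    · exact absurd h1 hbc.symm
    · intro y hy
      rw [h1]
      exact (hf y).1 hy
  -- the moved points
  have hsupp : ∀ y : α, y ∈ (MulAction.toPerm g : Equiv.Perm α).support ↔ g • y ≠ y := by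
    intro y; rw [Equiv.Perm.mem_support, MulAction.toPerm_apply]
  have heven : Even (MulAction.toPerm g : Equiv.Perm α).support.card := by
    have h0 : ∑ x ∈ (MulAction.toPerm g : Equiv.Perm α).support, (1 : ZMod 2) = 0 := by
      refine Finset.sum_involution (fun y _ => z • y) ?_ ?_ ?_ ?_
      · intro y hy; decide
      · intro y hy _ h1
        have h1' : z • y = y := h1
        have h2 := (hsupp y).1 hy
        rcases hfz y h1' with rfl | rfl | rfl
        · exact h2 ga
        · exact h2 gb
        · exact h2 gc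
      · intro y hy
        rw [hsupp]
        intro h1
        rw [← mul_smul, gz, mul_smul] at h1
        exact (hsupp y).1 hy (MulAction.injective z h1)
      · intro y hy
        show z • z • y = y
        rw [← mul_smul, sq z z2, one_smul]
    rw [Finset.sum_const, nsmul_eq_mul, mul_one] at h0
    exact even_iff_two_dvd.2 ((ZMod.natCast_eq_zero_iff _ _).1 h0)
  have hle : (MulAction.toPerm g : Equiv.Perm α).support.card ≤ 4 := by
    have hsub : ({a, b, c, d, e, p, q} : Finset α) ⊆ (MulAction.toPerm g : Equiv.Perm α).supportᶜ := by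
      intro y hy
      rw [Finset.mem_compl, hsupp, not_not]
      simp only [Finset.mem_insert, Finset.mem_singleton] at hy
      rcases hy with rfl | rfl | rfl | rfl | rfl | rfl | rfl <;> assumption
    have h7 : ({a, b, c, d, e, p, q} : Finset α).card = 7 := by
      obtain ⟨hp1, hp2, hp3, hp4⟩ := hmv p xp
      obtain ⟨hq1, hq2, hq3, hq4⟩ := hmv q xq
      rw [Finset.card_insert_of_notMem, Finset.card_insert_of_notMem, Finset.card_insert_of_notMem,
        Finset.card_insert_of_notMem, Finset.card_insert_of_notMem, Finset.card_insert_of_notMem,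
        Finset.card_singleton]
      all_goals simp only [Finset.mem_insert, Finset.mem_singleton, not_or]
      · exact hpq
      · exact ⟨hpe.symm, hqe.symm⟩
      · exact ⟨hed.symm, hp4.symm, hq4.symm⟩
      · exact ⟨hcd, hec.symm, hp3.symm, hq3.symm⟩
      · exact ⟨hbc, hbd, heb.symm, hp2.symm, hq2.symm⟩
      · exact ⟨hab, hac, had, hea.symm, hp1.symm, hq1.symm⟩
    have h8 := Finset.card_le_card hsub
    have h9 := Finset.card_compl (MulAction.toPerm g : Equiv.Perm α).support
    rw [Nat.card_eq_fintype_card] at h11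
    rw [h9, h7, h11] at h8
    have h10 := Finset.card_le_univ (MulAction.toPerm g : Equiv.Perm α).support
    rw [h11] at h10
    omega
  have hop : Odd (orderOf (MulAction.toPerm g : Equiv.Perm α)) := by
    rcases Nat.even_or_odd (orderOf (MulAction.toPerm g : Equiv.Perm α)) with h1 | h1
    · exfalso
      have h2 : orderOf (MulAction.toPermHom G α g) ∣ orderOf g := orderOf_map_dvd _ g
      exact (Nat.not_even_iff_odd.2 ho) (even_iff_two_dvd.2 ((even_iff_two_dvd.1 h1).trans h2))
    · exact h1
  have hone := perm_eq_one _ hop heven hle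
  apply MulAction.toPerm_injective (α := G) (β := α)
  rw [hone]
  ext y
  simp

end H41.MHX6
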