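import Mathlib

/-! Block's lemma (after Fisher): if `G` is 2-transitive on `P`, transitive on `Ω` and `|Ω| < |P|` then point stabilisers
of `P` are transitive on `Ω`. -/

set_option autoImplicit false

namespace H41.Block

open MulAction

theorem block {G P Ω : Type*} [Group G] [MulAction G P] [MulAction G Ω] [Finite P] [Finite Ω]
    (h2 : IsMultiplyPretransitive G P 2) (ht : IsPretransitive G Ω) (hcard : Nat.card Ω < Nat.card P) (p : P)
    (ω ω' : Ω) : ∃ g ∈ stabilizer G p, g • ω = ω' := by
  classical
  by_contra hcon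
  push Not at hcon
  have : Fintype P := Fintype.ofFinite P
  have : Fintype Ω := Fintype.ofFinite Ω
  have h2' : ∀ {a b c d : P}, a ≠ b → c ≠ d → ∃ g : G, g • a = c ∧ g • b = d :=
    is_two_pretransitive_iff.mp h2
  -- the relation
  let R : P → Ω → Prop := fun p' w => ∃ g : G, g • p = p' ∧ g • ω = w
  have hR : ∀ (g : G) (p' : P) (w : Ω), R (g • p') (g • w) ↔ R p' w := by
    intro g p' w
    constructor
    · rintro ⟨k, hk1, hk2⟩
      exact ⟨g⁻¹ * k, by rw [mul_smul, hk1, inv_smul_smul], by rw [mul_smul, hk2, inv_smul_smul]⟩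
    · rintro ⟨k, hk1, hk2⟩
      exact ⟨g * k, by rw [mul_smul, hk1], by rw [mul_smul, hk2]⟩
  have hR1 : R p ω := ⟨1, one_smul _ _, one_smul _ _⟩
  have hR2 : ¬ R p ω' := by
    rintro ⟨g, hg1, hg2⟩
    exact hcon g hg1 hg2
  let A : P → Ω → ℚ := fun p' w => if R p' w then 1 else 0
  have hA : ∀ (g : G) (p' : P) (w : Ω), A (g • p') (g • w) = A p' w := by
    intro g p' w
    simp only [A, hR]
  let L : P → P → ℚ := fun a b => ∑ w, A a w * A b w
  have hL : ∀ (g : G) (a b : P), L (g • a) (g • b) = L a b := by
    intro g a b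
    simp only [L]
    rw [← Equiv.sum_comp (MulAction.toPerm g)]
    apply Finset.sum_congr rfl
    intro w _
    rw [MulAction.toPerm_apply, hA, hA]
  -- another point
  have hp1 : 1 < Fintype.card P := by
    rw [← Nat.card_eq_fintype_card]
    have : 0 < Nat.card Ω := by
      rw [Nat.card_pos_iff]; exact ⟨⟨ω⟩, inferInstance⟩
    omega
  obtain ⟨p1, hp1⟩ := Fintype.exists_ne_of_one_lt_card hp1 p
  have hpt : ∀ a b : P, ∃ g : G, g • a = b := by
    intro a b
    by_cases hab : a = b
    · exact ⟨1, by rw [one_smul, hab]⟩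
    · obtain ⟨g, hg, -⟩ := h2' hab (Ne.symm hab)
      exact ⟨g, hg⟩
  have hr : ∀ a, L a a = L p p := by
    intro a
    obtain ⟨g, hg⟩ := hpt p a
    rw [← hg, hL]
  have hlam : ∀ a b, a ≠ b → L a b = L p p1 := by
    intro a b hab
    obtain ⟨g, hg1, hg2⟩ := h2' (Ne.symm hp1) hab
    rw [← hg1, ← hg2, hL]
  have hA01 : ∀ a w, A a w = 0 ∨ A a w = 1 := by
    intro a w
    by_cases h : R a w
    · right; simp [A, h]
    · left; simp [A, h]
  have hlam0 : 0 ≤ L p p1 := by
    apply Finset.sum_nonneg
    intro w _
    rcases hA01 p w with h | h <;> rcases hA01 p1 w with h' | h' <;> rw [h, h'] <;> norm_num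
  have hlt : L p p1 < L p p := by
    have hle : ∀ w, A p w * A p1 w ≤ A p w * A p w := by
      intro w
      rcases hA01 p w with h | h <;> rcases hA01 p1 w with h' | h' <;> rw [h, h'] <;> norm_num
    rcases lt_or_eq_of_le (Finset.sum_le_sum (fun w (_ : w ∈ Finset.univ) => hle w)) with h | h
    · exact h
    · exfalso
      -- all relation sets coincide
      have heq : ∀ w, A p w * A p1 w = A p w * A p w := by
        intro w
        exact (Finset.sum_eq_sum_iff_of_le (fun w _ => hle w)).mp h w (Finset.mem_univ w)
      have hsub : ∀ w, R p w → R p1 w := by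
        intro w hw
        have := heq w
        by_contra hn
        simp [A, hw, hn] at this
      have hsub' : ∀ a b w, R a w → R b w := by
        intro a b w hw
        by_cases hab : a = b
        · rwa [← hab]
        · obtain ⟨g, hg1, hg2⟩ := h2' (Ne.symm hp1) hab
          rw [← hg2]
          have h3 : R (g • p) (g • (g⁻¹ • w)) := by rw [hg1, smul_inv_smul]; exact hw
          rw [hR] at h3
          have h4 := hsub _ h3
          rw [← hR g] at h4
          rwa [smul_inv_smul] at h4
      obtain ⟨g, hg⟩ := ht.exists_smul_eq ω ω'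
      apply hR2
      have h5 : R (g • p) (g • ω) := (hR g p ω).mpr hR1
      rw [hg] at h5
      exact hsub' _ _ _ h5
  have hLI : LinearIndependent ℚ A := by
    rw [Fintype.linearIndependent_iff]
    intro c hc
    have h0 : ∀ w, ∑ a, c a * A a w = 0 := by
      intro w
      have := congrFun hc w
      simpa using this
    have hsq : ∑ w, (∑ a, c a * A a w) ^ 2 = 0 := by
      apply Finset.sum_eq_zero
      intro w _
      rw [h0 w]; norm_num
    have hexp : ∑ w, (∑ a, c a * A a w) ^ 2 = (L p p - L p p1) * ∑ a, c a ^ 2 + L p p1 * (∑ a, c a) ^ 2 := by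
      have h1 : ∀ w, (∑ a, c a * A a w) ^ 2 = ∑ a, ∑ b, c a * c b * (A a w * A b w) := by
        intro w
        rw [pow_two, Finset.sum_mul_sum]
        apply Finset.sum_congr rfl
        intro a _
        apply Finset.sum_congr rfl
        intro b _
        ring
      simp only [h1]
      rw [Finset.sum_comm]
      have h2 : ∀ a, ∑ w, ∑ b, c a * c b * (A a w * A b w) = ∑ b, c a * c b * L a b := by
        intro a
        rw [Finset.sum_comm]
        apply Finset.sum_congr rfl
        intro b _
        rw [← Finset.mul_sum]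
      simp only [h2]
      have h3 : ∀ a b, L a b = (if a = b then L p p - L p p1 else 0) + L p p1 := by
        intro a b
        by_cases hab : a = b
        · subst hab; rw [hr]; simp
        · rw [hlam a b hab]; simp [hab]
      have h4 : ∀ a, ∑ b, c a * c b * L a b = (L p p - L p p1) * c a ^ 2 + L p p1 * (c a * ∑ b, c b) := by
        intro a
        have h5 : ∀ b, c a * c b * L a b
            = (if a = b then c a * c b * (L p p - L p p1) else 0) + c a * c b * L p p1 := by
          intro b
          rw [h3]
          by_cases hab : a = b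
          · rw [if_pos hab, if_pos hab]; ring
          · rw [if_neg hab, if_neg hab]; ring
        rw [Finset.sum_congr rfl (fun b _ => h5 b), Finset.sum_add_distrib, Finset.sum_ite_eq,
          if_pos (Finset.mem_univ a), Finset.mul_sum, Finset.mul_sum]
        congr 1
        · ring
        · apply Finset.sum_congr rfl
          intro b _
          ring
      rw [Finset.sum_congr rfl (fun a _ => h4 a), Finset.sum_add_distrib, ← Finset.mul_sum, ← Finset.mul_sum,
        ← Finset.sum_mul, pow_two (∑ a, c a)]
    rw [hexp] at hsq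
    have hs1 : 0 ≤ ∑ a, c a ^ 2 := Finset.sum_nonneg (fun a _ => sq_nonneg _)
    have hs2 : ∑ a, c a ^ 2 = 0 := by
      have h6 : 0 ≤ L p p1 * (∑ a, c a) ^ 2 := mul_nonneg hlam0 (sq_nonneg _)
      have h7 : 0 ≤ (L p p - L p p1) * ∑ a, c a ^ 2 := mul_nonneg (by linarith) hs1
      have h8 : (L p p - L p p1) * ∑ a, c a ^ 2 = 0 := by linarith
      rcases mul_eq_zero.mp h8 with h | h
      · linarith
      · exact h
    intro a
    have := (Finset.sum_eq_zero_iff_of_nonneg (fun a _ => sq_nonneg (c a))).mp hs2 a (Finset.mem_univ a)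
    exact pow_eq_zero_iff (two_ne_zero) |>.mp this
  have := hLI.fintype_card_le_finrank
  rw [Module.finrank_fintype_fun_eq_card, ← Nat.card_eq_fintype_card, ← Nat.card_eq_fintype_card] at this
  omega

end H41.Block
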