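import Mathlib

/-! Counting with characters of a finite abelian group acting on a finite set, when all stabilisers have the same order
and all non-zero elements have the same number of fixed points. -/

set_option autoImplicit false

namespace H41.CharCount

open AddAction

variable {A Ω : Type*} [AddCommGroup A] [Finite A] [AddAction A Ω] [Finite Ω]

omit [Finite A] [Finite Ω] in
theorem sum_stab (χ : AddChar A ℂ) (ω : Ω) [Fintype A] [DecidablePred (· ∈ stabilizer A ω)]
    [Decidable (∀ x ∈ stabilizer A ω, χ x = 1)] :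
    ∑ x : A, (if x ∈ stabilizer A ω then χ x else 0)
      = if ∀ x ∈ stabilizer A ω, χ x = 1 then (Nat.card (stabilizer A ω) : ℂ) else 0 := by
  classical
  rw [← Finset.sum_filter]
  have h1 : ∑ x ∈ Finset.univ.filter (fun x => x ∈ stabilizer A ω), χ x
      = ∑ x : stabilizer A ω, (χ.compAddMonoidHom (stabilizer A ω).subtype) x := by
    rw [Finset.sum_subtype (p := fun x => x ∈ stabilizer A ω)]
    · rfl
    · intro x
      simp
  rw [h1, AddChar.sum_eq_ite]
  have h2 : (χ.compAddMonoidHom (stabilizer A ω).subtype = 0) ↔ ∀ x ∈ stabilizer A ω, χ x = 1 := by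
    constructor
    · intro h x hx
      have := DFunLike.congr_fun h ⟨x, hx⟩
      simpa using this
    · intro h
      ext x
      simpa using h x.1 x.2
  by_cases h : ∀ x ∈ stabilizer A ω, χ x = 1
  · rw [if_pos h, if_pos (h2.mpr h), Nat.card_eq_fintype_card]
  · rw [if_neg h, if_neg (fun h' => h (h2.mp h'))]

theorem count (f s : ℕ) (hf : ∀ x : A, x ≠ 0 → Nat.card {ω : Ω // x +ᵥ ω = ω} = f)
    (hs : ∀ ω : Ω, Nat.card (stabilizer A ω) = s) (χ : AddChar A ℂ) (hχ : χ ≠ 0) :
    s * Nat.card {ω : Ω // ∀ x ∈ stabilizer A ω, χ x = 1} + f = Nat.card Ω := by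
  classical
  have : Fintype A := Fintype.ofFinite A
  have : Fintype Ω := Fintype.ofFinite Ω
  have e1 : ∑ x : A, ∑ ω : Ω, (if x ∈ stabilizer A ω then χ x else 0)
      = ((Nat.card Ω : ℂ) - f) := by
    have h1 : ∀ x : A, ∑ ω : Ω, (if x ∈ stabilizer A ω then χ x else 0)
        = χ x * f + if x = 0 then (Nat.card Ω : ℂ) - f else 0 := by
      intro x
      have h2 : ∑ ω : Ω, (if x ∈ stabilizer A ω then χ x else 0)
          = χ x * (Nat.card {ω : Ω // x +ᵥ ω = ω} : ℂ) := by
        rw [← Finset.sum_filter, Finset.sum_const, nsmul_eq_mul, mul_comm, Nat.card_eq_fintype_card,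
          Fintype.card_subtype]
        simp only [mem_stabilizer_iff]
      rw [h2]
      by_cases hx : x = 0
      · subst hx
        have h3 : Nat.card {ω : Ω // (0 : A) +ᵥ ω = ω} = Nat.card Ω :=
          Nat.card_congr (Equiv.subtypeUnivEquiv (fun ω => zero_vadd A ω))
        rw [h3, if_pos rfl, AddChar.map_zero_eq_one]
        ring
      · rw [hf x hx, if_neg hx, add_zero]
    rw [Finset.sum_congr rfl (fun x _ => h1 x), Finset.sum_add_distrib, ← Finset.sum_mul, AddChar.sum_eq_ite,
      if_neg hχ, zero_mul, zero_add, Finset.sum_ite_eq', if_pos (Finset.mem_univ _)]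
  rw [Finset.sum_comm] at e1
  have e2 : ∑ ω : Ω, ∑ x : A, (if x ∈ stabilizer A ω then χ x else 0)
      = (s : ℂ) * Nat.card {ω : Ω // ∀ x ∈ stabilizer A ω, χ x = 1} := by
    rw [Finset.sum_congr rfl (fun ω _ => sum_stab χ ω)]
    rw [← Finset.sum_filter, Finset.sum_congr rfl (fun ω _ => by rw [hs ω]), Finset.sum_const, nsmul_eq_mul,
      mul_comm, Nat.card_eq_fintype_card, Fintype.card_subtype]
  rw [e2] at e1
  have e3 : ((s * Nat.card {ω : Ω // ∀ x ∈ stabilizer A ω, χ x = 1} + f : ℕ) : ℂ) = (Nat.card Ω : ℂ) := by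
    push_cast
    rw [e1]; ring
  exact_mod_cast e3

/-- If moreover the number of moved points is `|A|`, then for a non-trivial character the points where it is trivial on
the stabiliser form one orbit. -/
theorem single_orbit (f s : ℕ) (hf : ∀ x : A, x ≠ 0 → Nat.card {ω : Ω // x +ᵥ ω = ω} = f)
    (hs : ∀ ω : Ω, Nat.card (stabilizer A ω) = s) (hm : f + Nat.card A = Nat.card Ω)
    (χ : AddChar A ℂ) (hχ : χ ≠ 0) (ω ω' : Ω) (hω : ∀ x ∈ stabilizer A ω, χ x = 1)
    (hω' : ∀ x ∈ stabilizer A ω', χ x = 1) : ∃ a : A, a +ᵥ ω = ω' := by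
  classical
  have h1 := count f s hf hs χ hχ
  have h2 : s * Nat.card {ω : Ω // ∀ x ∈ stabilizer A ω, χ x = 1} = Nat.card A := by omega
  have hspos : 0 < s := by
    rw [← hs ω]; exact Nat.card_pos
  have h3 : Nat.card (orbit A ω) * s = Nat.card A := by
    have : Fintype A := Fintype.ofFinite A
    have : Fintype (orbit A ω) := Fintype.ofFinite _
    have : Fintype (stabilizer A ω) := Fintype.ofFinite _
    rw [← hs ω, Nat.card_eq_fintype_card, Nat.card_eq_fintype_card, Nat.card_eq_fintype_card]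
    exact AddAction.card_orbit_mul_card_stabilizer_eq_card_addGroup (G := A) ω
  -- the orbit is contained in the set
  have hstab : ∀ a : A, ∀ w : Ω, stabilizer A (a +ᵥ w) = stabilizer A w := by
    intro a w
    ext x
    rw [mem_stabilizer_iff, mem_stabilizer_iff, vadd_comm, vadd_left_cancel_iff]
  have hsub : orbit A ω ⊆ {w : Ω | ∀ x ∈ stabilizer A w, χ x = 1} := by
    rintro _ ⟨a, rfl⟩
    change ∀ x ∈ stabilizer A (a +ᵥ ω), χ x = 1
    rw [hstab]
    exact hω
  have hcard : Nat.card (orbit A ω) = Nat.card {w : Ω | ∀ x ∈ stabilizer A w, χ x = 1} := by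
    have : Nat.card {w : Ω | ∀ x ∈ stabilizer A w, χ x = 1}
        = Nat.card {ω : Ω // ∀ x ∈ stabilizer A ω, χ x = 1} := rfl
    rw [this]
    apply Nat.eq_of_mul_eq_mul_left hspos
    rw [h2, mul_comm, h3]
  have heq : orbit A ω = {w : Ω | ∀ x ∈ stabilizer A w, χ x = 1} := by
    apply Set.eq_of_subset_of_ncard_le hsub
    rw [← Nat.card_coe_set_eq, ← Nat.card_coe_set_eq, hcard]
  have : ω' ∈ orbit A ω := by rw [heq]; exact hω'
  exact this

end H41.CharCount
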