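import Mathlib

/-! Further counting for a finite abelian group acting with constant fixed point numbers. -/

set_option autoImplicit false

namespace H41.CharCount2

open AddAction

variable {A Ω : Type*} [AddCommGroup A] [Finite A] [AddAction A Ω] [Finite Ω]

omit [Finite A] [Finite Ω] in
theorem fix_zero : Nat.card {ω : Ω // (0 : A) +ᵥ ω = ω} = Nat.card Ω :=
  Nat.card_congr (Equiv.subtypeUnivEquiv (fun ω => zero_vadd A ω))

theorem numbers (f s : ℕ) (hf : ∀ x : A, x ≠ 0 → Nat.card {ω : Ω // x +ᵥ ω = ω} = f)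
    (hs : ∀ ω : Ω, Nat.card (stabilizer A ω) = s) (hD : Nat.card Ω < 2 * Nat.card A) (hlt : f < Nat.card Ω) :
    f + Nat.card A = Nat.card Ω ∧ ∃ w, w * s = Nat.card A ∧ f * (w - 1) = w * (s - 1) := by
  classical
  have : Fintype A := Fintype.ofFinite A
  have : Fintype Ω := Fintype.ofFinite Ω
  have hApos : 0 < Nat.card A := Nat.card_pos
  -- the sum of fixed point numbers
  have h1 : ∑ x : A, Nat.card {ω : Ω // x +ᵥ ω = ω} = (Nat.card A - 1) * f + Nat.card Ω := by
    rw [← Finset.sum_erase_add _ _ (Finset.mem_univ (0 : A)), fix_zero,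
      Finset.sum_congr rfl (fun x hx => hf x (Finset.ne_of_mem_erase hx)), Finset.sum_const,
      Finset.card_erase_of_mem (Finset.mem_univ _), Finset.card_univ, smul_eq_mul]
    simp only [Nat.card_eq_fintype_card]
  -- by orbits
  obtain ⟨k, hk⟩ : ∃ k, (Nat.card A - 1) * f + Nat.card Ω = k * Nat.card A := by
    refine ⟨Fintype.card (Quotient (orbitRel A Ω)), ?_⟩
    rw [← h1, Nat.card_eq_fintype_card, ← sum_card_fixedBy_eq_card_orbits_mul_card_addGroup A Ω]
    apply Finset.sum_congr rfl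
    intro x _
    rw [← Nat.card_eq_fintype_card]
    rfl
  -- by stabilisers
  have h2 : (Nat.card A - 1) * f + Nat.card Ω = Nat.card Ω * s := by
    rw [← h1]
    have e1 : ∀ x : A, Nat.card {ω : Ω // x +ᵥ ω = ω} = ∑ ω : Ω, if x +ᵥ ω = ω then 1 else 0 := by
      intro x
      rw [Nat.card_eq_fintype_card, Fintype.card_subtype, Finset.card_filter]
    have e2 : ∀ ω : Ω, ∑ x : A, (if x +ᵥ ω = ω then 1 else 0) = s := by
      intro ω
      rw [← hs ω, ← Finset.card_filter, Nat.card_eq_fintype_card, ← Fintype.card_subtype]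
      rfl
    rw [Finset.sum_congr rfl (fun x _ => e1 x), Finset.sum_comm, Finset.sum_congr rfl (fun ω _ => e2 ω),
      Finset.sum_const, Finset.card_univ, Nat.card_eq_fintype_card, smul_eq_mul]
  have hω : Nonempty Ω := by
    have : 0 < Nat.card Ω := by omega
    rw [Nat.card_pos_iff] at this
    exact this.1
  obtain ⟨ω⟩ := hω
  have h3 : Nat.card (orbit A ω) * s = Nat.card A := by
    have : Fintype (orbit A ω) := Fintype.ofFinite _
    have : Fintype (stabilizer A ω) := Fintype.ofFinite _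
    rw [← hs ω, Nat.card_eq_fintype_card, Nat.card_eq_fintype_card, Nat.card_eq_fintype_card]
    exact AddAction.card_orbit_mul_card_stabilizer_eq_card_addGroup (G := A) ω
  have hspos : 0 < s := by
    rw [← hs ω]; exact Nat.card_pos
  generalize Nat.card A = N at *
  generalize Nat.card Ω = D at *
  generalize Nat.card (orbit A ω) = w at *
  have hkf : f < k := by
    by_contra hc
    push Not at hc
    have : k * N ≤ f * N := Nat.mul_le_mul_right _ hc
    have e : (N - 1) * f + f = f * N := by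
      obtain ⟨M, rfl⟩ : ∃ M, N = M + 1 := ⟨N - 1, by omega⟩
      simp; ring
    omega
  have hkf2 : k < f + 2 := by
    by_contra hc
    push Not at hc
    have : (f + 2) * N ≤ k * N := Nat.mul_le_mul_right _ hc
    have e : (N - 1) * f + f = f * N := by
      obtain ⟨M, rfl⟩ : ∃ M, N = M + 1 := ⟨N - 1, by omega⟩
      simp; ring
    have e2 : (f + 2) * N = f * N + 2 * N := by ring
    omega
  have hk1 : k = f + 1 := by omega
  have hDN : f + N = D := by
    subst hk1
    have e : (N - 1) * f + f = f * N := by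
      obtain ⟨M, rfl⟩ : ∃ M, N = M + 1 := ⟨N - 1, by omega⟩
      simp; ring
    have e2 : (f + 1) * N = f * N + N := by ring
    omega
  refine ⟨hDN, w, h3, ?_⟩
  rw [hk, hk1, ← hDN, ← h3] at h2
  -- (f+1) * (w*s) = (f + w*s) * s
  have h4 : (f + 1) * w = f + w * s := by
    apply Nat.eq_of_mul_eq_mul_right hspos
    rw [← h2]; ring
  have hw : 0 < w := by
    rcases Nat.eq_zero_or_pos w with h | h
    · subst h; omega
    · exact h
  obtain ⟨w', rfl⟩ : ∃ M, w = M + 1 := ⟨w - 1, by omega⟩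
  obtain ⟨s', rfl⟩ : ∃ M, s = M + 1 := ⟨s - 1, by omega⟩
  simp only [Nat.add_sub_cancel]
  nlinarith

theorem arith (f s w N q m : ℕ) (hq : 2 ≤ q) (hm : (q - 1) * m = N - 1) (hN : q * q ≤ N) (hw : w * s = N)
    (hf : f * (w - 1) = w * (s - 1)) (hlt : f < m) : s = 1 ∨ (q ≤ w ∧ w ≤ s) := by
  by_cases hs1 : s = 1
  · left; exact hs1
  right
  have hspos : 0 < s := by
    rcases Nat.eq_zero_or_pos s with h | h
    · subst h; rw [mul_zero] at hw; subst hw; nlinarith
    · exact h
  have hwpos : 0 < w := by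
    rcases Nat.eq_zero_or_pos w with h | h
    · subst h; rw [zero_mul] at hw; subst hw; nlinarith
    · exact h
  have hcop : Nat.Coprime w (w - 1) := by
    have := Nat.coprime_self_add_right (m := w - 1) (n := 1)
    rw [Nat.coprime_comm]
    have h2 : w = (w - 1) + 1 := by omega
    nth_rewrite 2 [h2]
    simp
  have hdvd : w ∣ f := by
    have : w ∣ f * (w - 1) := by rw [hf]; exact dvd_mul_right _ _
    exact hcop.dvd_of_dvd_mul_right this
  obtain ⟨g, rfl⟩ := hdvd
  have hg : g * (w - 1) = s - 1 := by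
    apply Nat.eq_of_mul_eq_mul_left hwpos
    rw [← hf]; ring
  have hgpos : 0 < g := by
    rcases Nat.eq_zero_or_pos g with h | h
    · subst h; rw [zero_mul] at hg; omega
    · exact h
  have hws : w ≤ s := by
    have : w - 1 ≤ g * (w - 1) := Nat.le_mul_of_pos_left _ hgpos
    omega
  refine ⟨?_, hws⟩
  by_contra hcon
  push Not at hcon
  -- (q-1) w g ≤ (q-1)(m-1)
  obtain ⟨q', rfl⟩ : ∃ M, q = M + 1 := ⟨q - 1, by omega⟩
  obtain ⟨w', rfl⟩ : ∃ M, w = M + 1 := ⟨w - 1, by omega⟩
  obtain ⟨s', rfl⟩ : ∃ M, s = M + 1 := ⟨s - 1, by omega⟩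
  obtain ⟨m', rfl⟩ : ∃ M, m = M + 1 := ⟨m - 1, by omega⟩
  simp only [Nat.add_sub_cancel] at *
  have h1 : (w' + 1) * g ≤ m' := by omega
  have h2 : q' * ((w' + 1) * g) ≤ q' * m' := Nat.mul_le_mul_left _ h1
  have h3 : w' + 1 ≤ q' := by omega
  have h4 : (w' + 1) * ((w' + 1) * g) ≤ q' * ((w' + 1) * g) := Nat.mul_le_mul_right _ h3
  have h5 : q' * (m' + 1) + 1 = N := by
    have : 0 < N := by nlinarith
    omega
  nlinarith

end H41.CharCount2
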