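import Cfsg.Agent.Lib.H41.FrP1c
import Cfsg.Agent.Lib.H83.FrNorm

/-! # FRAMES P1c: `c2` and `c4` -/

set_option autoImplicit false

namespace H41.FrC24

open Matrix H96.Fr

variable {ι F : Type*} [Fintype ι] [DecidableEq ι] [Field F] {K : Subgroup ((ι → F) ≃ₗ[F] (ι → F))}

theorem c2 (D : Dat K) (h2 : (2:F) ≠ 0) {r : ℕ} (hr : MonLe K r)
    (hN : (Fintype.card ι = 5 ∧ 3 ≤ r) ∨ (Fintype.card ι = 7 ∧ 5 ≤ r) ∨
      (7 ≤ Fintype.card ι ∧ Fintype.card ι ≤ r + 2)) : C2 K :=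
  H41.FrP1c.c2_of D h2 (fun g hg R hR hm hn _ => H83.FrNorm.norm_lem D h2 hg hR hm hn) hr hN

theorem c4 (D : Dat K) (h2 : (2:F) ≠ 0) {r : ℕ} (hr : MonLe K r)
    (hN : (Fintype.card ι = 5 ∧ 4 ≤ r) ∨ (Fintype.card ι = 7 ∧ 5 ≤ r) ∨
      (9 ≤ Fintype.card ι ∧ Fintype.card ι ≤ r + 2)) : C4 K :=
  H41.FrP1c.c4_of D h2 (fun g hg R hR hm hn _ => H83.FrNorm.norm_lem D h2 hg hR hm hn) hr hN

end H41.FrC24
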