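import Cfsg.Agent.Lib.H96.FrDef

/-! # FRAMES P1a: elements monomial outside of a set -/

set_option autoImplicit false

namespace H41.FrP1a

open Matrix H96.Fr

variable {ι F : Type*} [Fintype ι] [DecidableEq ι] [Field F] {K : Subgroup ((ι → F) ≃ₗ[F] (ι → F))}

omit [Fintype ι] in
theorem e_apply (i k : ι) : (e i : ι → F) k = if k = i then 1 else 0 := by
  unfold e; rw [Pi.single_apply]

omit [Fintype ι] in
/-- `e i = ± e j` only for `i = j` -/
theorem e_inj {i j : ι} (h : (e i : ι → F) = e j ∨ (e i : ι → F) = - e j) : i = j := by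
  by_contra hne
  rcases h with h | h
  · have := congrFun h i
    rw [e_apply, e_apply, if_pos rfl, if_neg hne] at this
    exact one_ne_zero this
  · have := congrFun h i
    rw [Pi.neg_apply, e_apply, e_apply, if_pos rfl, if_neg hne, neg_zero] at this
    exact one_ne_zero this

theorem sg_e (i j k : ι) : sg i j (e k : ι → F) = if k = i ∨ k = j then - e k else e k := by
  funext l
  rw [sg_apply]
  by_cases hk : k = i ∨ k = j
  · rw [if_pos hk]
    by_cases hl : l = k
    · subst hl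
      rw [if_pos hk]; rfl
    · rw [Pi.neg_apply, e_apply, if_neg hl]
      by_cases h3 : l = i ∨ l = j
      · rw [if_pos h3]
      · rw [if_neg h3, neg_zero]
  · rw [if_neg hk]
    by_cases hl : l = k
    · subst hl
      rw [if_neg hk]
    · rw [e_apply, if_neg hl]
      by_cases h3 : l = i ∨ l = j
      · rw [if_pos h3, neg_zero]
      · rw [if_neg h3]

/-- the group of isometries acts as a group: simple rewriting -/
theorem mul_app (g h : (ι → F) ≃ₗ[F] (ι → F)) (x : ι → F) : (g * h) x = g (h x) := rfl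

theorem inv_app (g : (ι → F) ≃ₗ[F] (ι → F)) (x : ι → F) : g (g⁻¹ x) = x := by
  rw [← mul_app, mul_inv_cancel]; rfl

theorem inv_app' (g : (ι → F) ≃ₗ[F] (ι → F)) (x : ι → F) : g⁻¹ (g x) = x := by
  rw [← mul_app, inv_mul_cancel]; rfl

theorem inv_eq {g : (ι → F) ≃ₗ[F] (ι → F)} {x y : ι → F} (h : g x = y) : g⁻¹ y = x := by
  rw [← h, inv_app']

/-- signs -/
theorem exists_sgn (D : Dat K) {I : Finset ι} {i0 : ι} (hi0 : i0 ∈ I) (J : Finset ι) (hJ : ∀ j ∈ J, j ∉ I) :
    ∃ s ∈ K, (∀ i, s (e i) = e i ∨ s (e i) = - (e i : ι → F)) ∧ (∀ j, j ∉ I → j ∈ J → s (e j) = - (e j : ι → F)) ∧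
      ∀ j, j ∉ I → j ∉ J → s (e j) = (e j : ι → F) := by
  induction J using Finset.induction_on with
  | empty => exact ⟨1, K.one_mem, fun i => Or.inl rfl, fun j _ hj => absurd hj (Finset.notMem_empty j), fun j _ _ => rfl⟩
  | insert a J ha ih =>
    obtain ⟨s, hs, h1, h2, h3⟩ := ih (fun j hj => hJ j (Finset.mem_insert_of_mem hj))
    have haI : a ∉ I := hJ a (Finset.mem_insert_self a J)
    have hne : a ≠ i0 := fun h => haI (h ▸ hi0)
    refine ⟨sg a i0 * s, K.mul_mem (D.sg a i0 hne) hs, ?_, ?_, ?_⟩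
    · intro i
      rw [mul_app]
      rcases h1 i with h | h
      · rw [h, sg_e]
        by_cases h' : i = a ∨ i = i0
        · rw [if_pos h']; exact Or.inr rfl
        · rw [if_neg h']; exact Or.inl rfl
      · rw [h, map_neg, sg_e]
        by_cases h' : i = a ∨ i = i0
        · rw [if_pos h', neg_neg]; exact Or.inl rfl
        · rw [if_neg h']; exact Or.inr rfl
    · intro j hjI hj
      rw [mul_app]
      by_cases hjJ : j ∈ J
      · have hja : j ≠ a := fun h => ha (h ▸ hjJ)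
        have hji : j ≠ i0 := fun h => hjI (h ▸ hi0)
        rw [h2 j hjI hjJ, map_neg, sg_e, if_neg (not_or.2 ⟨hja, hji⟩)]
      · have hja : j = a := (Finset.mem_insert.1 hj).resolve_right hjJ
        rw [h3 j hjI hjJ, sg_e, if_pos (Or.inl hja)]
    · intro j hjI hj
      rw [mul_app, h3 j hjI (fun h => hj (Finset.mem_insert_of_mem h)), sg_e, if_neg]
      rintro (rfl | rfl)
      · exact hj (Finset.mem_insert_self _ _)
      · exact hjI hi0

theorem step0 (D : Dat K) (h2 : (2:F) ≠ 0) {g : (ι → F) ≃ₗ[F] (ι → F)} (hg : g ∈ K) {I : Finset ι} (hI : 2 ≤ I.card)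
    (h : ∀ j, j ∉ I → ∃ k, g (e j) = e k ∨ g (e j) = - e k) (hm : ∀ x ∈ K, Sup x I → Mon x) : Mon g := by
  classical
  have h' : ∀ j, ∃ k, j ∉ I → g (e j) = e k ∨ g (e j) = - e k := by
    intro j
    by_cases hj : j ∈ I
    · exact ⟨j, fun h => absurd hj h⟩
    · obtain ⟨k, hk⟩ := h j hj; exact ⟨k, fun _ => hk⟩
  choose κ hκ using h'
  have hinj : Set.InjOn κ ((Iᶜ : Finset ι) : Set ι) := by
    intro j hj j' hj' hjj
    have hj1 : j ∉ I := by simpa using hj
    have hj2 : j' ∉ I := by simpa using hj'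
    apply e_inj (F := F)
    have e1 := hκ j hj1
    have e2 := hκ j' hj2
    rw [hjj] at e1
    rcases e1 with e1 | e1 <;> rcases e2 with e2 | e2
    · left; exact g.injective (e1.trans e2.symm)
    · right; apply g.injective; rw [map_neg, e1, e2, neg_neg]
    · right; apply g.injective; rw [map_neg, e1, e2]
    · left; exact g.injective (e1.trans e2.symm)
  obtain ⟨f, hf⟩ := Finset.exists_equiv_extend_of_card_eq (α := ι) (β := ι) (t := Finset.univ) (s := Iᶜ) (f := κ)
    (by rw [Finset.card_univ]) (Finset.subset_univ _) hinj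
  let π0 : Equiv.Perm ι := f.trans (Equiv.subtypeUnivEquiv (fun x => Finset.mem_univ x))
  have hπ0 : ∀ j, j ∉ I → π0 j = κ j := fun j hj => hf j (by simpa using hj)
  have hex : ∃ π : Equiv.Perm ι, Equiv.Perm.sign π = 1 ∧ ∀ j, j ∉ I → π j = κ j := by
    rcases Int.units_eq_one_or (Equiv.Perm.sign π0) with hs | hs
    · exact ⟨π0, hs, hπ0⟩
    · obtain ⟨a, ha, b, hb, hab⟩ := Finset.one_lt_card.1 hI
      refine ⟨π0 * Equiv.swap a b, ?_, ?_⟩
      · rw [Equiv.Perm.sign_mul, hs, Equiv.Perm.sign_swap hab]; decide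
      · intro j hj
        rw [Equiv.Perm.mul_apply, Equiv.swap_apply_of_ne_of_ne, hπ0 j hj]
        · rintro rfl; exact hj ha
        · rintro rfl; exact hj hb
  obtain ⟨π, hπ, hπj⟩ := hex
  have hpm := D.pm π hπ
  obtain ⟨g', hgg⟩ : ∃ g' : (ι → F) ≃ₗ[F] (ι → F), g' = (pm π)⁻¹ * g := ⟨_, rfl⟩
  have hK1 : g' ∈ K := hgg ▸ K.mul_mem (K.inv_mem hpm) hg
  have hq : ∀ j, j ∉ I → g' (e j) = e j ∨ g' (e j) = - (e j : ι → F) := by
    intro j hj
    have e1 : (pm π)⁻¹ (e (κ j) : ι → F) = e j := by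
      apply inv_eq
      rw [pm_e, hπj j hj]
    rw [hgg, mul_app]
    rcases hκ j hj with h3 | h3
    · left; rw [h3, e1]
    · right; rw [h3, map_neg, e1]
  obtain ⟨i0, hi0⟩ : ∃ i0, i0 ∈ I := Finset.card_pos.1 (by omega)
  obtain ⟨s, hs, s1, s2, s3⟩ := exists_sgn D hi0 (Finset.univ.filter fun j => j ∉ I ∧ g' (e j) = - (e j : ι → F))
    (fun j hj => (Finset.mem_filter.1 hj).2.1)
  have hx : Sup (s⁻¹ * g') I := by
    intro j hj
    rw [mul_app]
    by_cases h3 : g' (e j) = - (e j : ι → F)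
    · rw [h3, map_neg]
      have h4 := s2 j hj (Finset.mem_filter.2 ⟨Finset.mem_univ _, hj, h3⟩)
      have h5 := inv_eq h4
      rw [map_neg] at h5
      exact h5
    · have h3' : g' (e j) = (e j : ι → F) := (hq j hj).resolve_right h3
      rw [h3']
      exact inv_eq (s3 j hj (fun h4 => h3 (Finset.mem_filter.1 h4).2.2))
  have hM := hm _ (K.mul_mem (K.inv_mem hs) hK1) hx
  have hg' : g = pm π * (s * (s⁻¹ * g')) := by rw [hgg]; group
  intro i
  obtain ⟨k, hk⟩ := hM i
  refine ⟨π k, ?_⟩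
  rw [hg', mul_app, mul_app]
  rcases hk with hk | hk <;> rcases s1 k with h4 | h4
  · left; rw [hk, h4, pm_e]
  · right; rw [hk, h4, map_neg, pm_e]
  · right; rw [hk, map_neg, h4, map_neg, pm_e]
  · left; rw [hk, map_neg, h4, neg_neg, pm_e]

end H41.FrP1a
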