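import Cfsg.Agent.Lib.H41.FrP1a

/-! # FRAMES P1c: centralizers of diagonal involutions, given `norm_lem` -/

set_option autoImplicit false

namespace H41.FrP1c

open Matrix H96.Fr H41.FrP1a

variable {ι F : Type*} [Fintype ι] [DecidableEq ι] [Field F] {K : Subgroup ((ι → F) ≃ₗ[F] (ι → F))}

/-- the statement of `norm_lem` for `K` (with the hypothesis for both `g` and `g⁻¹`) -/
def NL (K : Subgroup ((ι → F) ≃ₗ[F] (ι → F))) : Prop :=
  ∀ g ∈ K, ∀ R : Finset ι, (R.card = 3 ∨ 5 ≤ R.card) → (∀ x ∈ K, Sup x R → Mon x) →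
    (∀ x ∈ K, Sup x R → Sup (g * x * g⁻¹) R) → (∀ x ∈ K, Sup x R → Sup (g⁻¹ * x * g) R) →
    ∀ j ∈ R, ∃ k ∈ R, g (e j) = e k ∨ g (e j) = - e k

theorem vec_eq (v : ι → F) : v = ∑ k, v k • (e k : ι → F) := by
  funext l
  rw [Finset.sum_apply]
  simp only [Pi.smul_apply, smul_eq_mul, e_apply]
  rw [Finset.sum_eq_single l]
  · rw [if_pos rfl, mul_one]
  · intro k _ hk
    rw [if_neg (Ne.symm hk), mul_zero]
  · intro h; exact absurd (Finset.mem_univ l) h

/-- an element supported on `R` fixes the vectors vanishing on `R` -/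
theorem sup_fix {x : (ι → F) ≃ₗ[F] (ι → F)} {R : Finset ι} (hx : Sup x R) {v : ι → F} (hv : ∀ k ∈ R, v k = 0) :
    x v = v := by
  conv_lhs => rw [vec_eq v]
  conv_rhs => rw [vec_eq v]
  rw [map_sum]
  refine Finset.sum_congr rfl fun k _ => ?_
  rw [map_smul]
  by_cases hk : k ∈ R
  · rw [hv k hk, zero_smul, zero_smul]
  · rw [hx k hk]

theorem conj_sup (h2 : (2:F) ≠ 0) {T g : (ι → F) ≃ₗ[F] (ι → F)} {S : Finset ι}
    (hT : ∀ (v : ι → F) k, T v k = if k ∈ S then - v k else v k) (hc : g * T = T * g)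
    {x : (ι → F) ≃ₗ[F] (ι → F)} (hx : Sup x Sᶜ) : Sup (g * x * g⁻¹) Sᶜ := by
  intro j hj
  have hjS : j ∈ S := by simpa using hj
  have hTj : T (e j : ι → F) = - e j := by
    funext k
    rw [hT, Pi.neg_apply, e_apply]
    by_cases h : k = j
    · subst h; rw [if_pos hjS]
    · rw [if_neg h]; split_ifs <;> simp
  have hc' : T * g⁻¹ = g⁻¹ * T := by
    calc T * g⁻¹ = g⁻¹ * (g * T) * g⁻¹ := by group
      _ = g⁻¹ * T := by rw [hc]; group
  have h1 : T (g⁻¹ (e j : ι → F)) = - g⁻¹ (e j : ι → F) := by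
    rw [← mul_app, hc', mul_app, hTj, map_neg]
  have h3 : ∀ k ∈ Sᶜ, g⁻¹ (e j : ι → F) k = 0 := by
    intro k hk
    have hk' : k ∉ S := by simpa using hk
    have h4 := congrFun h1 k
    rw [hT, if_neg hk', Pi.neg_apply] at h4
    have h5 : (2:F) * g⁻¹ (e j : ι → F) k = 0 := by linear_combination h4
    exact (mul_eq_zero.1 h5).resolve_left h2
  rw [mul_app, mul_app, sup_fix hx h3, inv_app]

/-- main step -/
theorem core (D : Dat K) (h2 : (2:F) ≠ 0) (hNL : NL K) {r : ℕ} (hr : MonLe K r) {T g : (ι → F) ≃ₗ[F] (ι → F)}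
    (hg : g ∈ K) {S : Finset ι} (hT : ∀ (v : ι → F) k, T v k = if k ∈ S then - v k else v k) (hc : g * T = T * g)
    (hS : 2 ≤ S.card) (hSr : S.card ≤ r) (hR : Sᶜ.card = 3 ∨ 5 ≤ Sᶜ.card) (hRr : Sᶜ.card ≤ r) : Mon g := by
  have hc' : g⁻¹ * T = T * g⁻¹ := by
    calc g⁻¹ * T = g⁻¹ * (T * g) * g⁻¹ := by group
      _ = T * g⁻¹ := by rw [← hc]; group
  have h := hNL g hg Sᶜ hR (fun x hx hs => hr x hx _ hRr hs) (fun x _ hs => conj_sup h2 hT hc hs)
    (fun x _ hs => by
      have := conj_sup h2 hT hc' hs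
      rwa [inv_inv] at this)
  apply step0 D h2 hg hS
  · intro j hj
    obtain ⟨k, _, hk⟩ := h j (by simpa using hj)
    exact ⟨k, hk⟩
  · intro x hx hs
    exact hr x hx _ hSr hs

theorem c2_of (D : Dat K) (h2 : (2:F) ≠ 0) (hNL : NL K) {r : ℕ} (hr : MonLe K r)
    (hN : (Fintype.card ι = 5 ∧ 3 ≤ r) ∨ (Fintype.card ι = 7 ∧ 5 ≤ r) ∨
      (7 ≤ Fintype.card ι ∧ Fintype.card ι ≤ r + 2)) : C2 K := by
  intro g hg i j hij hc
  have hcS : ({i, j} : Finset ι).card = 2 := Finset.card_pair hij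
  have hcR : ({i, j} : Finset ι)ᶜ.card = Fintype.card ι - 2 := by rw [Finset.card_compl, hcS]
  apply core D h2 hNL hr hg (T := sg i j) (S := {i, j}) _ hc
  · rw [hcS]
  · rw [hcS]; omega
  · rw [hcR]; omega
  · rw [hcR]; omega
  · intro v k
    rw [sg_apply]
    simp only [Finset.mem_insert, Finset.mem_singleton]

theorem dotProduct_e (c : F) (i : ι) : (c • (e i : ι → F)) ⬝ᵥ (c • (e i : ι → F)) = c * c := by
  rw [smul_dotProduct, dotProduct_smul]
  have : (e i : ι → F) ⬝ᵥ e i = 1 := by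
    unfold e
    rw [single_dotProduct, Pi.single_eq_same, mul_one]
  rw [this, smul_eq_mul, smul_eq_mul, mul_one]

theorem c4_of (D : Dat K) (h2 : (2:F) ≠ 0) (hNL : NL K) {r : ℕ} (hr : MonLe K r)
    (hN : (Fintype.card ι = 5 ∧ 4 ≤ r) ∨ (Fintype.card ι = 7 ∧ 5 ≤ r) ∨
      (9 ≤ Fintype.card ι ∧ Fintype.card ι ≤ r + 2)) : C4 K := by
  intro g hg i j k l hnd hc
  simp only [List.nodup_cons, List.mem_cons, List.not_mem_nil, or_false, not_or, not_false_eq_true,
    List.nodup_nil, and_true] at hnd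
  obtain ⟨⟨hij, hik, hil⟩, ⟨hjk, hjl⟩, hkl⟩ := hnd
  have hcS : ({i, j, k, l} : Finset ι).card = 4 := by
    rw [Finset.card_insert_of_notMem, Finset.card_insert_of_notMem, Finset.card_pair hkl]
    · simp only [Finset.mem_insert, Finset.mem_singleton, not_or]; exact ⟨hjk, hjl⟩
    · simp only [Finset.mem_insert, Finset.mem_singleton, not_or]; exact ⟨hij, hik, hil⟩
  have hcR : ({i, j, k, l} : Finset ι)ᶜ.card = Fintype.card ι - 4 := by rw [Finset.card_compl, hcS]
  have hT : ∀ (v : ι → F) m, (sg i j * sg k l : (ι → F) ≃ₗ[F] (ι → F)) v m =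
      if m ∈ ({i, j, k, l} : Finset ι) then - v m else v m := by
    intro v m
    rw [mul_app, sg_apply, sg_apply]
    simp only [Finset.mem_insert, Finset.mem_singleton]
    by_cases h1 : m = i
    · subst h1
      rw [if_pos (Or.inl rfl), if_neg (not_or.2 ⟨hik, hil⟩), if_pos (Or.inl rfl)]
    by_cases h3 : m = j
    · subst h3
      rw [if_pos (Or.inr rfl), if_neg (not_or.2 ⟨hjk, hjl⟩), if_pos (Or.inr (Or.inl rfl))]
    rw [if_neg (not_or.2 ⟨h1, h3⟩)]
    simp only [h1, h3, false_or]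
  by_cases h5 : Fintype.card ι = 5
  · have hr4 : 4 ≤ r := by omega
    apply step0 D h2 hg (I := {i, j, k, l}) (by rw [hcS]; norm_num)
    · intro m hm
      refine ⟨m, ?_⟩
      have hm1 : ({i, j, k, l} : Finset ι)ᶜ.card = 1 := by rw [hcR, h5]
      obtain ⟨m0, hm0⟩ := Finset.card_eq_one.1 hm1
      have hmm : m ∈ ({i, j, k, l} : Finset ι)ᶜ := by simpa using hm
      rw [hm0, Finset.mem_singleton] at hmm
      subst hmm
      have hTm : (sg i j * sg k l : (ι → F) ≃ₗ[F] (ι → F)) (e m) = e m := by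
        funext n
        rw [hT, e_apply]
        by_cases hn : n = m
        · subst hn; rw [if_neg hm]
        · rw [if_neg hn, neg_zero, ite_self]
      have h3 : (sg i j * sg k l : (ι → F) ≃ₗ[F] (ι → F)) (g (e m)) = g (e m) := by
        rw [← mul_app, ← hc, mul_app, hTm]
      have h4 : ∀ n, n ≠ m → g (e m) n = 0 := by
        intro n hn
        have hnS : n ∈ ({i, j, k, l} : Finset ι) := by
          by_contra h
          have : n ∈ ({i, j, k, l} : Finset ι)ᶜ := by simpa using h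
          rw [hm0, Finset.mem_singleton] at this
          exact hn this
        have h6 := congrFun h3 n
        rw [hT, if_pos hnS] at h6
        have h7 : (2:F) * g (e m) n = 0 := by linear_combination -h6
        exact (mul_eq_zero.1 h7).resolve_left h2
      have h8 : g (e m) = (g (e m) m) • (e m : ι → F) := by
        funext n
        rw [Pi.smul_apply, smul_eq_mul, e_apply]
        by_cases hn : n = m
        · subst hn; rw [if_pos rfl, mul_one]
        · rw [if_neg hn, mul_zero, h4 n hn]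
      have h9 := D.iso g hg (e m) (e m)
      rw [h8, dotProduct_e] at h9
      have h10 : (e m : ι → F) ⬝ᵥ e m = 1 := by
        have := dotProduct_e (F := F) 1 m
        rwa [one_smul, mul_one] at this
      rw [h10] at h9
      rcases mul_self_eq_one_iff.1 h9 with h11 | h11
      · left; rw [h8, h11, one_smul]
      · right; rw [h8, h11, neg_one_smul]
    · intro x hx hs
      exact hr x hx _ (by rw [hcS]; exact hr4) hs
  · apply core D h2 hNL hr hg hT hc
    · rw [hcS]; norm_num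
    · rw [hcS]; omega
    · rw [hcR]; omega
    · rw [hcR]; omega

end H41.FrP1c
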