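import Cfsg.Agent.Lib.H69.IC0

/-! # S1315 piece P1 -/

set_option autoImplicit false

open Subgroup Cfsg H26.LocalFitting H69.IC

universe u

namespace H41.IcP1

variable {G : Type u} [Group G] [Finite G]

/-- a normal subgroup of odd index of a group generated by 2-elements is everything -/
theorem eq_top_of_odd {E : Subgroup G} (hE : H26.OPPrime.opp 2 E = E) (N : Subgroup ↥E) (hN : N.Normal)
    (hi : Nat.Coprime N.index 2) : N = ⊤ := by
  have h1 : H26.OPPrime.opp 2 E ≤ N.map E.subtype := by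
    apply (Subgroup.closure_le _).2
    rintro x ⟨hx, k, hk⟩
    refine ⟨⟨x, hx⟩, ?_, rfl⟩
    have h2 : (⟨x, hx⟩ : ↥E) ^ 2 ^ k = 1 := Subtype.ext hk
    haveI := hN
    have h3 : (QuotientGroup.mk' N ⟨x, hx⟩) ^ 2 ^ k = 1 := by rw [← map_pow, h2, map_one]
    have h4 : orderOf (QuotientGroup.mk' N ⟨x, hx⟩) ∣ 2 ^ k := orderOf_dvd_of_pow_eq_one h3
    have h5 : orderOf (QuotientGroup.mk' N ⟨x, hx⟩) ∣ N.index := by
      rw [Subgroup.index_eq_card]; exact orderOf_dvd_natCard _
    have h6 : orderOf (QuotientGroup.mk' N ⟨x, hx⟩) = 1 :=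
      Nat.eq_one_of_dvd_coprimes (hi.pow_right k) h5 h4
    rw [orderOf_eq_one_iff] at h6
    exact (QuotientGroup.eq_one_iff _).1 h6
  rw [hE] at h1
  rw [eq_top_iff]
  intro x _
  obtain ⟨y, hy, hxy⟩ := h1 x.2
  have : y = x := Subtype.ext hxy
  rwa [← this]

/-- if `N ⊔ K = ⊤` with `K` of odd order then `N = ⊤` -/
theorem eq_top_of_sup {E : Subgroup G} (hE : H26.OPPrime.opp 2 E = E) (N K : Subgroup ↥E) (hN : N.Normal)
    (hK : (Nat.card K).Coprime 2) (h : N ⊔ K = ⊤) : N = ⊤ := by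
  apply eq_top_of_odd hE N hN
  have h1 : N.relIndex (K ⊔ N) = N.relIndex K := relIndex_sup_right K N
  rw [sup_comm, h, relIndex_top_right] at h1
  rw [h1]
  exact Nat.Coprime.coprime_dvd_left (relIndex_dvd_card N K) hK

theorem big_of_QS {M : Subgroup G} (h : H37.PCOf.QS 2 M) : Big M (sq M) := by
  haveI : Fact (Nat.Prime 2) := ⟨Nat.prime_two⟩
  intro N hN hne
  obtain ⟨hq, ho⟩ := h
  have hmap : (N.map (QuotientGroup.mk' (pPrimeCore 2 ↥M))).Normal :=
    hN.map _ (QuotientGroup.mk'_surjective _)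
  have hlt : N.map (QuotientGroup.mk' (pPrimeCore 2 ↥M)) ≠ ⊤ := by
    intro h1
    apply hne
    apply eq_top_of_sup ho N (pPrimeCore 2 ↥M) hN (H1.Cores.coprime_card_pPrimeCore 2)
    have h2 := congrArg (Subgroup.comap (QuotientGroup.mk' (pPrimeCore 2 ↥M))) h1
    rw [comap_map_eq, QuotientGroup.ker_mk', comap_top] at h2
    exact h2
  have hle : N.map (QuotientGroup.mk' (pPrimeCore 2 ↥M)) ≤ center (↥M ⧸ pPrimeCore 2 ↥M) :=
    (H26.Quasisimple.subnormal_eq_top_or_le_center hq hmap.isSubnormal).resolve_left hlt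
  have hN2 : N ≤ (center (↥M ⧸ pPrimeCore 2 ↥M)).comap (QuotientGroup.mk' (pPrimeCore 2 ↥M)) := by
    rw [← map_le_iff_le_comap]; exact hle
  have h3 := index_dvd_of_le hN2
  rw [index_comap_of_surjective _ (QuotientGroup.mk'_surjective _), index_eq_card] at h3
  exact Nat.le_of_dvd (Nat.pos_of_ne_zero N.index_ne_zero_of_finite) h3

theorem transfer {D : Type u} [Group D] {M E : Subgroup G} {s : ℕ} (hM : Big M s) (ψ : ↥M →* D)
    (hψ : Function.Surjective ψ) (φ : ↥E →* D) (hφ : Function.Surjective φ) (hk : (Nat.card φ.ker).Coprime 2)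
    (hE : H26.OPPrime.opp 2 E = E) : Big E s := by
  intro N hN hne
  have hmap : (N.map φ).Normal := hN.map _ hφ
  have hlt : N.map φ ≠ ⊤ := by
    intro h1
    apply hne
    apply eq_top_of_sup hE N φ.ker hN hk
    have h2 := congrArg (Subgroup.comap φ) h1
    rw [comap_map_eq, comap_top] at h2
    exact h2
  have hL : ((N.map φ).comap ψ) ≠ ⊤ := by
    intro h1
    apply hlt
    rw [eq_top_iff]
    intro d _
    obtain ⟨m, rfl⟩ := hψ d
    have : m ∈ (N.map φ).comap ψ := by rw [h1]; exact mem_top m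
    exact this
  have h3 := hM _ (hmap.comap ψ) hL
  rw [index_comap_of_surjective _ hψ] at h3
  refine h3.trans ?_
  have h4 : (N.map φ).index ∣ N.index := by
    have h5 : N ≤ (N.map φ).comap φ := le_comap_map φ N
    have h6 := index_dvd_of_le h5
    rwa [index_comap_of_surjective _ hφ] at h6
  exact Nat.le_of_dvd (Nat.pos_of_ne_zero N.index_ne_zero_of_finite) h4

end H41.IcP1
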