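import Mathlib
import Cfsg.Agent.Lib.H41.OrMinusA

/-! The minimal index of `PΩ⁻_{2m}(q)`. -/

set_option autoImplicit false
set_option linter.unusedSectionVars false

namespace H41.OrMinus

open Module QuadraticMap H48.QuadSplit H48.QuadStd H95.OGeo H95.OSie H17.OrthAbs H41.OrB H41.OrD H41.OrG H41.OrH
open H41.OrS2 H41.OrS3 H41.OrS6 H41.OrS8 H41.OrMinusA H7.AnisoPlane
open MulAction
open scoped commutatorElement

section eight

variable {F : Type*} [Field F]

/-- a vector of the eight dimensional space -/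
def vec (x0 x1 x2 y0 y1 y2 z0 z1 : F) : (Fin 3 ⊕ Fin 3) ⊕ Fin 2 → F :=
  Sum.elim (Sum.elim ![x0, x1, x2] ![y0, y1, y2]) ![z0, z1]

theorem Q_vec (a b x0 x1 x2 y0 y1 y2 z0 z1 : F) :
    qMinus 3 F a b (vec x0 x1 x2 y0 y1 y2 z0 z1) = x0 * y0 + x1 * y1 + x2 * y2 + (z0 ^ 2 + a * z0 * z1 + b * z1 ^ 2) := by
  rw [qMinus_apply]
  simp [vec, Fin.sum_univ_three]

theorem p_vec (a b x0 x1 x2 y0 y1 y2 z0 z1 x0' x1' x2' y0' y1' y2' z0' z1' : F) :
    polar (qMinus 3 F a b) (vec x0 x1 x2 y0 y1 y2 z0 z1) (vec x0' x1' x2' y0' y1' y2' z0' z1') =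
      (x0 * y0' + y0 * x0') + (x1 * y1' + y1 * x1') + (x2 * y2' + y2 * x2') +
      (2 * z0 * z0' + a * (z0 * z1' + z1 * z0') + 2 * b * z1 * z1') := by
  rw [polar_qMinus]
  simp [vec, Fin.sum_univ_three]

theorem pairSp8 [Finite F] {a b : F} (h : Aniso a b) (hF : SmallF F) (h3 : (3 : F) = 0) :
    ∃ (v v' : (Fin 3 ⊕ Fin 3) ⊕ Fin 2 → F) (W : Submodule F ((Fin 3 ⊕ Fin 3) ⊕ Fin 2 → F)), qMinus 3 F a b v = 0 ∧
      polar (qMinus 3 F a b) v v' = 1 ∧ PairSp (qMinus 3 F a b) v v' W 3 := by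
  have h2 := two_ne_zero_of_three h3
  have hb : b - a ^ 2 = 1 := by
    rcases hF (b - a ^ 2) with h1 | h1 | h1
    · exfalso
      have h4 := h a 1 (by linear_combination h1 + a ^ 2 * h3)
      exact one_ne_zero h4.2
    · exact h1
    · exfalso
      have h4 := h (a + 1) 1 (by linear_combination h1 + (a ^ 2 + a) * h3)
      exact one_ne_zero h4.2
  have hbot : ∀ w, w ∈ orth (qMinus 3 F a b) (⊥ : Submodule F ((Fin 3 ⊕ Fin 3) ⊕ Fin 2 → F)) := by
    intro w
    rw [mem_orth]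
    intro u hu
    rw [(Submodule.mem_bot F).1 hu, p_zero]
  refine ⟨vec 0 0 1 0 0 0 0 0, vec 0 0 0 0 0 1 0 0, _, ?_, ?_, (((PairSp.zero (Q := qMinus 3 F a b) (vec 0 0 1 0 0 0 0 0) (vec 0 0 0 0 0 1 0 0)).succ h2
    (a := vec 1 0 0 1 0 0 0 0) (b := vec 0 1 0 0 1 0 0 0) ?_ ?_ ?_ ?_ ?_ ?_ ?_ ?_ ?_).succ h2
    (a := vec 1 0 0 (-1) 0 0 0 0) (b := vec 0 1 0 0 (-1) 0 0 0) ?_ ?_ ?_ ?_ ?_ ?_ ?_ ?_ ?_).succ h2
    (a := vec 0 0 0 0 0 0 1 0) (b := vec 0 0 0 0 0 0 a 1) ?_ ?_ ?_ ?_ ?_ ?_ ?_ ?_ ?_⟩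
  all_goals
    simp only [mem_orth_sup, Q_vec, p_vec, hbot, true_and]
  all_goals try ring1
  all_goals try (norm_num; done)
  · linear_combination (-1 : F) * hb - a ^ 2 * h3
  · linear_combination a * h3

end eight

theorem arithA {q x t z C κ : ℤ} (hq : 4 ≤ q) (hx0 : 64 ≤ x) (hκ : 3 * q ≤ κ * (q - 1) ^ 2)
    (ht : (q - 1) * t = (x + 1) * (x - q))
    (hz : z = x ^ 2 + x) (hC : κ * ((q - 1) * z) ≤ 2 * C) : q * t < C := by
  have h1 : 2 * (q - 1) * (q * t) < 2 * (q - 1) * C := by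
    have h2 : (q - 1) * (κ * ((q - 1) * z)) ≤ (q - 1) * (2 * C) := mul_le_mul_of_nonneg_left hC (by linarith)
    have h3 : 2 * (q - 1) * (q * t) = 2 * q * ((x + 1) * (x - q)) := by rw [← ht]; ring
    rw [h3]
    refine lt_of_lt_of_le ?_ (h2.trans (le_of_eq (by ring)))
    rw [hz]
    have h4 : (q - 1) * (κ * ((q - 1) * (x ^ 2 + x))) = (κ * (q - 1) ^ 2) * (x * (x + 1)) := by ring
    rw [h4]
    have h5 : 0 < x * (x + 1) := mul_pos (by linarith) (by linarith)
    have h6 := mul_le_mul_of_nonneg_right hκ h5.le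
    refine lt_of_lt_of_le ?_ h6
    have h7 : 3 * q * (x * (x + 1)) - 2 * q * ((x + 1) * (x - q)) = q * ((x + 1) * (x + 2 * q)) := by ring
    have h8 : 0 < q * ((x + 1) * (x + 2 * q)) := mul_pos (by linarith) (mul_pos (by linarith) (by linarith))
    linarith
  exact lt_of_mul_lt_mul_left h1 (by linarith)

theorem arithB {q x N z C p κ : ℤ} (hq : 4 ≤ q) (hx : 64 ≤ x) (hp : 9 * q ^ 2 ≤ 4 * (p * κ * (q - 1) ^ 2)) (hp0 : 0 ≤ p)
    (hN : (q - 1) * N = (q * x + 1) * (x - 1))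
    (hz : z = x ^ 2 + x) (hC : κ * ((q - 1) * z) ≤ 2 * C) : q * N ≤ p * C := by
  have h1 : 2 * (q - 1) * (q * N) ≤ 2 * (q - 1) * (p * C) := by
    have h2 : (p * (q - 1)) * (κ * ((q - 1) * z)) ≤ (p * (q - 1)) * (2 * C) :=
      mul_le_mul_of_nonneg_left hC (mul_nonneg hp0 (by linarith))
    have h3 : 2 * (q - 1) * (q * N) = 2 * q * ((q * x + 1) * (x - 1)) := by rw [← hN]; ring
    rw [h3]
    refine le_trans ?_ (h2.trans (le_of_eq (by ring)))
    rw [hz]
    have h4 : p * (q - 1) * (κ * ((q - 1) * (x ^ 2 + x))) = (p * κ * (q - 1) ^ 2) * (x * (x + 1)) := by ring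
    rw [h4]
    have h5 : 0 ≤ x * (x + 1) := mul_nonneg (by linarith) (by linarith)
    have h6 := mul_le_mul_of_nonneg_right hp h5
    have h7 : 9 * q ^ 2 * (x * (x + 1)) - 4 * (2 * q * ((q * x + 1) * (x - 1)))
      = q * (q * (x * x) + (17 * q - 8) * x + 8) := by ring
    have h8 : 0 ≤ q * (q * (x * x) + (17 * q - 8) * x + 8) := by
      have e1 : 0 ≤ q * (x * x) := mul_nonneg (by linarith) (mul_nonneg (by linarith) (by linarith))
      have e2 : 0 ≤ (17 * q - 8) * x := mul_nonneg (by linarith) (by linarith)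
      exact mul_nonneg (by linarith) (by linarith)
    linarith
  exact le_of_mul_le_mul_left h1 (by linarith)

variable {F : Type*} [Field F]

theorem finrank_minus (m : ℕ) : finrank F ((Fin m ⊕ Fin m) ⊕ Fin 2 → F) = 2 * m + 2 := by
  rw [Module.finrank_fintype_fun_eq_card]
  simp
  ring

theorem half_false [Finite F] (m : ℕ) {a b : F} (h : Aniso a b) (T : Submodule F ((Fin m ⊕ Fin m) ⊕ Fin 2 → F))
    (hT : ∀ x ∈ T, qMinus m F a b x = 0) : 2 * finrank F T ≠ finrank F ((Fin m ⊕ Fin m) ⊕ Fin 2 → F) := by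
  intro hd
  have hQ : ND (qMinus m F a b) := nd_qMinus m (disc_ne_zero h)
  have h1 := cnt_half hQ (r := m + 1) (by rw [finrank_minus]; ring) hT hd
  have h2 : OrG.cnt (qMinus m F a b) 0 + Nat.card F ^ (m + 1) = Nat.card F ^ (2 * m + 1) + Nat.card F ^ m :=
    H7.HypStd.cnt_minus m h
  have h3 : 1 < Nat.card F := Finite.one_lt_card
  have h4 : Nat.card F * (OrG.cnt (qMinus m F a b) 0 + Nat.card F ^ (m + 1)) = Nat.card F * (Nat.card F ^ (2 * m + 1) + Nat.card F ^ m) := by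
    rw [h2]
  have e1 : Nat.card F ^ (2 * (m + 1)) = Nat.card F * Nat.card F ^ (2 * m + 1) := by
    rw [← pow_succ']
    congr 1
  have e2 : Nat.card F * Nat.card F ^ m = Nat.card F ^ (m + 1) := by rw [← pow_succ']
  rw [mul_add, mul_add, e2] at h4
  rw [e1] at h1
  have h5 : 2 * Nat.card F ^ (m + 1) < 2 * (Nat.card F * Nat.card F ^ (m + 1)) := by
    have : 0 < Nat.card F ^ (m + 1) := by positivity
    nlinarith
  omega

set_option maxHeartbeats 2000000 in
theorem index_ge [Fintype F] {q : ℕ} (hF : Fintype.card F = q) (m : ℕ) (hm : 4 ≤ m) {a b : F} (hab : Aniso a b) :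
    (∀ K : Subgroup ↥(⁅O (qMinus (m - 1) F a b), O (qMinus (m - 1) F a b)⁆), K ≠ ⊤ →
      (q ^ m + 1) * (q ^ (m - 1) - 1) / (q - 1) ≤ K.index) ∧
    ∃ K : Subgroup ↥(⁅O (qMinus (m - 1) F a b), O (qMinus (m - 1) F a b)⁆), K.index = (q ^ m + 1) * (q ^ (m - 1) - 1) / (q - 1) ∧
      Subgroup.center ↥(⁅O (qMinus (m - 1) F a b), O (qMinus (m - 1) F a b)⁆) ≤ K := by
  have hF' : Nat.card F = q := by rw [Nat.card_eq_fintype_card, hF]
  obtain ⟨k, rfl⟩ := Nat.exists_eq_add_of_le hm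
  have hQ : ND (qMinus (4 + k - 1) F a b) := nd_qMinus _ (disc_ne_zero hab)
  have hfr : finrank F ((Fin (4 + k - 1) ⊕ Fin (4 + k - 1)) ⊕ Fin 2 → F) = 2 * (4 + k) := by
    rw [finrank_minus]; omega
  have h2q : 2 ≤ q := by rw [← hF]; exact Fintype.one_lt_card
  set x : ℕ := q ^ (4 + k - 1) with hx
  have hxq : q ^ 3 ≤ x := Nat.pow_le_pow_right (by omega) (by omega)
  have hq1x : q + 1 < x := by
    have : q + 1 < q ^ 3 := by
      have : q ^ 3 = q * q ^ 2 := by ring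
      rw [this]
      have : 2 ^ 2 ≤ q ^ 2 := Nat.pow_le_pow_left h2q 2
      nlinarith
    omega
  have e1 : q ^ (4 + k) = q * x := by
    rw [hx, ← pow_succ']
    congr 1
    omega
  have e2 : q ^ (2 * (4 + k) - 2) = x ^ 2 := by
    rw [hx, ← pow_mul]
    congr 1
    omega
  have e3 : q ^ (2 * (4 + k - 1) + 1) = q * x ^ 2 := by
    rw [hx, ← pow_mul, ← pow_succ']
    congr 1
    omega
  -- the number
  rw [e1]
  have hdiv : (q - 1) ∣ (q * x + 1) * (x - 1) := by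
    apply Dvd.dvd.mul_left
    rw [hx]
    simpa using Nat.sub_dvd_pow_sub_pow q 1 (4 + k - 1)
  obtain ⟨N, hN⟩ := hdiv
  rw [hN, Nat.mul_div_cancel_left _ (by omega)]
  have hx1 : 1 ≤ x := by omega
  have hNz : ((q : ℤ) - 1) * N = (q * x + 1) * (x - 1) := by
    have := congrArg (fun n : ℕ => (n : ℤ)) hN
    push_cast [hx1, show 1 ≤ q by omega] at this
    exact this.symm
  have h2z : (2 : ℤ) ≤ q := by exact_mod_cast h2q
  have hqxz : (q : ℤ) + 1 < x := by exact_mod_cast hq1x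
  have hq1 : (0 : ℤ) < (q : ℤ) - 1 := by linarith
  have hNx : x ^ 2 + 1 < N := by
    have h5 : ((q : ℤ) - 1) * (x ^ 2 + 1) < ((q : ℤ) - 1) * N := by
      rw [hNz]
      have : (q * x + 1) * (x - 1) - ((q : ℤ) - 1) * (x ^ 2 + 1) = (x + 1) * (x - q) := by ring
      have h6 : 0 < ((x : ℤ) + 1) * (x - q) := mul_pos (by linarith) (by linarith)
      linarith
    have h6 := lt_of_mul_lt_mul_left h5 hq1.le
    exact_mod_cast h6
  obtain ⟨t, ht⟩ : ∃ t, N = x ^ 2 + t + 1 := ⟨N - x ^ 2 - 1, by omega⟩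
  have htpos : 0 < t := by omega
  have htz : ((q : ℤ) - 1) * t = (x + 1) * (x - q) := by
    have : (N : ℤ) = x ^ 2 + t + 1 := by exact_mod_cast ht
    rw [this] at hNz
    linear_combination hNz
  have hNt : Nat.card F ^ (finrank F ((Fin (4 + k - 1) ⊕ Fin (4 + k - 1)) ⊕ Fin 2 → F) - 2) + t + 1 = N := by
    rw [hF', hfr, e2, ht]
  have hcnt : OrG.cnt (qMinus (4 + k - 1) F a b) 0 = 1 + (Nat.card F - 1) * N := by
    have h5 : OrG.cnt (qMinus (4 + k - 1) F a b) 0 + q ^ (4 + k - 1 + 1) = q ^ (2 * (4 + k - 1) + 1) + q ^ (4 + k - 1) := by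
      have := H7.HypStd.cnt_minus (F := F) (4 + k - 1) hab
      rw [hF'] at this
      exact this
    rw [e3, show 4 + k - 1 + 1 = 4 + k by omega, e1] at h5
    rw [hF', ← hN]
    have h6 : (OrG.cnt (qMinus (4 + k - 1) F a b) 0 : ℤ) = ((1 + (q * x + 1) * (x - 1) : ℕ) : ℤ) := by
      push_cast [hx1]
      have h7 : (OrG.cnt (qMinus (4 + k - 1) F a b) 0 : ℤ) + q * x = q * x ^ 2 + x := by exact_mod_cast h5
      linear_combination h7
    exact_mod_cast h6
  set z := x ^ 2 + x with hz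
  have hcz : ∀ (c : F), c ≠ 0 → z + (Nat.card F - 1) * Nat.card F ^ (finrank F ((Fin (4 + k - 1) ⊕ Fin (4 + k - 1)) ⊕ Fin 2 → F) - 2) ≤
      OrG.cnt (qMinus (4 + k - 1) F a b) c := by
    intro c hc
    have h6 := cnt_minus_ne (F := F) (4 + k - 1) hab hc
    rw [hF', e3] at h6
    rw [hF', hfr, e2, h6]
    have h5' : (q - 1) * x ^ 2 + x ^ 2 = q * x ^ 2 := by
      obtain ⟨s, rfl⟩ : ∃ s, q = s + 1 := ⟨q - 1, by omega⟩
      rw [Nat.add_sub_cancel]
      ring
    omega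
  have hn7 : 7 ≤ finrank F ((Fin (4 + k - 1) ⊕ Fin (4 + k - 1)) ⊕ Fin 2 → F) := by rw [hfr]; omega
  by_cases h4 : 4 ≤ q
  · -- large fields
    have h4z : (4 : ℤ) ≤ q := by exact_mod_cast h4
    have hx64 : 64 ≤ x := by
      calc 64 = 4 ^ 3 := by norm_num
        _ ≤ q ^ 3 := Nat.pow_le_pow_left h4 3
        _ ≤ x := hxq
    have hx64z : (64 : ℤ) ≤ x := by exact_mod_cast hx64
    -- the characteristic
    obtain ⟨p, hpc⟩ := CharP.exists F
    have hp : p.Prime := (CharP.char_is_prime_or_zero F p).resolve_right (by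
      rintro rfl
      have := CharP.charP_to_charZero F
      exact (Infinite.not_finite (α := F)) inferInstance)
    have hpF : (p : F) = 0 := CharP.cast_eq_zero F p
    obtain ⟨κ, hκ1, hκ2, hκ3⟩ := OrPlus.exists_kappa (F := F) (by rw [hF]; exact h4) hp
    rw [hF] at hκ1 hκ2
    have hzz : (z : ℤ) = x ^ 2 + x := by
      rw [hz]; push_cast; ring
    have hCl : ∀ (v : (Fin (4 + k - 1) ⊕ Fin (4 + k - 1)) ⊕ Fin 2 → F) (c : F), v ≠ 0 → qMinus (4 + k - 1) F a b v = 0 → c ≠ 0 →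
        (κ : ℤ) * (((q : ℤ) - 1) * z) ≤ 2 * (Nat.card (Cl (qMinus (4 + k - 1) F a b) v c) : ℤ) := by
      intro v c hv0 hv hc
      have h3 := card_Cl_ge hQ hv hv0 (by omega) hc (z := z) hcz
      have h6 := hκ3 c hc
      rw [hF'] at h6
      have h5' : κ * ((q - 1) * z) ≤ 2 * Nat.card (Cl (qMinus (4 + k - 1) F a b) v c) := by
        calc κ * ((q - 1) * z) = (κ * (q - 1)) * z := by ring
          _ ≤ (2 * Nat.card {b : F // ∃ d : F, d ≠ 0 ∧ b = d * d * c}) * z := Nat.mul_le_mul_right _ h6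
          _ = 2 * (Nat.card {b : F // ∃ d : F, d ≠ 0 ∧ b = d * d * c} * z) := by ring
          _ ≤ _ := Nat.mul_le_mul_left _ h3
      have h7 : ((κ * ((q - 1) * z) : ℕ) : ℤ) ≤ ((2 * Nat.card (Cl (qMinus (4 + k - 1) F a b) v c) : ℕ) : ℤ) := by exact_mod_cast h5'
      push_cast [show 1 ≤ q by omega] at h7
      exact h7
    refine abs_nonhalf hQ hn7 (by omega) htpos hNt hcnt ?_ hp hpF ?_ (half_false _ hab)
    · intro v c hv0 hv hc
      rw [hF']
      have h7 := arithA (q := q) (x := x) (t := t) (z := z) (κ := κ) (C := (Nat.card (Cl (qMinus (4 + k - 1) F a b) v c) : ℤ))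
        h4z hx64z hκ1 htz hzz (hCl v c hv0 hv hc)
      exact_mod_cast h7
    · intro v c hv0 hv hc
      rw [hF']
      have h7 := arithB (q := q) (x := x) (N := N) (z := z) (κ := κ) (p := p) (C := (Nat.card (Cl (qMinus (4 + k - 1) F a b) v c) : ℤ))
        h4z hx64z hκ2 (by positivity) hNz hzz (hCl v c hv0 hv hc)
      exact_mod_cast h7
  · -- small fields
    have hq23 : Nat.card F = 2 ∨ Nat.card F = 3 := by omega
    have hS := smallF_of_card hq23
    have hcl : ∀ (v : (Fin (4 + k - 1) ⊕ Fin (4 + k - 1)) ⊕ Fin 2 → F) (c : F), v ≠ 0 → qMinus (4 + k - 1) F a b v = 0 → c ≠ 0 →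
        z ≤ Nat.card (Cl (qMinus (4 + k - 1) F a b) v c) := by
      intro v c hv0 hv hc
      have h3 := card_Cl_ge hQ hv hv0 (by omega) hc (z := z) hcz
      have h8 : 1 ≤ Nat.card {b : F // ∃ d : F, d ≠ 0 ∧ b = d * d * c} := by
        have : Nonempty {b : F // ∃ d : F, d ≠ 0 ∧ b = d * d * c} := ⟨⟨c, 1, one_ne_zero, by ring⟩⟩
        exact Nat.card_pos
      calc z = 1 * z := (one_mul _).symm
        _ ≤ _ := Nat.mul_le_mul_right _ h8
        _ ≤ _ := h3
    have hstab := exists_stab hQ hn7 (OrA.sie_mem hQ hn7) (omega_le_O (qMinus (4 + k - 1) F a b)) (N := N)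
      (by rw [← hNt]; exact (num_of_cnt hQ (by omega) htpos (by rw [hNt]; exact hcnt)).2)
    refine ⟨?_, hstab⟩
    have hq3z : (q : ℤ) ≤ 3 := by
      have : q ≤ 3 := by omega
      exact_mod_cast this
    refine abs_small (M := N) hQ hn7 hS htpos (by rw [hNt]; exact hcnt) (le_of_eq hNt.symm) ?_ ?_ ?_ ?_ ?_ (half_false _ hab)
    · rw [hF', hfr, e2]
      have h5 : ((q : ℤ) - 1) * N ≤ ((q : ℤ) - 1) * (2 * x ^ 2) := by
        rw [hNz]
        nlinarith
      have h6 := le_of_mul_le_mul_left h5 hq1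
      exact_mod_cast h6
    · intro v c hv0 hv hc
      refine lt_of_lt_of_le ?_ (hcl v c hv0 hv hc)
      rw [hF', hfr, e2, show N - 1 - x ^ 2 = t by omega]
      have h5 : ((q : ℤ) - 1) * t < (x : ℤ) ^ 2 + x := by
        rw [htz]
        nlinarith
      have h6 : (((q - 1) * t : ℕ) : ℤ) < ((z : ℕ) : ℤ) := by
        rw [hz]
        push_cast [show 1 ≤ q by omega]
        exact h5
      exact_mod_cast h6
    · intro v c hv0 hv hc
      refine le_trans ?_ (Nat.mul_le_mul_left 5 (hcl v c hv0 hv hc))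
      rw [hF']
      have h5 : ((q : ℤ) - 1) * (q * N) ≤ ((q : ℤ) - 1) * (5 * (x ^ 2 + x)) := by
        have e5 : ((q : ℤ) - 1) * (q * N) = q * ((q * x + 1) * (x - 1)) := by rw [← hNz]; ring
        rw [e5]
        rcases hq23 with h | h
        · have hq2 : (q : ℤ) = 2 := by rw [← hF', h]; rfl
          rw [hq2]
          nlinarith [sq_nonneg (x : ℤ), hqxz, h2z]
        · have hq2 : (q : ℤ) = 3 := by rw [← hF', h]; rfl
          rw [hq2]
          nlinarith [sq_nonneg (x : ℤ), hqxz, h2z]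
      have h6 := le_of_mul_le_mul_left h5 hq1
      rw [hz]
      exact_mod_cast h6
    · intro v w hv0 hv hvw hw
      rcases hq23 with h | h
      · exact comp_two hQ (by omega) hS (two_eq_zero h) hvw hw
      · exact comp_three hQ (by omega) hS (three_eq_zero h) hvw hw
    · intro ψ D K
      rcases hq23 with h | h
      · exact nar_two (two_eq_zero h) hS (r := 4 + k) hfr (by omega) D K
      · have h3 := three_eq_zero h
        have h2 := two_ne_zero_of_three h3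
        by_cases hk : k = 0
        · subst hk
          obtain ⟨v, v', W, hv, hvv, hW⟩ := pairSp8 hab hS h3
          exact nar_three hQ h2 hv hvv hW (by rw [hfr]; omega) (by omega) D K
        · obtain ⟨v, -, v', -, hv, hv', hvv⟩ := exists_hyp hQ (L := (⊥ : Submodule F ((Fin (4 + k - 1) ⊕ Fin (4 + k - 1)) ⊕ Fin 2 → F)))
            (by rw [finrank_bot]; omega)
          obtain ⟨W, hW⟩ := exists_pairSp hQ h2 hS hv hv' hvv (4 + k - 2) (by rw [hfr]; omega)
          exact nar_three hQ h2 hv hvv hW (by rw [hfr]; omega) (by omega) D K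

end H41.OrMinus
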