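import Mathlib
import Cfsg.Agent.Lib.H41.OrThree

/-! The minimal index of `PΩ_{2m+1}(3)`. -/

set_option autoImplicit false
set_option linter.unusedSectionVars false

namespace H41.OrOddThree

open Module QuadraticMap H48.QuadSplit H48.QuadStd H95.OGeo H95.OSie H17.OrthAbs H41.OrB H41.OrC H41.OrD H41.OrF H41.OrG H41.OrH
open H41.OrS2 H41.OrS3 H41.OrS6 H41.OrS8 H41.OrMinusA H41.OrThree
open MulAction
open scoped commutatorElement

section abs

variable {F V : Type*} [Field F] [Finite F] [AddCommGroup V] [Module F V] [FiniteDimensional F V]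
  {Q : QuadraticForm F V}

/-- dimension seven -/
theorem abs_seven (hQ : ND Q) (hn : finrank F V = 7) (hF3 : Nat.card F = 3)
    (hcnt : OrG.cnt Q 0 = 729) (hc : OrG.cnt Q 1 = 756) (hc' : OrG.cnt Q (-1) = 702)
    (hnar : ∀ {ψ : AddChar F ℂ} (D : Dat Q ⁅O Q, O Q⁆ ψ) (K : Subgroup ↥(⁅O Q, O Q⁆)), NAR D (↥(⁅O Q, O Q⁆) ⧸ K)) :
    ∀ K : Subgroup ↥(⁅O Q, O Q⁆), K ≠ ⊤ → 351 ≤ K.index := by
  obtain ⟨ψ, hψ⟩ := exists_psi F
  have D := dat hQ (by omega) hψ
  have hF := smallF_of_card (F := F) (Or.inr hF3)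
  have h3 := three_eq_zero hF3
  have h2 := two_ne_zero_of_three h3
  obtain ⟨hNum, hX⟩ := num_of_cnt hQ (by omega) (t := 120) (by norm_num) (by rw [hcnt, hn, hF3]; norm_num)
  have : Finite V := Module.finite_of_finite F
  have : Finite (V ≃ₗ[F] V) := Finite.of_injective (fun e => (e : V → V)) DFunLike.coe_injective
  intro K hK
  refine index_of_action (fun K h1 => ?_) K hK
  by_contra hcon
  push Not at hcon
  -- class sizes
  have hCl : ∀ v x, v ≠ 0 → Q v = 0 → polar Q v x = 0 → Q x ≠ 0 → 216 ≤ Nat.card (Cl Q v (Q x)) := by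
    intro v x hv0 hv _ hx
    have h4 := card_Cl_ge hQ hv hv0 (by omega) hx (z := 216) (by
      intro b hb
      rw [hF3, hn, show (3 - 1) * 3 ^ (7 - 2) = 486 by norm_num]
      rcases (hF b).resolve_left hb with rfl | rfl
      · rw [hc]; norm_num
      · rw [hc'])
    have h8 : 1 ≤ Nat.card {b : F // ∃ d : F, d ≠ 0 ∧ b = d * d * Q x} := by
      have : Nonempty {b : F // ∃ d : F, d ≠ 0 ∧ b = d * d * Q x} := ⟨⟨Q x, 1, one_ne_zero, by ring⟩⟩
      exact Nat.card_pos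
    calc 216 = 1 * 216 := (one_mul _).symm
      _ ≤ _ := Nat.mul_le_mul_right _ h8
      _ ≤ _ := h4
  have hC0 : ∀ v, v ≠ 0 → Q v = 0 → Nat.card (C0 Q v) = 240 := by
    intro v hv0 hv
    rw [hNum.c0 v hv0 hv, hF3]
  have hnr := no_reg_small (Ω := ↥(⁅O Q, O Q⁆) ⧸ K) (M := 351) D rfl hNum hX (by rw [hF3, hn]; norm_num) (by rw [hF3, hn]; norm_num)
    (by
      intro v x hv0 hv hvx hx
      have h5 := hCl v x hv0 hv hvx hx
      rw [hF3, hn, show (3 - 1) * (351 - 1 - 3 ^ (7 - 2)) = 214 by norm_num]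
      omega) (hnar D K) h1 hcon
  have hdi := dich7 (Ω := ↥(⁅O Q, O Q⁆) ⧸ K) D hn hF3 hc hC0 hcon
    (fun v x hv0 hv hvx hx => m_lt D hv0 hv hvx hx hcon (by
      have h5 := hCl v x hv0 hv hvx hx
      rw [hF3]
      omega)) hnr
  have hne : Nonempty (↥(⁅O Q, O Q⁆) ⧸ K) := (Nat.card_pos_iff.1 (by omega)).1
  obtain ⟨ω⟩ := hne
  refine triv_of_full D rfl (ω := ω) ?_ h1
  intro v hv w hw
  rcases alt (ω := ω) (hdi ω) hv with h | ⟨T, hT, hTs, -, -⟩
  · exact R_full h hw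
  · exfalso
    omega

end abs

variable {F : Type*} [Field F]

set_option maxHeartbeats 1000000 in
theorem index_ge [Fintype F] (hF : Fintype.card F = 3) (m : ℕ) (hm : 3 ≤ m) :
    (∀ K : Subgroup ↥(⁅O (qOdd m F 1), O (qOdd m F 1)⁆), K ≠ ⊤ → 3 ^ m * (3 ^ m - 1) / 2 ≤ K.index) ∧
    ∃ K : Subgroup ↥(⁅O (qOdd m F 1), O (qOdd m F 1)⁆), K.index = 3 ^ m * (3 ^ m - 1) / 2 ∧
      Subgroup.center ↥(⁅O (qOdd m F 1), O (qOdd m F 1)⁆) ≤ K := by
  have hF' : Nat.card F = 3 := by rw [Nat.card_eq_fintype_card, hF]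
  have hS := smallF_of_card (F := F) (Or.inr hF')
  have h3 := three_eq_zero hF'
  have h2 := two_ne_zero_of_three h3
  have hQ : ND (qOdd m F 1) := nd_qOdd m h2 one_ne_zero
  have hfr := OrOdd.finrank_odd (F := F) m
  have hn7 : 7 ≤ finrank F (Unit ⊕ (Fin m ⊕ Fin m) → F) := by omega
  have hc0 : OrG.cnt (qOdd m F 1) 0 = 3 ^ (2 * m) := by
    have := H7.HypStd.cnt_odd (F := F) m (one_ne_zero (α := F))
    rw [hF'] at this
    exact this
  have hc1 := cnt_odd_one hF' m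
  have hcm := cnt_odd_neg hF' m
  have hnar : ∀ {ψ : AddChar F ℂ} (D : Dat (qOdd m F 1) ⁅O (qOdd m F 1), O (qOdd m F 1)⁆ ψ)
      (K : Subgroup ↥(⁅O (qOdd m F 1), O (qOdd m F 1)⁆)), NAR D (↥(⁅O (qOdd m F 1), O (qOdd m F 1)⁆) ⧸ K) := by
    intro ψ D K
    obtain ⟨v, -, v', -, hv, hv', hvv⟩ := exists_hyp hQ (L := (⊥ : Submodule F (Unit ⊕ (Fin m ⊕ Fin m) → F)))
      (by rw [finrank_bot]; omega)
    obtain ⟨W, hW⟩ := exists_pairSp hQ h2 hS hv hv' hvv (m - 1) (by rw [hfr]; omega)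
    exact nar_three hQ h2 hv hvv hW (by rw [hfr]; omega) (by omega) D K
  -- numbers
  obtain ⟨k, hk⟩ := Nat.exists_eq_add_of_le hm
  set x : ℕ := 3 ^ (m - 1) with hx
  have hx9 : 9 ≤ x := by
    calc 9 = 3 ^ 2 := by norm_num
      _ ≤ x := Nat.pow_le_pow_right (by omega) (by omega)
  have e1 : 3 ^ m = 3 * x := by
    rw [hx, ← pow_succ']
    congr 1
    omega
  have e2 : 3 ^ (2 * m + 1 - 2) = 3 * x ^ 2 := by
    rw [hx, ← pow_mul, ← pow_succ']
    congr 1
    omega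
  have e3 : 3 ^ (2 * m) = 9 * x ^ 2 := by
    rw [pow_mul', e1]
    ring
  obtain ⟨s, hs⟩ : ∃ s, x = 2 * s + 1 := by
    have h4 : Odd x := Odd.pow (by decide)
    exact h4
  have hM : 3 ^ m * (3 ^ m - 1) / 2 = (6 * s + 3) * (3 * s + 1) := by
    rw [e1, hs, show 3 * (2 * s + 1) - 1 = 2 * (3 * s + 1) by omega,
      show 3 * (2 * s + 1) * (2 * (3 * s + 1)) = 2 * ((6 * s + 3) * (3 * s + 1)) by ring]
    exact Nat.mul_div_cancel_left _ (by norm_num)
  rw [hM]
  have hxx : x ^ 2 = 4 * (s * s) + 4 * s + 1 := by rw [hs]; ring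
  have hMM : (6 * s + 3) * (3 * s + 1) = 18 * (s * s) + 15 * s + 3 := by ring
  have hss : 4 * s ≤ s * s := Nat.mul_le_mul_right _ (by omega)
  constructor
  · by_cases h4 : 4 ≤ m
    · have hx27 : 27 ≤ x := by
        calc 27 = 3 ^ 3 := by norm_num
          _ ≤ x := Nat.pow_le_pow_right (by omega) (by omega)
      refine abs_small (M := (6 * s + 3) * (3 * s + 1)) (t := 6 * (s * s) + 6 * s) hQ hn7 hS (by omega) ?_ ?_ ?_ ?_ ?_ ?_ hnar ?_
      · rw [hc0, hF', hfr, e2, e3]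
        omega
      · rw [hF', hfr, e2]
        omega
      · rw [hF', hfr, e2]
        omega
      · intro v c hv0 hv hc
        have h5 := card_Cl_ge hQ hv hv0 (by omega) hc (z := 3 * x ^ 2 - 3 * x) (by
          intro b _
          have h6 := OrOdd.cnt_odd_ge (F := F) m 1 b
          rw [hF', hfr, e2]
          rw [hF', e3, e1] at h6
          omega)
        have h8 : 1 ≤ Nat.card {b : F // ∃ d : F, d ≠ 0 ∧ b = d * d * c} := by
          have : Nonempty {b : F // ∃ d : F, d ≠ 0 ∧ b = d * d * c} := ⟨⟨c, 1, one_ne_zero, by ring⟩⟩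
          exact Nat.card_pos
        have h9 := (Nat.mul_le_mul_right (3 * x ^ 2 - 3 * x) h8).trans h5
        rw [hF', hfr, e2]
        omega
      · intro v c hv0 hv hc
        have h5 := card_Cl_ge hQ hv hv0 (by omega) hc (z := 3 * x ^ 2 - 3 * x) (by
          intro b _
          have h6 := OrOdd.cnt_odd_ge (F := F) m 1 b
          rw [hF', hfr, e2]
          rw [hF', e3, e1] at h6
          omega)
        have h8 : 1 ≤ Nat.card {b : F // ∃ d : F, d ≠ 0 ∧ b = d * d * c} := by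
          have : Nonempty {b : F // ∃ d : F, d ≠ 0 ∧ b = d * d * c} := ⟨⟨c, 1, one_ne_zero, by ring⟩⟩
          exact Nat.card_pos
        have h9 := (Nat.mul_le_mul_right (3 * x ^ 2 - 3 * x) h8).trans h5
        have h10 : 13 * s ≤ s * s := Nat.mul_le_mul_right _ (by omega)
        rw [hF']
        omega
      · intro v w hv0 hv hvw hw
        exact comp_three hQ (by omega) hS h3 hvw hw
      · intro T _ hd
        omega
    · have hm3 : m = 3 := by omega
      subst hm3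
      have hx9' : x = 9 := by rw [hx]; norm_num
      have hs4 : s = 4 := by omega
      subst hs4
      refine abs_seven hQ (by rw [hfr]) hF' ?_ ?_ ?_ hnar
      · rw [hc0]; norm_num
      · rw [hc1]; norm_num
      · have h5 : 3 ^ (2 * 3) = 729 := by norm_num
        have h6 : 3 ^ 3 = 27 := by norm_num
        omega
  · -- a vector of value minus one
    have hcm' : OrG.cnt (qOdd m F 1) (-1) = 2 * ((6 * s + 3) * (3 * s + 1)) := by
      rw [e3, e1] at hcm
      omega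
    have h1 : OrG.cnt (qOdd m F 1) (-1) ≠ 0 := by rw [hcm']; omega
    have h5 : Nonempty {v : Unit ⊕ (Fin m ⊕ Fin m) → F // qOdd m F 1 v = -1} := by
      by_contra hcon
      rw [not_nonempty_iff] at hcon
      exact h1 Nat.card_of_isEmpty
    obtain ⟨w, hw⟩ := h5
    obtain ⟨K, hK, hK'⟩ := OrStab.exists_stab_odd h2 hQ hn7 (OrA.sie_mem hQ hn7) (omega_le_O (qOdd m F 1)) (x := w)
      (by rw [hw]; exact neg_ne_zero.2 one_ne_zero)
    rw [hw, hcm'] at hK
    exact ⟨K, by omega, hK'⟩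

end H41.OrOddThree
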