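import Mathlib
import Cfsg.Agent.Lib.H41.OrMinusA
import Cfsg.Agent.Lib.H41.OrStab

/-! The minimal index of `Ω⁺_{2m}(2)`. -/

set_option autoImplicit false
set_option linter.unusedSectionVars false

namespace H41.OrPlusTwo

open Module QuadraticMap H48.QuadSplit H48.QuadStd H95.OGeo H95.OSie H17.OrthAbs H41.OrB H41.OrD H41.OrG H41.OrH
open H41.OrS2 H41.OrS3 H41.OrS8 H41.OrMinusA H41.OrPlus
open MulAction
open scoped commutatorElement

variable {F : Type*} [Field F]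

set_option maxHeartbeats 1000000 in
theorem index_ge [Fintype F] (hF : Fintype.card F = 2) (m : ℕ) (hm : 4 ≤ m) :
    (∀ K : Subgroup ↥(⁅O (qPlus m F), O (qPlus m F)⁆), K ≠ ⊤ → 2 ^ (m - 1) * (2 ^ m - 1) ≤ K.index) ∧
    ∃ K : Subgroup ↥(⁅O (qPlus m F), O (qPlus m F)⁆), K.index = 2 ^ (m - 1) * (2 ^ m - 1) ∧
      Subgroup.center ↥(⁅O (qPlus m F), O (qPlus m F)⁆) ≤ K := by
  have hF' : Nat.card F = 2 := by rw [Nat.card_eq_fintype_card, hF]
  have hQ : ND (qPlus m F) := nd_qPlus m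
  have hfr := finrank_plus (F := F) m
  obtain ⟨k, rfl⟩ := Nat.exists_eq_add_of_le hm
  set x : ℕ := 2 ^ (4 + k - 1) with hx
  have hx8 : 8 ≤ x := by
    calc 8 = 2 ^ 3 := by norm_num
      _ ≤ x := Nat.pow_le_pow_right (by omega) (by omega)
  have e1 : 2 ^ (4 + k) = 2 * x := by
    rw [hx, ← pow_succ']
    congr 1
    omega
  have e2 : 2 ^ (2 * (4 + k) - 2) = x ^ 2 := by
    rw [hx, ← pow_mul]
    congr 1
    omega
  have e3 : 2 ^ (2 * (3 + k) + 1) = 2 * x ^ 2 := by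
    rw [hx, ← pow_mul, ← pow_succ']
    congr 1
    omega
  have e4 : 2 ^ (3 + k) = x := by
    rw [hx]; congr 1; omega
  rw [e1]
  obtain ⟨y, hy⟩ : ∃ y, x = y + 8 := ⟨x - 8, by omega⟩
  have hM : x * (2 * x - 1) = 2 * x ^ 2 - x := by
    rw [Nat.mul_sub, mul_one]
    congr 1
    ring
  rw [hM]
  have hxx : 8 * x ≤ x ^ 2 := by rw [pow_two]; exact Nat.mul_le_mul_right _ hx8
  obtain ⟨t, ht⟩ : ∃ t, t + 2 = x ^ 2 + x := ⟨x ^ 2 + x - 2, by omega⟩
  have htpos : 0 < t := by omega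
  have hcnt : OrG.cnt (qPlus (4 + k) F) 0 =
      1 + (Nat.card F - 1) * (Nat.card F ^ (finrank F (Fin (4 + k) ⊕ Fin (4 + k) → F) - 2) + t + 1) := by
    have h5 : OrG.cnt (qPlus (3 + k + 1) F) 0 + 2 ^ (3 + k) = 2 ^ (2 * (3 + k) + 1) + 2 ^ (3 + k + 1) := by
      have := H7.HypStd.cnt_plus (F := F) (3 + k)
      rw [hF'] at this
      exact this
    rw [e3, e4, show 3 + k + 1 = 4 + k by ring, e1] at h5
    rw [hF', hfr, e2]
    omega
  have hcnt1 : OrG.cnt (qPlus (4 + k) F) 1 = 2 * x ^ 2 - x := by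
    have h5 : OrG.cnt (qPlus (3 + k + 1) F) 1 + 2 ^ (3 + k) = 2 ^ (2 * (3 + k) + 1) := by
      have := H49.OrthCount.cnt1_plus (F := F) (3 + k)
      rw [hF'] at this
      exact this
    rw [e3, e4, show 3 + k + 1 = 4 + k by ring] at h5
    omega
  have h2 := two_eq_zero hF'
  have hS := smallF_of_card (F := F) (Or.inl hF')
  have hn7 : 7 ≤ finrank F (Fin (4 + k) ⊕ Fin (4 + k) → F) := by rw [hfr]; omega
  have hcl : ∀ (v : Fin (4 + k) ⊕ Fin (4 + k) → F) (c : F), v ≠ 0 → qPlus (4 + k) F v = 0 → c ≠ 0 →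
      x ^ 2 - x ≤ Nat.card (Cl (qPlus (4 + k) F) v c) := by
    intro v c hv0 hv hc
    have h3 := card_Cl_ge hQ hv hv0 (by omega) hc (z := x ^ 2 - x) (by
      intro b _
      have h6 := cnt_plus_ge (F := F) (3 + k) b
      rw [hF', hfr, e2]
      rw [hF', e3, e4, show 3 + k + 1 = 4 + k by ring] at h6
      omega)
    have h8 : 1 ≤ Nat.card {b : F // ∃ d : F, d ≠ 0 ∧ b = d * d * c} := by
      have : Nonempty {b : F // ∃ d : F, d ≠ 0 ∧ b = d * d * c} := ⟨⟨c, 1, one_ne_zero, by ring⟩⟩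
      exact Nat.card_pos
    calc x ^ 2 - x = 1 * (x ^ 2 - x) := (one_mul _).symm
      _ ≤ _ := Nat.mul_le_mul_right _ h8
      _ ≤ _ := h3
  constructor
  · refine abs_small_even (M := 2 * x ^ 2 - x) hQ hfr (by omega) hS htpos hcnt ?_ ?_ ?_ ?_ ?_ ?_ ?_ ?_ ?_
    · rw [hF', hfr, e2]; omega
    · rw [hF', hfr, e2]; omega
    · intro v c hv0 hv hc
      refine lt_of_lt_of_le ?_ (hcl v c hv0 hv hc)
      rw [hF', hfr, e2]
      omega
    · intro v c hv0 hv hc
      refine le_trans ?_ (Nat.mul_le_mul_left 5 (hcl v c hv0 hv hc))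
      rw [hF']
      omega
    · intro v w hv0 hv hvw hw
      exact comp_two hQ (by omega) hS h2 hvw hw
    · intro ψ D K
      exact nar_two h2 hS (r := 4 + k) hfr (by omega) D K
    · rw [hF']; omega
    · intro hk
      have hk0 : k = 0 := by omega
      have hx8' : x = 8 := by rw [hx, hk0]; norm_num
      rw [hx8'] at ht
      rw [hF']
      omega
    · intro hk
      have hk0 : k = 0 := by omega
      have hx8' : x = 8 := by rw [hx, hk0]; norm_num
      rw [hx8', hF']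
      norm_num
  · -- a vector of value one
    have h1 : OrG.cnt (qPlus (4 + k) F) 1 ≠ 0 := by rw [hcnt1]; omega
    have h5 : Nonempty {v : Fin (4 + k) ⊕ Fin (4 + k) → F // qPlus (4 + k) F v = 1} := by
      by_contra hcon
      rw [not_nonempty_iff] at hcon
      exact h1 Nat.card_of_isEmpty
    obtain ⟨w, hw⟩ := h5
    have h6 := OrStab.exists_stab_two h2 hQ hn7 (OrA.sie_mem hQ hn7) (omega_le_O (qPlus (4 + k) F)) (x := w) (by rw [hw]; exact one_ne_zero)
    rw [hw, hcnt1] at h6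
    exact h6

end H41.OrPlusTwo
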