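import Cfsg.Agent.Lib.H41.SLCaseB

/-! Case A: the groups of transvections with a given centre act regularly. -/

set_option autoImplicit false

namespace H41.SLCaseA

open Module H41.Tv H41.SLCaseB

variable {F V : Type*} [Field F] [AddCommGroup V] [Module F V]

theorem exists_sep_dual [FiniteDimensional F V] {W : Submodule F (Dual F V)} {ψ : Dual F V} (h : ψ ∉ W) :
    ∃ c : V, ψ c = 1 ∧ ∀ φ ∈ W, φ c = 0 := by
  obtain ⟨l, hl1, hl2⟩ := exists_sep h
  obtain ⟨c, hc⟩ : ∃ c, Module.evalEquiv F V c = l := ⟨(Module.evalEquiv F V).symm l, LinearEquiv.apply_symm_apply _ _⟩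
  have hc' : ∀ φ : Dual F V, l φ = φ c := by
    intro φ; rw [← hc]; rfl
  refine ⟨(ψ c)⁻¹ • c, ?_, ?_⟩
  · rw [map_smul, smul_eq_mul, inv_mul_cancel₀]
    rw [← hc']; exact hl1
  · intro φ hφ
    rw [map_smul, ← hc' φ, hl2 φ hφ, smul_zero]

/-- `h` acts as `x ↦ x + φ x • a + θ x • v` -/
def Q (h : SpecialLinearGroup F V) (v a : V) (φ θ : Dual F V) : Prop := ∀ x : V, h • x = x + φ x • a + θ x • v

variable {H : Subgroup (SpecialLinearGroup F V)}

theorem exists_Q (hA2 : ∀ v : V, v ≠ 0 → ∀ g : SpecialLinearGroup F V, ∃ θ : Dual F V, θ v = 0 ∧ tv v θ * g ∈ H)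
    {v : V} (hv : v ≠ 0) {a : V} {φ : Dual F V} (hφ : φ v = 0) (hφa : φ a = 0) :
    ∃ θ : Dual F V, θ v = 0 ∧ ∃ h ∈ H, Q h v a φ θ := by
  obtain ⟨θ, hθ, hθH⟩ := hA2 v hv (tv a φ)
  refine ⟨θ + θ a • φ, by rw [LinearMap.add_apply, LinearMap.smul_apply, hθ, hφ, smul_zero, add_zero], _, hθH, ?_⟩
  intro x
  rw [mul_smul, tv_smul hφa, tv_smul hθ, map_add, map_smul, LinearMap.add_apply, LinearMap.smul_apply, smul_eq_mul,
    smul_eq_mul]
  module

theorem unique_Q (hA1 : ∀ v : V, v ≠ 0 → ∀ φ : Dual F V, φ v = 0 → tv v φ ∈ H → φ = 0) {v : V} (hv : v ≠ 0) {a : V}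
    {φ θ θ' : Dual F V} (hφ : φ v = 0) (hθ : θ v = 0) (hθ' : θ' v = 0) {h h' : SpecialLinearGroup F V}
    (hH : h ∈ H) (hH' : h' ∈ H) (hQ : Q h v a φ θ) (hQ' : Q h' v a φ θ') : θ = θ' := by
  have hδ : (θ' - θ) v = 0 := by rw [LinearMap.sub_apply, hθ, hθ', sub_zero]
  have hhv : h • v = v := by rw [hQ v, hφ, hθ, zero_smul, zero_smul, add_zero, add_zero]
  have key : h * tv v (θ' - θ) = h' := by
    apply ext_smul
    intro x
    rw [mul_smul, tv_smul hδ, smul_add, smul_smul', hhv, hQ x, hQ' x, LinearMap.sub_apply]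
    module
  have h1 : tv v (θ' - θ) ∈ H := by
    have : tv v (θ' - θ) = h⁻¹ * h' := by rw [← key]; group
    rw [this]
    exact H.mul_mem (H.inv_mem hH) hH'
  have h2 := hA1 v hv _ hδ h1
  rw [sub_eq_zero] at h2
  exact h2.symm

theorem not_smul_Q (hA1 : ∀ v : V, v ≠ 0 → ∀ φ : Dual F V, φ v = 0 → tv v φ ∈ H → φ = 0) {v a : V}
    (ha : ∀ c : F, a ≠ c • v) {φ θ : Dual F V} (hφ : φ v = 0) (hφa : φ a = 0) (hφ0 : φ ≠ 0)
    {h : SpecialLinearGroup F V} (hH : h ∈ H) (hQ : Q h v a φ θ) (c : F) : θ ≠ c • φ := by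
  rintro rfl
  have h0 : φ (a + c • v) = 0 := by rw [map_add, map_smul, hφ, hφa, smul_zero, add_zero]
  have h1 : h = tv (a + c • v) φ := by
    apply ext_smul
    intro x
    rw [hQ x, tv_smul h0, LinearMap.smul_apply, smul_eq_mul]
    module
  apply hφ0
  apply hA1 (a + c • v) _ φ h0
  · rw [← h1]; exact hH
  · intro h2
    apply ha (-c)
    rw [neg_smul]
    exact eq_neg_of_add_eq_zero_left h2

/-- conjugation: if `k ∈ H` acts as `x ↦ x + ψ x • b + η x • v` -/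
theorem conj_Q {v a b : V} {φ ψ θ η : Dual F V} (hφ : φ v = 0)
    (hψ : ψ v = 0) (hψa : ψ a = 0) (hψb : ψ b = 0) (hθ : θ v = 0) (hη : η v = 0)
    {h k : SpecialLinearGroup F V} (hQ : Q h v a φ θ) (kQ : Q k v b ψ η) :
    Q (k * h * k⁻¹) v a (φ - φ b • ψ) (θ - θ b • ψ + η a • (φ - φ b • ψ)) := by
  intro x
  obtain ⟨y, rfl⟩ : ∃ y, k • y = x := ⟨k⁻¹ • x, smul_inv_smul _ _⟩
  have hkv : k • v = v := by rw [kQ v, hψ, hη, zero_smul, zero_smul, add_zero, add_zero]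
  have hka : k • a = a + η a • v := by rw [kQ a, hψa, zero_smul, add_zero]
  have e1 : φ (k • y) = φ y + ψ y * φ b := by
    rw [kQ y, map_add, map_add, map_smul, map_smul, hφ, smul_zero, add_zero, smul_eq_mul]
  have e2 : ψ (k • y) = ψ y := by
    rw [kQ y, map_add, map_add, map_smul, map_smul, hψ, hψb, smul_zero, smul_zero, add_zero, add_zero]
  have e3 : θ (k • y) = θ y + ψ y * θ b := by
    rw [kQ y, map_add, map_add, map_smul, map_smul, hθ, smul_zero, add_zero, smul_eq_mul]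
  rw [mul_smul, mul_smul, inv_smul_smul, hQ y, smul_add, smul_add, smul_smul', smul_smul', hkv, hka]
  simp only [LinearMap.add_apply, LinearMap.sub_apply, LinearMap.smul_apply, smul_eq_mul, e1, e2, e3]
  generalize k • y = z
  module

/-- `θ` vanishes where `φ` and `ψ` vanish, for `ψ` killing `v` and `a` and independent of `φ`. -/
theorem vanish (hA1 : ∀ v : V, v ≠ 0 → ∀ φ : Dual F V, φ v = 0 → tv v φ ∈ H → φ = 0)
    (hA2 : ∀ v : V, v ≠ 0 → ∀ g : SpecialLinearGroup F V, ∃ θ : Dual F V, θ v = 0 ∧ tv v θ * g ∈ H)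
    {v a b : V} (hv : v ≠ 0) {φ ψ θ : Dual F V} (hφ : φ v = 0)
    (hψ : ψ v = 0) (hψa : ψ a = 0) (hθ : θ v = 0) (hind : ∀ c : F, ψ ≠ c • φ) (hφb : φ b = 0) (hψb : ψ b = 0)
    {h : SpecialLinearGroup F V} (hH : h ∈ H) (hQ : Q h v a φ θ) : θ b = 0 := by
  obtain ⟨η, hη, k, hk, kQ⟩ := exists_Q hA2 hv hψ hψb
  have h1 := conj_Q hφ hψ hψa hψb hθ hη hQ kQ
  rw [hφb, zero_smul, sub_zero] at h1
  have h2 := unique_Q hA1 hv hφ hθ (by
    simp only [LinearMap.add_apply, LinearMap.sub_apply, LinearMap.smul_apply, smul_eq_mul, hθ, hψ, hφ]; ring)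
    hH (H.mul_mem (H.mul_mem hk hH) (H.inv_mem hk)) hQ h1
  by_contra hne
  apply hind ((θ b)⁻¹ * η a)
  have h3 : θ b • ψ = η a • φ := by
    have h4 : θ - (θ - θ b • ψ + η a • φ) = 0 := by rw [← h2, sub_self]
    have h5 : θ - (θ - θ b • ψ + η a • φ) = θ b • ψ - η a • φ := by abel
    rw [h5, sub_eq_zero] at h4
    exact h4
  rw [mul_smul, ← h3, smul_smul, inv_mul_cancel₀ hne, one_smul]

end H41.SLCaseA
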