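import Cfsg.Agent.Lib.H41.SLCaseA

/-! Case A is impossible. -/

set_option autoImplicit false

namespace H41.SLCaseA2

open Module H41.Tv H41.SLCaseB H41.SLCaseA

variable {F V : Type*} [Field F] [AddCommGroup V] [Module F V] [FiniteDimensional F V]

omit [FiniteDimensional F V] in
theorem exists_notMem {X : Type*} [AddCommGroup X] [Module F X] [FiniteDimensional F X] {W U : Submodule F X}
    (h : finrank F U < finrank F W) : ∃ x ∈ W, x ∉ U := by
  by_contra hc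
  push Not at hc
  have hle : W ≤ U := hc
  have := Submodule.finrank_mono hle
  omega

theorem finrank_single_le {X : Type*} [AddCommGroup X] [Module F X] (x : X) :
    finrank F (Submodule.span F ({x} : Set X)) ≤ 1 := by
  simpa using finrank_span_le_card (R := F) ({x} : Set X)

theorem finrank_pair_le {X : Type*} [AddCommGroup X] [Module F X] (x y : X) :
    finrank F (Submodule.span F ({x, y} : Set X)) ≤ 2 := by
  classical
  have := finrank_span_finset_le_card (R := F) ({x, y} : Finset X)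
  rw [Finset.coe_pair] at this
  exact this.trans Finset.card_le_two

/-- functionals killing `v` and `a` -/
def W (v a : V) : Submodule F (Dual F V) := (Submodule.span F {v, a}).dualAnnihilator

omit [FiniteDimensional F V] in
theorem mem_W {v a : V} {φ : Dual F V} : φ ∈ W (F := F) v a ↔ φ v = 0 ∧ φ a = 0 := by
  rw [W, Submodule.mem_dualAnnihilator]
  constructor
  · intro h
    exact ⟨h v (Submodule.subset_span (by simp)), h a (Submodule.subset_span (by simp))⟩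
  · rintro ⟨h1, h2⟩ x hx
    obtain ⟨r, s, rfl⟩ := Submodule.mem_span_pair.mp hx
    rw [map_add, map_smul, map_smul, h1, h2, smul_zero, smul_zero, add_zero]

theorem finrank_W {v a : V} (hv : v ≠ 0) (ha : ∀ c : F, a ≠ c • v) : finrank F (W (F := F) v a) + 2 = finrank F V := by
  have h := Subspace.finrank_add_finrank_dualAnnihilator_eq (Submodule.span F {v, a})
  rw [finrank_pair hv ha] at h
  rw [W]; omega

omit [FiniteDimensional F V] in
theorem smul_of_vanish {φ θ : Dual F V} (h : ∀ b, φ b = 0 → θ b = 0) : ∃ c : F, θ = c • φ := by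
  by_contra hc
  push Not at hc
  obtain ⟨b, hb1, hb2⟩ := exists_apply hc
  rw [h b hb2] at hb1
  exact zero_ne_one hb1

theorem exists_va (hn : 3 ≤ finrank F V) : ∃ v a : V, v ≠ 0 ∧ ∀ c : F, a ≠ c • v := by
  have : Nontrivial V := Module.nontrivial_of_finrank_pos (R := F) (by omega)
  obtain ⟨v, hv⟩ := exists_ne (0 : V)
  obtain ⟨a, -, ha⟩ : ∃ a ∈ (⊤ : Submodule F V), a ∉ Submodule.span F ({v} : Set V) := by
    apply exists_notMem
    rw [finrank_top]
    have := finrank_single_le (F := F) v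
    omega
  refine ⟨v, a, hv, fun c hc => ha ?_⟩
  rw [hc]
  exact Submodule.smul_mem _ _ (Submodule.mem_span_singleton_self v)

theorem not_smul_of_notMem {X : Type*} [AddCommGroup X] [Module F X] {x y : X}
    (h : y ∉ Submodule.span F ({x} : Set X)) (c : F) : y ≠ c • x := by
  rintro rfl
  exact h (Submodule.smul_mem _ _ (Submodule.mem_span_singleton_self x))

variable {H : Subgroup (SpecialLinearGroup F V)}

theorem false_ge5 (hn : 5 ≤ finrank F V) (hA1 : ∀ v : V, v ≠ 0 → ∀ φ : Dual F V, φ v = 0 → tv v φ ∈ H → φ = 0)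
    (hA2 : ∀ v : V, v ≠ 0 → ∀ g : SpecialLinearGroup F V, ∃ θ : Dual F V, θ v = 0 ∧ tv v θ * g ∈ H) : False := by
  obtain ⟨v, a, hv, ha⟩ := exists_va (F := F) (V := V) (by omega)
  have hW := finrank_W hv ha
  obtain ⟨φ, hφW, hφ0⟩ : ∃ φ ∈ W (F := F) v a, φ ∉ (⊥ : Submodule F (Dual F V)) := by
    apply exists_notMem
    rw [finrank_bot]; omega
  obtain ⟨ψ₁, hψ₁W, hψ₁⟩ : ∃ φ' ∈ W (F := F) v a, φ' ∉ Submodule.span F ({φ} : Set (Dual F V)) := by
    apply exists_notMem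
    have := finrank_single_le (F := F) φ
    omega
  obtain ⟨ψ₂, hψ₂W, hψ₂⟩ : ∃ φ' ∈ W (F := F) v a, φ' ∉ Submodule.span F ({φ, ψ₁} : Set (Dual F V)) := by
    apply exists_notMem
    have := finrank_pair_le (F := F) φ ψ₁
    omega
  rw [mem_W] at hφW hψ₁W hψ₂W
  have hφ0' : φ ≠ 0 := fun h => hφ0 (by rw [h]; exact Submodule.zero_mem _)
  obtain ⟨θ, hθ, h, hH, hQ⟩ := exists_Q hA2 hv hφW.1 hφW.2
  obtain ⟨c, hc1, hc2⟩ := exists_sep_dual hψ₂
  have hφc : φ c = 0 := hc2 φ (Submodule.subset_span (by simp))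
  have hψ₁c : ψ₁ c = 0 := hc2 ψ₁ (Submodule.subset_span (by simp))
  have hv1 := fun (ψ : Dual F V) (hψ : ψ v = 0 ∧ ψ a = 0) (hi : ∀ c : F, ψ ≠ c • φ) (b : V) (h1 : φ b = 0)
    (h2 : ψ b = 0) => vanish hA1 hA2 hv hφW.1 hψ.1 hψ.2 hθ hi h1 h2 hH hQ
  have hi1 : ∀ c : F, ψ₁ ≠ c • φ := not_smul_of_notMem hψ₁
  have hi2 : ∀ c : F, ψ₂ ≠ c • φ := by
    rintro d rfl
    exact hψ₂ (Submodule.smul_mem _ _ (Submodule.subset_span (by simp)))
  obtain ⟨d, hd⟩ : ∃ d : F, θ = d • φ := by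
    apply smul_of_vanish
    intro b hb
    have h1 := hv1 ψ₂ hψ₂W hi2 (b - ψ₂ b • c) (by rw [map_sub, map_smul, hb, hφc, smul_zero, sub_zero])
      (by rw [map_sub, map_smul, hc1, smul_eq_mul, mul_one, sub_self])
    have h2 := hv1 ψ₁ hψ₁W hi1 (ψ₂ b • c) (by rw [map_smul, hφc, smul_zero]) (by rw [map_smul, hψ₁c, smul_zero])
    rw [map_sub, h2, sub_zero] at h1
    exact h1
  exact not_smul_Q hA1 ha hφW.1 hφW.2 hφ0' hH hQ d hd

theorem false_eq4 (hn : finrank F V = 4) (c : F) (hc0 : c ≠ 0) (hc1 : c ≠ -1)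
    (hA1 : ∀ v : V, v ≠ 0 → ∀ φ : Dual F V, φ v = 0 → tv v φ ∈ H → φ = 0)
    (hA2 : ∀ v : V, v ≠ 0 → ∀ g : SpecialLinearGroup F V, ∃ θ : Dual F V, θ v = 0 ∧ tv v θ * g ∈ H) : False := by
  obtain ⟨v, a, hv, ha⟩ := exists_va (F := F) (V := V) (by omega)
  have hW := finrank_W hv ha
  have hW2 : finrank F (W (F := F) v a) = 2 := by omega
  obtain ⟨e₁, he₁W, he₁0⟩ : ∃ φ ∈ W (F := F) v a, φ ∉ (⊥ : Submodule F (Dual F V)) := by
    apply exists_notMem
    rw [finrank_bot]; omega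
  obtain ⟨e₂, he₂W, he₂⟩ : ∃ φ' ∈ W (F := F) v a, φ' ∉ Submodule.span F ({e₁} : Set (Dual F V)) := by
    apply exists_notMem
    have := finrank_single_le (F := F) e₁
    omega
  have he₁0' : e₁ ≠ 0 := fun h => he₁0 (by rw [h]; exact Submodule.zero_mem _)
  have hi21 : ∀ d : F, e₂ ≠ d • e₁ := not_smul_of_notMem he₂
  have hi12 : ∀ d : F, e₁ ≠ d • e₂ := by
    intro d hd
    have hd0 : d ≠ 0 := by
      rintro rfl
      rw [zero_smul] at hd
      exact he₁0' hd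
    apply hi21 d⁻¹
    rw [hd, smul_smul, inv_mul_cancel₀ hd0, one_smul]
  have hWs : W (F := F) v a = Submodule.span F ({e₁, e₂} : Set (Dual F V)) := by
    symm
    apply Submodule.eq_of_le_of_finrank_eq
    · rw [Submodule.span_le]
      rintro x (rfl | hx)
      · exact he₁W
      · rw [Set.mem_singleton_iff.mp hx]; exact he₂W
    · rw [finrank_pair he₁0' hi21, hW2]
  obtain ⟨x₁, h11, h21⟩ := exists_apply hi12
  obtain ⟨x₂, h22, h12⟩ := exists_apply hi21
  have hcoord : ∀ φ ∈ W (F := F) v a, φ = φ x₁ • e₁ + φ x₂ • e₂ := by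
    intro φ hφ
    rw [hWs] at hφ
    obtain ⟨r, s, rfl⟩ := Submodule.mem_span_pair.mp hφ
    simp only [LinearMap.add_apply, LinearMap.smul_apply, smul_eq_mul, h11, h21, h22, h12, mul_one, mul_zero,
      add_zero, zero_add]
  have hex : ∀ φ : Dual F V, φ ∈ W (F := F) v a → ∃ θ : Dual F V, θ v = 0 ∧ ∃ h ∈ H, Q h v a φ θ := by
    intro φ hφ
    rw [mem_W] at hφ
    exact exists_Q hA2 hv hφ.1 hφ.2
  choose! μ hμv hμ using hex
  have huniq : ∀ φ ∈ W (F := F) v a, ∀ θ : Dual F V, θ v = 0 → ∀ h ∈ H, Q h v a φ θ → μ φ = θ := by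
    intro φ hφ θ hθ h hH hQ
    obtain ⟨h', hH', hQ'⟩ := hμ φ hφ
    exact unique_Q hA1 hv (mem_W.mp hφ).1 (hμv φ hφ) hθ hH' hH hQ' hQ
  have hμ0 : μ 0 = 0 := by
    refine huniq 0 (Submodule.zero_mem _) 0 rfl 1 H.one_mem ?_
    intro x
    rw [one_smul, LinearMap.zero_apply, zero_smul, zero_smul, add_zero, add_zero]
  have hμW : ∀ φ ∈ W (F := F) v a, μ φ ∈ W (F := F) v a := by
    intro φ hφ
    by_cases hφ0 : φ = 0
    · rw [hφ0, hμ0]; exact Submodule.zero_mem _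
    · obtain ⟨ψ, hψW, hψ⟩ : ∃ φ' ∈ W (F := F) v a, φ' ∉ Submodule.span F ({φ} : Set (Dual F V)) := by
        apply exists_notMem
        have := finrank_single_le (F := F) φ
        omega
      obtain ⟨h, hH, hQ⟩ := hμ φ hφ
      have hφ' := mem_W.mp hφ
      have hψ' := mem_W.mp hψW
      rw [mem_W]
      exact ⟨hμv φ hφ, vanish hA1 hA2 hv hφ'.1 hψ'.1 hψ'.2 (hμv φ hφ) (not_smul_of_notMem hψ) hφ'.2 hψ'.2 hH hQ⟩
  have hadd : ∀ φ ∈ W (F := F) v a, ∀ φ' ∈ W (F := F) v a, μ (φ + φ') = μ φ + μ φ' := by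
    intro φ hφ φ' hφ'
    obtain ⟨h, hH, hQ⟩ := hμ φ hφ
    obtain ⟨h', hH', hQ'⟩ := hμ φ' hφ'
    have hφ1 := mem_W.mp hφ
    have hμ1 := mem_W.mp (hμW φ hφ)
    refine huniq _ (Submodule.add_mem _ hφ hφ') _ ?_ (h * h') (H.mul_mem hH hH') ?_
    · rw [LinearMap.add_apply, hμv φ hφ, hμv φ' hφ', add_zero]
    · intro x
      have hhv : h • v = v := by rw [hQ v, hφ1.1, hμ1.1, zero_smul, zero_smul, add_zero, add_zero]
      have hha : h • a = a := by rw [hQ a, hφ1.2, hμ1.2, zero_smul, zero_smul, add_zero, add_zero]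
      rw [mul_smul, hQ' x, smul_add, smul_add, smul_smul', smul_smul', hhv, hha, hQ x, LinearMap.add_apply,
        LinearMap.add_apply]
      module
  -- constancy of the determinant
  have hβ : ∀ φ ∈ W (F := F) v a, ∀ φ' ∈ W (F := F) v a, (∀ d : F, φ ≠ d • (φ - φ')) →
      φ' x₁ * (μ φ') x₂ - φ' x₂ * (μ φ') x₁ = φ x₁ * (μ φ) x₂ - φ x₂ * (μ φ) x₁ := by
    intro φ hφ φ' hφ' hi
    obtain ⟨b, hb1, hb2⟩ := exists_apply hi
    have hψW : φ - φ' ∈ W (F := F) v a := Submodule.sub_mem _ hφ hφ'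
    have hψ1 := mem_W.mp hψW
    obtain ⟨η, hη, k, hk, kQ⟩ := exists_Q hA2 hv hψ1.1 hb2
    obtain ⟨h, hH, hQ⟩ := hμ φ hφ
    have h1 := conj_Q (mem_W.mp hφ).1 hψ1.1 hψ1.2 hb2 (hμv φ hφ) hη hQ kQ
    rw [hb1, one_smul, sub_sub_cancel] at h1
    have h2 := huniq φ' hφ' _ (by
      simp only [LinearMap.add_apply, LinearMap.sub_apply, LinearMap.smul_apply, smul_eq_mul, hμv φ hφ,
        (mem_W.mp hφ).1, (mem_W.mp hφ').1]
      ring) _ (H.mul_mem (H.mul_mem hk hH) (H.inv_mem hk)) h1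
    have hc1 := LinearMap.congr_fun (hcoord φ hφ) b
    have hc2 := LinearMap.congr_fun (hcoord φ' hφ') b
    have hc3 := LinearMap.congr_fun (hcoord (μ φ) (hμW φ hφ)) b
    rw [LinearMap.sub_apply, hb1, sub_eq_zero] at hb2
    rw [hb1] at hc1
    rw [← hb2] at hc2
    simp only [LinearMap.add_apply, LinearMap.smul_apply, smul_eq_mul] at hc1 hc2 hc3
    rw [h2]
    simp only [LinearMap.add_apply, LinearMap.sub_apply, LinearMap.smul_apply, smul_eq_mul, hc3]
    linear_combination (((μ φ) x₁) * (φ x₂) - ((μ φ) x₂) * (φ x₁)) * hc2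
      - (((μ φ) x₁) * (φ' x₂) - ((μ φ) x₂) * (φ' x₁)) * hc1
  have hA : ∀ t : F, (e₂ + t • e₁) x₁ * (μ (e₂ + t • e₁)) x₂ - (e₂ + t • e₁) x₂ * (μ (e₂ + t • e₁)) x₁
      = e₁ x₁ * (μ e₁) x₂ - e₁ x₂ * (μ e₁) x₁ := by
    intro t
    apply hβ e₁ he₁W _ (Submodule.add_mem _ he₂W (Submodule.smul_mem _ _ he₁W))
    intro d hd
    have h1 := LinearMap.congr_fun hd x₁
    have h2 := LinearMap.congr_fun hd x₂
    simp only [LinearMap.add_apply, LinearMap.sub_apply, LinearMap.smul_apply, smul_eq_mul, h11, h12, h21, h22] at h1 h2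
    have hd0 : d = 0 := by linear_combination h2
    subst hd0
    rw [zero_mul] at h1
    exact one_ne_zero h1
  have hB : ∀ s : F, s ≠ 0 → (s • e₁) x₁ * (μ (s • e₁)) x₂ - (s • e₁) x₂ * (μ (s • e₁)) x₁
      = e₂ x₁ * (μ e₂) x₂ - e₂ x₂ * (μ e₂) x₁ := by
    intro s hs
    apply hβ e₂ he₂W _ (Submodule.smul_mem _ _ he₁W)
    intro d hd
    have h1 := LinearMap.congr_fun hd x₁
    have h2 := LinearMap.congr_fun hd x₂
    simp only [LinearMap.sub_apply, LinearMap.smul_apply, smul_eq_mul, h11, h12, h21, h22] at h1 h2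
    have hd0 : d = 1 := by linear_combination -h2
    subst hd0
    apply hs
    linear_combination h1
  have hc1' : (1 : F) + c ≠ 0 := by
    intro h
    apply hc1
    linear_combination h
  have hce : c • e₁ ∈ W (F := F) v a := Submodule.smul_mem _ _ he₁W
  have m1 : μ (e₂ + (1 : F) • e₁) = μ e₂ + μ e₁ := by rw [one_smul, hadd _ he₂W _ he₁W]
  have m2 : μ (e₂ + c • e₁) = μ e₂ + μ (c • e₁) := by rw [hadd _ he₂W _ hce]
  have m3 : μ ((1 + c) • e₁) = μ e₁ + μ (c • e₁) := by rw [add_smul, one_smul, hadd _ he₁W _ hce]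
  have m4 : μ (e₂ + (1 + c) • e₁) = μ e₂ + (μ e₁ + μ (c • e₁)) := by
    rw [hadd _ he₂W _ (Submodule.smul_mem _ _ he₁W), m3]
  have E1 := hA 1
  have E2 := hA c
  have E4 := hA (1 + c)
  have E0 := hB 1 one_ne_zero
  have E3 := hB (1 + c) hc1'
  have E5 := hB c hc0
  rw [m1] at E1
  rw [m2] at E2
  rw [m4] at E4
  rw [m3] at E3
  rw [one_smul] at E0 E1
  simp only [LinearMap.add_apply, LinearMap.smul_apply, smul_eq_mul, h11, h12, h21, h22, mul_one, mul_zero, zero_mul,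
    one_mul, zero_add, add_zero, sub_zero, zero_sub] at E0 E1 E2 E3 E4 E5
  have hfin : (μ e₁) x₂ = 0 := by
    linear_combination E0 - E4 + E1 + E2 + E3 - E5
  apply not_smul_Q hA1 ha (mem_W.mp he₁W).1 (mem_W.mp he₁W).2 he₁0' (hμ e₁ he₁W).choose_spec.1
    (hμ e₁ he₁W).choose_spec.2 ((μ e₁) x₁)
  have := hcoord (μ e₁) (hμW e₁ he₁W)
  rw [hfin, zero_smul, add_zero] at this
  exact this

end H41.SLCaseA2
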