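import Cfsg.Agent.Lib.H41.SLDich

/-! Case B: transvection groups of codimension one in the stabiliser is impossible. -/

set_option autoImplicit false

namespace H41.SLCaseB

open Module H41.Tv

variable {F V : Type*} [Field F] [AddCommGroup V] [Module F V]

theorem finrank_pair {v w : V} (hv : v ≠ 0) (hw : ∀ c : F, w ≠ c • v) :
    finrank F (Submodule.span F ({v, w} : Set V)) = 2 := by
  have hli : LinearIndependent F ![v, w] := (LinearIndependent.pair_iff' hv).mpr (fun c h => hw c h.symm)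
  have h1 := finrank_span_eq_card hli
  rw [Matrix.range_cons, Matrix.range_cons, Matrix.range_empty, Set.union_empty, Set.singleton_union,
    Fintype.card_fin] at h1
  exact h1

theorem exists_sep {W : Submodule F V} {x : V} (hx : x ∉ W) : ∃ φ : Dual F V, φ x ≠ 0 ∧ ∀ y ∈ W, φ y = 0 := by
  obtain ⟨f, hf1, hf2⟩ := Submodule.exists_le_ker_of_notMem hx
  exact ⟨f, hf1, fun y hy => hf2 hy⟩

theorem mem_pair_iff {v w x : V} :
    x ∈ Submodule.span F ({v, w} : Set V) ↔ ∀ φ : Dual F V, φ v = 0 → φ w = 0 → φ x = 0 := by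
  constructor
  · intro hx φ h1 h2
    obtain ⟨a, b, rfl⟩ := Submodule.mem_span_pair.mp hx
    rw [map_add, map_smul, map_smul, h1, h2, smul_zero, smul_zero, add_zero]
  · intro h
    by_contra hx
    obtain ⟨φ, h1, h2⟩ := exists_sep hx
    exact h1 (h φ (h2 v (Submodule.subset_span (by simp))) (h2 w (Submodule.subset_span (by simp))))

theorem false_of_caseB [FiniteDimensional F V] (hn : 3 ≤ finrank F V) (H : Subgroup (SpecialLinearGroup F V))
    (hB : ∀ v : V, v ≠ 0 → ∃ w : V, (∀ c : F, w ≠ c • v) ∧ ∀ φ : Dual F V, φ v = 0 → (tv v φ ∈ H ↔ φ w = 0)) :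
    False := by
  choose! w hw hS using hB
  set U : V → Submodule F V := fun v => Submodule.span F {v, w v} with hU
  have hfr : ∀ v, v ≠ 0 → finrank F (U v) = 2 := fun v hv => finrank_pair hv (hw v hv)
  have hvU : ∀ v, v ∈ U v := fun v => Submodule.subset_span (by simp)
  have hwU : ∀ v, w v ∈ U v := fun v => Submodule.subset_span (by simp)
  -- membership in U
  have hmem : ∀ v, v ≠ 0 → ∀ x, x ∈ U v ↔ ∀ φ : Dual F V, φ v = 0 → tv v φ ∈ H → φ x = 0 := by
    intro v hv x
    rw [hU, mem_pair_iff]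
    constructor
    · intro h φ h1 h2
      exact h φ h1 ((hS v hv φ h1).mp h2)
    · intro h φ h1 h2
      exact h φ h1 ((hS v hv φ h1).mpr h2)
  -- the commutator argument
  have h1 : ∀ v u : V, v ≠ 0 → ∀ φ ψ : Dual F V, φ v = 0 → tv v φ ∈ H → ψ u = 0 → tv u ψ ∈ H → ψ v = 0 →
      φ u ≠ 0 → tv v ψ ∈ H := by
    intro v u hv φ ψ hφ hφH hψ hψH hψv hφu
    have h2 : tv u ψ * tv v φ * (tv u ψ)⁻¹ ∈ H := H.mul_mem (H.mul_mem hψH hφH) (H.inv_mem hψH)
    rw [conj_tv_tv hφ hψ hψv] at h2
    have h3 : φ (w v) = 0 := (hS v hv φ hφ).mp hφH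
    have h4 := (hS v hv (φ - φ u • ψ) (by
      rw [LinearMap.sub_apply, LinearMap.smul_apply, hφ, hψv, smul_zero, sub_zero])).mp h2
    rw [LinearMap.sub_apply, LinearMap.smul_apply, h3, zero_sub, neg_eq_zero, smul_eq_mul] at h4
    rw [hS v hv ψ hψv]
    rcases mul_eq_zero.mp h4 with h | h
    · exact absurd h hφu
    · exact h
  -- symmetry
  have h2 : ∀ v u : V, v ≠ 0 → u ≠ 0 → v ∈ U u → u ∈ U v := by
    intro v u hv hu hvu
    by_contra hn
    have hn' := hn
    rw [hmem v hv] at hn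
    push Not at hn
    obtain ⟨φ, hφ, hφH, hφu⟩ := hn
    have hle : U v ≤ U u := by
      intro x hx
      rw [hmem u hu]
      intro ψ hψ hψH
      have hψv : ψ v = 0 := (hmem u hu v).mp hvu ψ hψ hψH
      exact (hmem v hv x).mp hx ψ hψv (h1 v u hv φ ψ hφ hφH hψ hψH hψv hφu)
    have heq : U v = U u := Submodule.eq_of_le_of_finrank_eq hle (by rw [hfr v hv, hfr u hu])
    apply hn'
    rw [heq]
    exact hvU u
  obtain ⟨v, hv⟩ : ∃ v : V, v ≠ 0 := by
    have : Nontrivial V := Module.nontrivial_of_finrank_pos (R := F) (by omega)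
    exact exists_ne 0
  obtain ⟨u, hu⟩ : ∃ u, u ∉ U v := by
    by_contra hc
    push Not at hc
    have : U v = ⊤ := by ext x; simp [hc x]
    have h3 := hfr v hv
    rw [this, finrank_top] at h3
    omega
  have hu0 : u ≠ 0 := by
    rintro rfl
    exact hu (Submodule.zero_mem _)
  have hu' := hu
  rw [hmem v hv] at hu'
  push Not at hu'
  obtain ⟨φ, hφ, hφH, hφu⟩ := hu'
  have h3 : w v ∈ Submodule.span F {v} ⊔ U u := by
    by_contra hc
    obtain ⟨ψ, hψ1, hψ2⟩ := exists_sep hc
    have hψv : ψ v = 0 := hψ2 v (Submodule.mem_sup_left (Submodule.mem_span_singleton_self v))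
    have hψu : ψ u = 0 := hψ2 u (Submodule.mem_sup_right (hvU u))
    have hψwu : ψ (w u) = 0 := hψ2 _ (Submodule.mem_sup_right (hwU u))
    have hψH : tv u ψ ∈ H := (hS u hu0 ψ hψu).mpr hψwu
    have h4 := h1 v u hv φ ψ hφ hφH hψu hψH hψv hφu
    exact hψ1 ((hS v hv ψ hψv).mp h4)
  obtain ⟨y, hy, z, hz, hyz⟩ := Submodule.mem_sup.mp h3
  obtain ⟨c, rfl⟩ := Submodule.mem_span_singleton.mp hy
  have hzv : z ∈ U v := by
    have : z = w v - c • v := by rw [← hyz]; abel
    rw [this]
    exact Submodule.sub_mem _ (hwU v) (Submodule.smul_mem _ _ (hvU v))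
  have hznv : ∀ d : F, v ≠ d • z := by
    intro d hd
    have hd0 : d ≠ 0 := by
      rintro rfl
      rw [zero_smul] at hd
      exact hv hd
    apply hw v hv (c + d⁻¹)
    rw [← hyz, add_smul]
    congr 1
    rw [hd, smul_smul, inv_mul_cancel₀ hd0, one_smul]
  have hz0 : z ≠ 0 := by
    rintro rfl
    apply hw v hv c
    rw [← hyz, add_zero]
  have hvz : v ∈ U z := h2 z v hz0 hv hzv
  have huz : u ∈ U z := h2 z u hz0 hu0 hz
  have hle : Submodule.span F {z, v} ≤ U z := by
    rw [Submodule.span_le]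
    rintro x (rfl | hx)
    · exact hvU _
    · rw [Set.mem_singleton_iff.mp hx]; exact hvz
  have heq : Submodule.span F {z, v} = U z :=
    Submodule.eq_of_le_of_finrank_eq hle (by rw [hfr z hz0, finrank_pair hz0 hznv])
  have hle2 : Submodule.span F {z, v} ≤ U v := by
    rw [Submodule.span_le]
    rintro x (rfl | hx)
    · exact hzv
    · rw [Set.mem_singleton_iff.mp hx]; exact hvU v
  apply hu
  apply hle2
  rw [heq]
  exact huz

end H41.SLCaseB
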