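import Mathlib

/-! Transvections as elements of `SpecialLinearGroup F V` and their calculus. -/

set_option autoImplicit false

namespace H41.Tv

open Module

variable {F V : Type*} [Field F] [AddCommGroup V] [Module F V]

theorem ext_smul {g h : SpecialLinearGroup F V} (e : ∀ x : V, g • x = h • x) : g = h :=
  SpecialLinearGroup.ext g h e

theorem smul_smul' (g : SpecialLinearGroup F V) (c : F) (x : V) : g • (c • x) = c • (g • x) := smul_comm g c x

theorem finite_SL [Finite F] [FiniteDimensional F V] : Finite (SpecialLinearGroup F V) := by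
  have : Finite V := Module.finite_of_finite F
  have h : Function.Injective (fun (g : SpecialLinearGroup F V) (x : V) => g • x) := by
    intro g h e
    exact ext_smul (fun x => congrFun e x)
  exact Finite.of_injective _ h

open Classical in
/-- `x ↦ x + φ x • v` for `φ v = 0` (and `1` otherwise) -/
noncomputable def tv (v : V) (φ : Dual F V) : SpecialLinearGroup F V :=
  if h : φ v = 0 then ⟨LinearEquiv.transvection h, LinearEquiv.transvection.det_eq_one h⟩ else 1

theorem tv_smul {v : V} {φ : Dual F V} (h : φ v = 0) (x : V) : tv v φ • x = x + φ x • v := by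
  rw [tv, dif_pos h]
  exact LinearEquiv.transvection.apply h x

theorem tv_mul {v : V} {φ ψ : Dual F V} (h : φ v = 0) (h' : ψ v = 0) : tv v φ * tv v ψ = tv v (φ + ψ) := by
  apply ext_smul
  intro x
  rw [mul_smul, tv_smul h', tv_smul h, tv_smul (by rw [LinearMap.add_apply, h, h', add_zero]), map_add, map_smul, h,
    smul_zero, add_zero, LinearMap.add_apply]
  module

theorem tv_mul_left {v w : V} {φ : Dual F V} (h : φ v = 0) (h' : φ w = 0) : tv v φ * tv w φ = tv (v + w) φ := by
  apply ext_smul
  intro x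
  rw [mul_smul, tv_smul h', tv_smul h, tv_smul (by rw [map_add, h, h', add_zero]), map_add, map_smul, h',
    smul_zero, add_zero]
  module

theorem tv_zero (v : V) : tv v (0 : Dual F V) = 1 := by
  apply ext_smul
  intro x
  rw [tv_smul (by rfl), one_smul, LinearMap.zero_apply, zero_smul, add_zero]

theorem tv_zero_left (φ : Dual F V) : tv (0 : V) φ = 1 := by
  apply ext_smul
  intro x
  rw [tv_smul (map_zero φ), one_smul, smul_zero, add_zero]

theorem tv_inv {v : V} {φ : Dual F V} (h : φ v = 0) : (tv v φ)⁻¹ = tv v (-φ) := by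
  rw [inv_eq_iff_mul_eq_one, tv_mul h (by rw [LinearMap.neg_apply, h, neg_zero]), add_neg_cancel, tv_zero]

theorem tv_smul_left {v : V} {φ : Dual F V} (c : F) (h : φ v = 0) : tv (c • v) φ = tv v (c • φ) := by
  apply ext_smul
  intro x
  rw [tv_smul (by rw [map_smul, h, smul_zero]), tv_smul (by rw [LinearMap.smul_apply, h, smul_zero]),
    LinearMap.smul_apply, smul_eq_mul]
  module

/-- push forward of a functional -/
noncomputable def dm (g : SpecialLinearGroup F V) (φ : Dual F V) : Dual F V :=
  φ ∘ₗ ((g⁻¹ : SpecialLinearGroup F V).toLinearEquiv : V →ₗ[F] V)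

theorem dm_apply (g : SpecialLinearGroup F V) (φ : Dual F V) (x : V) : dm g φ x = φ (g⁻¹ • x) := rfl

theorem dm_add (g : SpecialLinearGroup F V) (φ ψ : Dual F V) : dm g (φ + ψ) = dm g φ + dm g ψ := rfl

theorem dm_smul (g : SpecialLinearGroup F V) (c : F) (φ : Dual F V) : dm g (c • φ) = c • dm g φ := rfl

theorem dm_apply_smul (g : SpecialLinearGroup F V) (φ : Dual F V) (x : V) : dm g φ (g • x) = φ x := by
  rw [dm_apply, inv_smul_smul]

theorem conj_tv (g : SpecialLinearGroup F V) {v : V} {φ : Dual F V} (h : φ v = 0) :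
    g * tv v φ * g⁻¹ = tv (g • v) (dm g φ) := by
  apply ext_smul
  intro x
  rw [mul_smul, mul_smul, tv_smul h, tv_smul (by rw [dm_apply_smul, h]), smul_add, smul_inv_smul, smul_smul',
    dm_apply]

theorem dm_tv {v : V} {φ : Dual F V} (h : φ v = 0) (ψ : Dual F V) : dm (tv v φ) ψ = ψ - ψ v • φ := by
  ext x
  rw [dm_apply, tv_inv h, tv_smul (by rw [LinearMap.neg_apply, h, neg_zero])]
  simp only [map_add, LinearMap.neg_apply, map_smul, smul_eq_mul, LinearMap.sub_apply, LinearMap.smul_apply]
  ring

theorem tv_fix {v : V} {φ : Dual F V} (h : φ v = 0) {x : V} (hx : φ x = 0) : tv v φ • x = x := by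
  rw [tv_smul h, hx, zero_smul, add_zero]

/-- conjugating by a transvection whose axis contains the centre -/
theorem conj_tv_tv {v a : V} {φ θ : Dual F V} (h : φ v = 0) (hθ : θ a = 0) (hv : θ v = 0) :
    tv a θ * tv v φ * (tv a θ)⁻¹ = tv v (φ - φ a • θ) := by
  rw [conj_tv _ h, tv_fix hθ hv, dm_tv hθ]

/-- separating two functionals -/
theorem exists_apply {φ θ : Dual F V} (h : ∀ c : F, φ ≠ c • θ) : ∃ a : V, φ a = 1 ∧ θ a = 0 := by
  by_contra hcon
  push Not at hcon
  have h1 : ∀ a, θ a = 0 → φ a = 0 := by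
    intro a ha
    by_contra hne
    apply hcon ((φ a)⁻¹ • a)
    · rw [map_smul, smul_eq_mul, inv_mul_cancel₀ hne]
    · rw [map_smul, ha, smul_zero]
  by_cases hθ : θ = 0
  · subst hθ
    apply h 0
    ext a
    rw [h1 a rfl]; simp
  · obtain ⟨b, hb⟩ : ∃ b, θ b ≠ 0 := by
      by_contra hc
      push Not at hc
      exact hθ (LinearMap.ext hc)
    apply h (φ b * (θ b)⁻¹)
    ext a
    have h2 := h1 (a - (θ a * (θ b)⁻¹) • b) (by
      rw [map_sub, map_smul, smul_eq_mul, mul_assoc, inv_mul_cancel₀ hb, mul_one, sub_self])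
    rw [map_sub, map_smul, smul_eq_mul, sub_eq_zero] at h2
    rw [h2, LinearMap.smul_apply, smul_eq_mul]
    ring

end H41.Tv
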