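import Mathlib
import Cfsg.Agent.Lib.H41.Tv
import Cfsg.Agent.Lib.H41.Block
import Cfsg.Agent.Lib.H41.CharCount
import Cfsg.Agent.Lib.H41.CharCount2

/-! Counting transvections in point stabilisers of actions of `SL(V)` of small degree. -/

set_option autoImplicit false

namespace H41.SLCount

open Module MulAction H41.Tv
open scoped LinearAlgebra.Projectivization

section basic

variable {F V : Type*} [Field F] [AddCommGroup V] [Module F V]

/-- functionals killing v -/
def A (v : V) : Submodule F (Dual F V) := LinearMap.ker (Dual.eval F V v)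

theorem mem_A {v : V} {φ : Dual F V} : φ ∈ A (F := F) v ↔ φ v = 0 := Iff.rfl

@[reducible] noncomputable def act (v : V) (Ω : Type*) [MulAction (SpecialLinearGroup F V) Ω] :
    AddAction (A (F := F) v) Ω where
  vadd a ω := tv v a.1 • ω
  zero_vadd ω := by
    change tv v (0 : Dual F V) • ω = ω
    rw [tv_zero, one_smul]
  add_vadd a b ω := by
    change tv v (a.1 + b.1) • ω = tv v a.1 • tv v b.1 • ω
    rw [← tv_mul (mem_A.mp a.2) (mem_A.mp b.2), mul_smul]

theorem A_eq (v : V) : A (F := F) v = (Submodule.span F {v}).dualAnnihilator := by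
  ext φ
  rw [mem_A, Submodule.mem_dualAnnihilator]
  constructor
  · intro h w hw
    obtain ⟨c, rfl⟩ := Submodule.mem_span_singleton.mp hw
    rw [map_smul, h, smul_zero]
  · intro h
    exact h v (Submodule.mem_span_singleton_self v)

variable [FiniteDimensional F V]

theorem finrank_A {v : V} (hv : v ≠ 0) : finrank F (A (F := F) v) + 1 = finrank F V := by
  have h := Subspace.finrank_add_finrank_dualAnnihilator_eq (Submodule.span F {v})
  rw [finrank_span_singleton hv] at h
  rw [A_eq]
  omega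

theorem exists_indep (hn : 3 ≤ finrank F V) (v : V) (φ : Dual F V) :
    ∃ χ : Dual F V, χ v = 0 ∧ ∀ c : F, χ ≠ c • φ := by
  by_contra hcon
  push Not at hcon
  have hle : A (F := F) v ≤ Submodule.span F {φ} := by
    intro χ hχ
    obtain ⟨c, hc⟩ := hcon χ hχ
    rw [hc]
    exact Submodule.smul_mem _ _ (Submodule.mem_span_singleton_self φ)
  have h1 := Submodule.finrank_mono hle
  have h2 : finrank F (Submodule.span F {φ}) ≤ 1 := by
    simpa using finrank_span_le_card (R := F) ({φ} : Set (Dual F V))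
  by_cases hv : v = 0
  · subst hv
    have : A (F := F) (0 : V) = ⊤ := by
      ext φ; simp [mem_A]
    rw [this, finrank_top, Subspace.dual_finrank_eq] at h1
    omega
  · have := finrank_A (F := F) hv
    omega

omit [FiniteDimensional F V] in
theorem exists_conj_aux {v : V} {φ ψ : Dual F V} (hφ : φ v = 0) (hψ : ψ v = 0) (hψ0 : ψ ≠ 0)
    (hind : ∀ c : F, φ ≠ c • ψ) :
    ∃ g : SpecialLinearGroup F V, g * tv v φ * g⁻¹ = tv v ψ := by
  obtain ⟨a, ha1, ha2⟩ : ∃ a, φ a = 1 ∧ (φ - ψ) a = 0 := by
    apply exists_apply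
    intro c hc
    by_cases h1 : 1 - c = 0
    · have : c = 1 := by linear_combination -h1
      subst this
      rw [one_smul] at hc
      apply hψ0
      have := congrArg (fun x => φ - x) hc
      simpa using this.symm
    · apply hind ((1 - c)⁻¹ * (-c))
      have h2 : (1 - c) • φ = (-c) • ψ := by
        have : (1 - c) • φ = φ - c • φ := by module
        rw [this]
        nth_rewrite 1 [hc]
        module
      rw [mul_smul, ← h2, smul_smul, inv_mul_cancel₀ h1, one_smul]
  refine ⟨tv a (φ - ψ), ?_⟩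
  rw [conj_tv_tv hφ ha2 (by rw [LinearMap.sub_apply, hφ, hψ, sub_zero]), ha1, one_smul, sub_sub_cancel]

theorem exists_conj (hn : 3 ≤ finrank F V) {v : V} {φ ψ : Dual F V} (hφ : φ v = 0) (hψ : ψ v = 0) (hφ0 : φ ≠ 0)
    (hψ0 : ψ ≠ 0) : ∃ g : SpecialLinearGroup F V, g * tv v φ * g⁻¹ = tv v ψ := by
  by_cases hind : ∀ c : F, φ ≠ c • ψ
  · exact exists_conj_aux hφ hψ hψ0 hind
  · push Not at hind
    obtain ⟨c, hc⟩ := hind
    have hc0 : c ≠ 0 := by
      rintro rfl
      rw [zero_smul] at hc
      exact hφ0 hc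
    obtain ⟨χ, hχ, hχ2⟩ := exists_indep hn v φ
    have hχ0 : χ ≠ 0 := by
      intro h
      apply hχ2 0
      rw [h, zero_smul]
    obtain ⟨g1, h1⟩ := exists_conj_aux (φ := φ) (ψ := χ) hφ hχ hχ0 (by
      intro d hd
      have hd0 : d ≠ 0 := by
        rintro rfl
        rw [zero_smul] at hd
        exact hφ0 hd
      apply hχ2 d⁻¹
      rw [hd, smul_smul, inv_mul_cancel₀ hd0, one_smul])
    obtain ⟨g2, h2⟩ := exists_conj_aux (φ := χ) (ψ := ψ) hχ hψ hψ0 (by
      intro d hd
      apply hχ2 (d * c⁻¹)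
      rw [hd, hc, smul_smul, mul_assoc, inv_mul_cancel₀ hc0, mul_one])
    refine ⟨g2 * g1, ?_⟩
    rw [← h2, ← h1]
    group

end basic

variable {F V : Type*} [Field F] [Finite F] [AddCommGroup V] [Module F V] [FiniteDimensional F V]
  {Ω : Type*} [MulAction (SpecialLinearGroup F V) Ω]

theorem finite_A (v : V) : Finite (A (F := F) v) := by
  have : Finite (Dual F V) := Module.finite_of_finite F
  infer_instance

omit [Finite F] in
theorem card_A {v : V} (hv : v ≠ 0) : Nat.card (A (F := F) v) = Nat.card F ^ (finrank F V - 1) := by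
  have := finrank_A (F := F) hv
  rw [Module.natCard_eq_pow_finrank (K := F)]
  congr 1
  omega

omit [Finite F] in
theorem fix_card (hn : 3 ≤ finrank F V) {v : V} {φ ψ : Dual F V} (hφ : φ v = 0) (hψ : ψ v = 0) (hφ0 : φ ≠ 0)
    (hψ0 : ψ ≠ 0) :
    Nat.card {ω : Ω // tv v φ • ω = ω} = Nat.card {ω : Ω // tv v ψ • ω = ω} := by
  obtain ⟨g, hg⟩ := exists_conj hn hφ hψ hφ0 hψ0
  apply Nat.card_congr
  refine (MulAction.toPerm g).subtypeEquiv ?_
  intro ω
  rw [MulAction.toPerm_apply, ← hg, mul_smul, mul_smul, inv_smul_smul, smul_left_cancel_iff]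

omit [Finite F] [FiniteDimensional F V] in
/-- transport of stabilisers by elements fixing the point spanned by `v` -/
theorem stab_transport {v : V} {g : SpecialLinearGroup F V} {c : F} (hg : g • v = c • v) {φ : Dual F V}
    (hφ : φ v = 0) (ω : Ω) :
    (c • dm g φ) v = 0 ∧ (tv v (c • dm g φ) • (g • ω) = g • ω ↔ tv v φ • ω = ω) := by
  have h1 : (dm g φ) (c • v) = 0 := by rw [← hg, dm_apply_smul, hφ]
  have h2 : (c • dm g φ) v = 0 := by
    rw [LinearMap.smul_apply, ← map_smul, h1]
  refine ⟨h2, ?_⟩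
  have h3 : tv v (c • dm g φ) = g * tv v φ * g⁻¹ := by
    rw [conj_tv g hφ, hg]
    by_cases hc : c = 0
    · subst hc
      rw [zero_smul, zero_smul, tv_zero, tv_zero_left]
    · rw [tv_smul_left]
      rw [map_smul, smul_eq_mul, mul_eq_zero] at h1
      rcases h1 with h | h
      · exact absurd h hc
      · exact h
  rw [h3, mul_smul, mul_smul, inv_smul_smul, smul_left_cancel_iff]

omit [Finite F] [FiniteDimensional F V] in
theorem block [Finite (ℙ F V)] [Finite Ω] [IsPretransitive (SpecialLinearGroup F V) Ω] (hcard : Nat.card Ω < Nat.card (ℙ F V))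
    {v : V} (hv : v ≠ 0) (ω ω' : Ω) :
    ∃ (g : SpecialLinearGroup F V) (c : F), c ≠ 0 ∧ g • v = c • v ∧ g • ω = ω' := by
  obtain ⟨g, hg, hg2⟩ := Block.block (G := SpecialLinearGroup F V) (P := ℙ F V) inferInstance inferInstance hcard
    (Projectivization.mk F v hv) ω ω'
  rw [mem_stabilizer_iff, Projectivization.smul_mk, Projectivization.mk_eq_mk_iff'] at hg
  obtain ⟨c, hc⟩ := hg
  refine ⟨g, c, ?_, hc.symm, hg2⟩
  rintro rfl
  rw [zero_smul] at hc
  exact (smul_ne_zero_iff_ne g).mpr hv hc.symm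

theorem stab_card_le [Finite (ℙ F V)] [Finite Ω] [IsPretransitive (SpecialLinearGroup F V) Ω]
    (hcard : Nat.card Ω < Nat.card (ℙ F V)) {v : V} (hv : v ≠ 0) (ω ω' : Ω) :
    letI := act (F := F) v Ω
    Nat.card (AddAction.stabilizer (A (F := F) v) ω) ≤ Nat.card (AddAction.stabilizer (A (F := F) v) ω') := by
  let := act (F := F) v Ω
  have : Finite (A (F := F) v) := finite_A v
  obtain ⟨g, c, hc, hg, rfl⟩ := block hcard hv ω ω'
  have key := fun (φ : Dual F V) (hφ : φ v = 0) => stab_transport hg hφ ω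
  refine Nat.card_le_card_of_injective
    (fun x : AddAction.stabilizer (A (F := F) v) ω =>
      (⟨⟨c • dm g x.1.1, (key x.1.1 x.1.2).1⟩, (key x.1.1 x.1.2).2.mpr x.2⟩ :
        AddAction.stabilizer (A (F := F) v) (g • ω))) ?_
  intro x y hxy
  have h1 : c • dm g x.1.1 = c • dm g y.1.1 := congrArg (fun z => z.1.1) hxy
  have h2 : dm g x.1.1 = dm g y.1.1 := smul_right_injective _ hc h1
  apply Subtype.ext
  apply Subtype.ext
  ext z
  have := LinearMap.congr_fun h2 (g • z)
  rwa [dm_apply_smul, dm_apply_smul] at this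

/-- every character of a finite vector space comes from a linear functional -/
theorem exists_linear {W : Type*} [AddCommGroup W] [Module F W] [FiniteDimensional F W] (ψ₀ : AddChar F ℂ)
    (h0 : ψ₀ ≠ 1) (χ : AddChar W ℂ) : ∃ l : Dual F W, ∀ x, χ x = ψ₀ (l x) := by
  classical
  have : Finite W := Module.finite_of_finite F
  have : Finite (Dual F W) := Module.finite_of_finite F
  have : Fintype W := Fintype.ofFinite W
  let Φ : Dual F W → AddChar W ℂ := fun l => ψ₀.compAddMonoidHom l.toAddMonoidHom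
  have hinj : Function.Injective Φ := by
    intro l l' h
    have h1 : ∀ x, ψ₀ ((l - l') x) = 1 := by
      intro x
      have := DFunLike.congr_fun h x
      change ψ₀ (l x) = ψ₀ (l' x) at this
      rw [LinearMap.sub_apply, AddChar.map_sub_eq_div, this]
      exact div_self (by
      intro h0
      have h3 : ψ₀ (l' x + -(l' x)) = 1 := by rw [add_neg_cancel, AddChar.map_zero_eq_one]
      rw [AddChar.map_add_eq_mul, h0, zero_mul] at h3
      exact zero_ne_one h3)
    rw [← sub_eq_zero]
    by_contra hne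
    obtain ⟨x, hx⟩ : ∃ x, (l - l') x ≠ 0 := by
      by_contra hc
      push Not at hc
      exact hne (LinearMap.ext hc)
    apply h0
    ext c
    have h2 := h1 ((c * ((l - l') x)⁻¹) • x)
    rw [map_smul, smul_eq_mul, mul_assoc, inv_mul_cancel₀ hx, mul_one] at h2
    rw [h2]; rfl
  have : Finite (AddChar W ℂ) := by
    infer_instance
  have hcard : Nat.card (Dual F W) = Nat.card (AddChar W ℂ) := by
    rw [Nat.card_eq_fintype_card (α := AddChar W ℂ), AddChar.card_eq, ← Nat.card_eq_fintype_card,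
      Module.natCard_eq_pow_finrank (K := F) (V := W), Module.natCard_eq_pow_finrank (K := F) (V := Dual F W),
      Subspace.dual_finrank_eq]
  have hbij : Function.Bijective Φ := (Nat.bijective_iff_injective_and_card Φ).mpr ⟨hinj, hcard⟩
  obtain ⟨l, hl⟩ := hbij.2 χ
  refine ⟨l, fun x => ?_⟩
  rw [← hl]; rfl

end H41.SLCount
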