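import Cfsg.Agent.Lib.H41.SLCount

/-! The dichotomy for transvections in point stabilisers of small degree actions of `SL(V)`. -/

set_option autoImplicit false

namespace H41.SLDich

open Module MulAction H41.Tv H41.SLCount
open scoped LinearAlgebra.Projectivization

variable {F V : Type*} [Field F] [Finite F] [AddCommGroup V] [Module F V] [FiniteDimensional F V]
  {Ω : Type*} [MulAction (SpecialLinearGroup F V) Ω] [Finite Ω]

omit [Finite F] [Finite Ω] [FiniteDimensional F V] in
theorem stab_vadd (v : V) (ω : Ω) (a φ : Dual F V) (ha : a v = 0) (hφ : φ v = 0) (h : tv v φ • ω = ω) :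
    tv v φ • (tv v a • ω) = tv v a • ω := by
  rw [← mul_smul, tv_mul hφ ha, add_comm, ← tv_mul ha hφ, mul_smul, h]

theorem card_sub {F W : Type*} [Field F] [Finite F] [AddCommGroup W] [Module F W] [FiniteDimensional F W] (U : Submodule F W) :
    (U : Set W).ncard = Nat.card F ^ finrank F U := by
  rw [← Module.natCard_eq_pow_finrank (K := F) (V := U)]
  exact (Nat.card_coe_set_eq _).symm

theorem card_ann2 {n : ℕ} (hnn : finrank F V = n + 2) (v w₀ : V) :
    Nat.card F ^ n ≤ {φ : Dual F V | φ v = 0 ∧ φ w₀ = 0}.ncard := by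
  classical
  have hL2 : {φ : Dual F V | φ v = 0 ∧ φ w₀ = 0} = ((Submodule.span F {v, w₀}).dualAnnihilator : Set (Dual F V)) := by
    ext θ
    rw [Set.mem_ofPred_eq, SetLike.mem_coe, Submodule.mem_dualAnnihilator]
    constructor
    · rintro ⟨h3, h4⟩ x hx
      obtain ⟨a, b, rfl⟩ := Submodule.mem_span_pair.mp hx
      rw [map_add, map_smul, map_smul, h3, h4, smul_zero, smul_zero, add_zero]
    · intro h
      exact ⟨h v (Submodule.subset_span (by simp)), h w₀ (Submodule.subset_span (by simp))⟩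
  rw [hL2, card_sub]
  have h3 : finrank F (Submodule.span F ({v, w₀} : Set V)) ≤ 2 := by
    have := finrank_span_finset_le_card (R := F) ({v, w₀} : Finset V)
    rw [Finset.coe_pair] at this
    exact this.trans Finset.card_le_two
  have h4 := Subspace.finrank_add_finrank_dualAnnihilator_eq (Submodule.span F {v, w₀})
  have : 1 ≤ Nat.card F := Nat.card_pos
  exact Nat.pow_le_pow_right this (by omega)

set_option maxHeartbeats 1600000 in
theorem dich [IsPretransitive (SpecialLinearGroup F V) Ω] (hn : 3 ≤ finrank F V)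
    (hcard : Nat.card Ω < Nat.card (ℙ F V)) {v : V} (hv : v ≠ 0) (φ₁ : Dual F V) (hφ₁ : φ₁ v = 0) (ω₁ : Ω)
    (hmv : tv v φ₁ • ω₁ ≠ ω₁) :
    (Nat.card Ω = Nat.card F ^ (finrank F V - 1) ∧
      ∀ (ω : Ω) (φ : Dual F V), φ v = 0 → tv v φ • ω = ω → φ = 0) ∨
    (∀ ω : Ω, ∃ w : V, (∀ c : F, w ≠ c • v) ∧ ∀ φ : Dual F V, φ v = 0 → (tv v φ • ω = ω ↔ φ w = 0)) := by
  classical
  let inst := act (F := F) v Ω
  have hfinA : Finite (A (F := F) v) := finite_A v
  have hfinV : Finite V := Module.finite_of_finite F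
  have hfinD : Finite (Dual F V) := Module.finite_of_finite F
  have hfinP : Finite (ℙ F V) := inferInstance
  set q := Nat.card F with hq
  have hq2 : 2 ≤ q := Finite.one_lt_card
  obtain ⟨n, hnn⟩ : ∃ n, finrank F V = n + 2 := ⟨finrank F V - 2, by omega⟩
  set N := Nat.card (A (F := F) v) with hN
  have hNq : N = q ^ (n + 1) := by
    rw [hN, card_A hv, hnn]; rfl
  have hφ₁0 : φ₁ ≠ 0 := by
    rintro rfl
    apply hmv
    rw [tv_zero, one_smul]
  -- constants
  set f := Nat.card {ω : Ω // tv v φ₁ • ω = ω} with hf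
  have hfc : ∀ x : A (F := F) v, x ≠ 0 → Nat.card {ω : Ω // x +ᵥ ω = ω} = f := by
    intro x hx
    exact fix_card hn x.2 hφ₁ (fun h => hx (Subtype.ext h)) hφ₁0
  set s := Nat.card (AddAction.stabilizer (A (F := F) v) ω₁) with hs
  have hsc : ∀ ω : Ω, Nat.card (AddAction.stabilizer (A (F := F) v) ω) = s :=
    fun ω => le_antisymm (stab_card_le hcard hv ω ω₁) (stab_card_le hcard hv ω₁ ω)
  -- cardinalities
  have hcV : Nat.card V = q ^ (n + 2) := by
    rw [Module.natCard_eq_pow_finrank (K := F), hnn]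
  have hP := Projectivization.card' F V
  rw [hcV, ← hq] at hP
  have hNV : q ^ (n + 2) = q * N := by rw [hNq]; ring
  rw [hNV] at hP
  obtain ⟨q', hq'⟩ : ∃ M, q = M + 1 := ⟨q - 1, by omega⟩
  have hNlt : N ≤ Nat.card (ℙ F V) := by
    by_contra hc
    push Not at hc
    rw [hq'] at hP
    simp only [Nat.add_sub_cancel] at hP
    have : (Nat.card (ℙ F V) + 1) * q' ≤ N * q' := Nat.mul_le_mul_right _ hc
    have hNpos : 0 < N := by rw [hNq]; positivity
    have h1 : (q' + 1) * N = q' * N + N := by ring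
    have h2 : (Nat.card (ℙ F V) + 1) * q' = Nat.card (ℙ F V) * q' + q' := by ring
    have h3 : N * q' = q' * N := by ring
    have hq0 : 0 < q' := by omega
    omega
  obtain ⟨m, hm⟩ : ∃ m, Nat.card (ℙ F V) = N + m := ⟨Nat.card (ℙ F V) - N, by omega⟩
  have hNN : q * q ≤ N := by
    have : q ^ 2 ≤ q ^ (n + 1) := Nat.pow_le_pow_right (by omega) (by omega)
    rw [hNq]; nlinarith
  have hNpos : 0 < N := by nlinarith
  have hmN : (q - 1) * m = N - 1 := by
    rw [hm, hq'] at hP
    rw [hq']
    simp only [Nat.add_sub_cancel] at hP ⊢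
    have h1 : (q' + 1) * N = q' * N + N := by ring
    have h2 : (N + m) * q' = q' * N + q' * m := by ring
    omega
  have hmle : m ≤ N - 1 := by
    rw [← hmN]
    exact Nat.le_mul_of_pos_left _ (by omega)
  have hflt : f < Nat.card Ω := by
    have : Fintype Ω := Fintype.ofFinite Ω
    rw [hf, Nat.card_eq_fintype_card, Nat.card_eq_fintype_card]
    exact Fintype.card_subtype_lt (x := ω₁) hmv
  obtain ⟨hDN, w, hws, hfw⟩ := CharCount2.numbers (A := A (F := F) v) (Ω := Ω) f s hfc hsc (by omega) hflt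
  have hfm : f < m := by omega
  rcases CharCount2.arith f s w N q m hq2 hmN hNN hws hfw hfm with h1 | ⟨h1, h2⟩
  · left
    have hwN : w = N := by rw [h1] at hws; omega
    have hf0 : f = 0 := by
      rw [h1, Nat.sub_self, mul_zero] at hfw
      rcases Nat.mul_eq_zero.mp hfw with h | h
      · exact h
      · exfalso
        have : 2 * 2 ≤ q * q := Nat.mul_le_mul hq2 hq2
        omega
    refine ⟨?_, ?_⟩
    · rw [← hDN, hf0, zero_add, ← hN, hNq, hnn]; rfl
    · intro ω φ hφ hfix
      have h3 := hsc ω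
      rw [h1] at h3
      have h4 : Subsingleton (AddAction.stabilizer (A (F := F) v) ω) := by
        exact (Nat.card_eq_one_iff_unique.mp h3).1
      have h5 : (⟨⟨φ, hφ⟩, hfix⟩ : AddAction.stabilizer (A (F := F) v) ω) = 0 := Subsingleton.elim _ _
      exact congrArg (fun z => z.1.1) h5
  · right
    intro ω
    have hmem : ∀ {ω' : Ω} {x : A (F := F) v}, x ∈ AddAction.stabilizer (A (F := F) v) ω' ↔ tv v x.1 • ω' = ω' :=
      fun {ω' x} => Iff.rfl
    set S := AddAction.stabilizer (A (F := F) v) ω with hS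
    have hScard : Nat.card S = s := hsc ω
    -- a character trivial on S
    obtain ⟨x₀, hx₀⟩ : ∃ x₀ : A (F := F) v, x₀ ∉ S := by
      by_contra hc
      push Not at hc
      have : S = ⊤ := by
        ext x; simp [hc x]
      rw [this] at hScard
      have h3 : Nat.card (⊤ : AddSubgroup (A (F := F) v)) = N := Nat.card_congr AddSubgroup.topEquiv.toEquiv
      rw [h3] at hScard
      rw [← hScard] at hws
      have : 2 * N ≤ w * N := Nat.mul_le_mul_right _ (by omega)
      omega
    obtain ⟨χ', hχ'⟩ : ∃ χ' : AddChar (A (F := F) v ⧸ S) ℂ, χ' (QuotientAddGroup.mk' S x₀) ≠ 1 := by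
      rw [AddChar.exists_apply_ne_zero]
      intro h
      apply hx₀
      exact (QuotientAddGroup.eq_zero_iff x₀).mp h
    set χ : AddChar (A (F := F) v) ℂ := χ'.compAddMonoidHom (QuotientAddGroup.mk' S) with hχ
    have hχS : ∀ x ∈ S, χ x = 1 := by
      intro x hx
      change χ' (QuotientAddGroup.mk' S x) = 1
      have : QuotientAddGroup.mk' S x = 0 := (QuotientAddGroup.eq_zero_iff x).mpr hx
      rw [this, AddChar.map_zero_eq_one]
    have hχx₀ : χ x₀ ≠ 1 := hχ'
    have hχ0 : χ ≠ 0 := by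
      intro h
      rw [h] at hχx₀
      exact hχx₀ rfl
    obtain ⟨ψ₀, hψ₀⟩ : ∃ ψ₀ : AddChar F ℂ, ψ₀ 1 ≠ 1 := AddChar.exists_apply_ne_zero.mpr one_ne_zero
    obtain ⟨l, hl⟩ := exists_linear ψ₀ (by rintro rfl; exact hψ₀ rfl) χ
    obtain ⟨l', hl'⟩ := LinearMap.exists_extend l
    set w₀ : V := (Module.evalEquiv F V).symm l' with hw₀
    have hw₀' : ∀ φ : Dual F V, l' φ = φ w₀ := by
      intro φ
      have : l' = Module.evalEquiv F V w₀ := by rw [hw₀, LinearEquiv.apply_symm_apply]
      rw [this]; rfl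
    have hχw : ∀ (φ : Dual F V) (hφ : φ v = 0), χ ⟨φ, hφ⟩ = ψ₀ (φ w₀) := by
      intro φ hφ
      rw [hl, ← hw₀', ← hl']; rfl
    have hwv : ∀ c : F, w₀ ≠ c • v := by
      intro c hc
      apply hχx₀
      have : χ x₀ = ψ₀ (x₀.1 w₀) := hχw x₀.1 x₀.2
      rw [this, hc, map_smul, show x₀.1 v = 0 from x₀.2, smul_zero, AddChar.map_zero_eq_one]
    -- invariance of the stabiliser
    have hinv : ∀ g : SpecialLinearGroup F V, g • v = v → g • w₀ = w₀ → ∀ φ : Dual F V, φ v = 0 →
        tv v φ • ω = ω → tv v (dm g φ) • ω = ω ∧ (dm g φ) v = 0 := by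
      intro g hgv hgw φ hφ hfix
      have hgv1 : g • v = (1 : F) • v := by rw [hgv, one_smul]
      have hgv2 : g⁻¹ • v = (1 : F) • v := by rw [one_smul, inv_smul_eq_iff, hgv]
      obtain ⟨a, ha⟩ := CharCount.single_orbit (A := A (F := F) v) (Ω := Ω) f s hfc hsc hDN χ hχ0 ω (g • ω) hχS (by
        intro x hx
        obtain ⟨h3, h4⟩ := stab_transport hgv2 (φ := x.1) x.2 (g • ω)
        rw [one_smul] at h3 h4
        rw [inv_smul_smul] at h4
        have h5 := hχS ⟨dm g⁻¹ x.1, h3⟩ (h4.mpr hx)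
        rw [hχw] at h5
        rw [dm_apply, inv_inv, hgw] at h5
        rw [← h5]
        exact hχw x.1 x.2)
      obtain ⟨h3, h4⟩ := stab_transport hgv1 (φ := φ) hφ ω
      rw [one_smul] at h3 h4
      refine ⟨?_, h3⟩
      have h5 := h4.mpr hfix
      rw [← ha] at h5
      change tv v (dm g φ) • (tv v a.1 • ω) = tv v a.1 • ω at h5
      have h6 := stab_vadd v (tv v a.1 • ω) (-a.1) (dm g φ) (by rw [LinearMap.neg_apply, show a.1 v = 0 from a.2, neg_zero])
        h3 h5
      rwa [← tv_inv (show a.1 v = 0 from a.2), inv_smul_smul] at h6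
    have hi : ∀ φ : Dual F V, φ v = 0 → tv v φ • ω = ω → ∀ θ : Dual F V, θ v = 0 → θ w₀ = 0 →
        (∀ c : F, φ ≠ c • θ) → tv v θ • ω = ω := by
      intro φ hφ hfix θ hθ hθw hne
      obtain ⟨a, ha1, ha2⟩ := exists_apply hne
      obtain ⟨h3, h3'⟩ := hinv (tv a θ) (tv_fix ha2 hθ) (tv_fix ha2 hθw) φ hφ hfix
      rw [dm_tv ha2, ha1, one_smul] at h3
      have h4 : tv v (φ - θ + θ) • ω = ω := by rw [sub_add_cancel, hfix]
      rw [add_comm, ← tv_mul hθ (by rw [LinearMap.sub_apply, hφ, hθ, sub_zero]), mul_smul, h3] at h4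
      exact h4
    have hii : ∀ θ : Dual F V, θ v = 0 → θ w₀ = 0 → tv v θ • ω = ω := by
      intro θ hθ hθw
      by_contra hne
      have hall : ∀ x : S, ∃ c : F, x.1.1 = c • θ := by
        intro x
        by_contra hc
        push Not at hc
        exact hne (hi x.1.1 x.1.2 x.2 θ hθ hθw hc)
      choose c hc using hall
      have hinj : Function.Injective c := by
        intro x y hxy
        apply Subtype.ext
        apply Subtype.ext
        rw [hc x, hc y, hxy]
      have hle : Nat.card F ≤ Nat.card S := by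
        rw [hScard, ← hq]; omega
      have hle2 := Nat.card_le_card_of_injective c hinj
      have hbij : Function.Bijective c := (Nat.bijective_iff_injective_and_card c).mpr ⟨hinj, le_antisymm hle2 hle⟩
      obtain ⟨x, hx⟩ := hbij.2 1
      apply hne
      have h3 := hc x
      rw [hx, one_smul] at h3
      rw [← h3]
      exact x.2
    refine ⟨w₀, hwv, fun φ hφ => ⟨?_, hii φ hφ⟩⟩
    intro hfix
    -- cardinalities
    set S' : Set (Dual F V) := {φ | φ v = 0 ∧ tv v φ • ω = ω} with hS'
    set L' : Set (Dual F V) := {φ | φ v = 0 ∧ φ w₀ = 0} with hL'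
    have hLS : L' ⊆ S' := fun θ hθ => ⟨hθ.1, hii θ hθ.1 hθ.2⟩
    have hcS : S'.ncard = s := by
      rw [← hScard, ← Nat.card_coe_set_eq]
      apply Nat.card_congr
      exact
        { toFun := fun x => ⟨⟨x.1, x.2.1⟩, x.2.2⟩
          invFun := fun x => ⟨x.1.1, x.1.2, x.2⟩
          left_inv := fun x => rfl
          right_inv := fun x => rfl }
    have hcL : q ^ n ≤ L'.ncard := card_ann2 hnn v w₀
    have hsle : s ≤ q ^ n := by
      have h3 : q * s ≤ q * q ^ n := by
        calc q * s ≤ w * s := Nat.mul_le_mul_right _ h1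
          _ = N := hws
          _ = q * q ^ n := by rw [hNq]; ring
      exact Nat.le_of_mul_le_mul_left h3 (by omega)
    have heq : L' = S' := Set.eq_of_subset_of_ncard_le hLS (by rw [hcS]; exact hsle.trans hcL)
    have : φ ∈ L' := by rw [heq]; exact ⟨hφ, hfix⟩
    exact this.2

end H41.SLDich
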