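import Cfsg.Agent.Lib.H41.SLCaseA2
import Cfsg.Agent.Lib.H6.SLGen

/-! The minimal index of a proper subgroup of `SL(V)`, `dim V ≥ 3`, `(dim V, |F|) ≠ (4, 2)`. -/

set_option autoImplicit false

namespace H41.SLMin

open Module MulAction H41.Tv H41.SLCount H41.SLCaseB H41.SLCaseA H41.SLCaseA2
open scoped LinearAlgebra.Projectivization

variable {F V : Type*} [Field F] [AddCommGroup V] [Module F V] [FiniteDimensional F V]

theorem exists_SL (L : V →ₗ[F] V) (h : LinearMap.det L = 1) :
    ∃ g : SpecialLinearGroup F V, ∀ x, g • x = L x := by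
  have hu : IsUnit (LinearMap.det L) := by rw [h]; exact isUnit_one
  refine ⟨⟨LinearMap.equivOfIsUnitDet hu, ?_⟩, fun x => ?_⟩
  · rw [← Units.val_inj, LinearEquiv.coe_det, LinearMap.coe_equivOfIsUnitDet, h]
    rfl
  · exact LinearMap.congr_fun (LinearMap.coe_equivOfIsUnitDet hu) x

variable {H : Subgroup (SpecialLinearGroup F V)}

theorem false_eq3 (hn : finrank F V = 3)
    (hA1 : ∀ v : V, v ≠ 0 → ∀ φ : Dual F V, φ v = 0 → tv v φ ∈ H → φ = 0)
    (hA2 : ∀ v : V, v ≠ 0 → ∀ g : SpecialLinearGroup F V, ∃ θ : Dual F V, θ v = 0 ∧ tv v θ * g ∈ H) : False := by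
  obtain ⟨v, a, hv, ha⟩ := exists_va (F := F) (V := V) (by omega)
  have hW := finrank_W hv ha
  have hW2 : finrank F (W (F := F) v a) = 1 := by omega
  obtain ⟨φ, hφW, hφ0⟩ : ∃ φ ∈ W (F := F) v a, φ ∉ (⊥ : Submodule F (Dual F V)) := by
    apply exists_notMem
    rw [finrank_bot]; omega
  have hφ0' : φ ≠ 0 := fun h => hφ0 (by rw [h]; exact Submodule.zero_mem _)
  have hφ := mem_W.mp hφW
  obtain ⟨θ, hθ, h, hH, hQ⟩ := exists_Q hA2 hv hφ.1 hφ.2
  have hns := not_smul_Q hA1 ha hφ.1 hφ.2 hφ0' hH hQ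
  by_cases h2 : (2 : F) = 0
  · -- characteristic two
    have ht : θ a ≠ 0 := by
      intro ht
      have hθW : θ ∈ W (F := F) v a := mem_W.mpr ⟨hθ, ht⟩
      have hWs : W (F := F) v a = Submodule.span F ({φ} : Set (Dual F V)) := by
        symm
        apply Submodule.eq_of_le_of_finrank_eq
        · rw [Submodule.span_singleton_le_iff_mem]; exact hφW
        · rw [finrank_span_singleton hφ0', hW2]
      rw [hWs] at hθW
      obtain ⟨c, hc⟩ := Submodule.mem_span_singleton.mp hθW
      exact hns c hc.symm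
    have h3 : (θ a • φ) v = 0 := by rw [LinearMap.smul_apply, hφ.1, smul_zero]
    have h1 : h * h = tv v (θ a • φ) := by
      apply ext_smul
      intro x
      rw [mul_smul, hQ (h • x), tv_smul h3, hQ x]
      simp only [map_add, map_smul, hφ.1, hφ.2, hθ, smul_eq_mul, mul_zero, add_zero, LinearMap.smul_apply]
      have e : x + φ x • a + θ x • v + φ x • a + (θ x + φ x * θ a) • v
          = x + (2 : F) • (φ x • a + θ x • v) + (θ a * φ x) • v := by module
      rw [e, h2, zero_smul, add_zero]
    have h4 := hA1 v hv _ h3 (by rw [← h1]; exact H.mul_mem hH hH)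
    rcases smul_eq_zero.mp h4 with h5 | h5
    · exact ht h5
    · exact hφ0' h5
  · -- odd characteristic
    obtain ⟨l, hl1, -⟩ : ∃ l : Dual F V, l v = 1 ∧ (0 : Dual F V) v = 0 := by
      obtain ⟨l, hl, -⟩ := exists_sep (F := F) (W := (⊥ : Submodule F V)) (x := v) (by simpa using hv)
      exact ⟨(l v)⁻¹ • l, by rw [LinearMap.smul_apply, smul_eq_mul, inv_mul_cancel₀ hl], rfl⟩
    obtain ⟨g₀, hg₀⟩ := exists_SL ((-1 : F) • LinearMap.transvection ((-2 : F) • l) v) (by
      rw [LinearMap.det_smul, LinearMap.transvection.det, hn, LinearMap.smul_apply, hl1]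
      norm_num)
    obtain ⟨θ₀, hθ₀, hgH⟩ := hA2 v hv g₀
    set g := tv v θ₀ * g₀ with hg
    have hgx : ∀ x, g • x = -x + ((2 : F) • l - θ₀) x • v := by
      intro x
      have e1 : g₀ • x = -x + (2 * l x) • v := by
        rw [hg₀, LinearMap.smul_apply, LinearMap.transvection.apply, LinearMap.smul_apply, smul_eq_mul]
        module
      rw [hg, mul_smul, tv_smul hθ₀, e1, map_add, map_neg, map_smul, hθ₀, smul_zero, add_zero, LinearMap.sub_apply,
        LinearMap.smul_apply, smul_eq_mul]
      module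
    set ξ := (2 : F) • l - θ₀ with hξ
    have hξv : ξ v = 2 := by
      rw [hξ, LinearMap.sub_apply, LinearMap.smul_apply, hl1, hθ₀, smul_eq_mul, mul_one, sub_zero]
    have hgv : g • v = v := by rw [hgx, hξv]; module
    have hconj : Q (g * h * g⁻¹) v a φ (-θ - ξ a • φ) := by
      intro x
      obtain ⟨y, rfl⟩ : ∃ y, g • y = x := ⟨g⁻¹ • x, smul_inv_smul _ _⟩
      have e1 : φ (g • y) = - φ y := by
        rw [hgx, map_add, map_neg, map_smul, hφ.1, smul_zero, add_zero]
      have e2 : θ (g • y) = - θ y := by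
        rw [hgx, map_add, map_neg, map_smul, hθ, smul_zero, add_zero]
      rw [mul_smul, mul_smul, inv_smul_smul, hQ y, smul_add, smul_add, smul_smul', smul_smul', hgv, hgx a]
      simp only [LinearMap.sub_apply, LinearMap.neg_apply, LinearMap.smul_apply, smul_eq_mul, e1, e2]
      generalize g • y = z
      module
    have h3 := unique_Q hA1 hv hφ.1 hθ (by
      simp only [LinearMap.sub_apply, LinearMap.neg_apply, LinearMap.smul_apply, smul_eq_mul, hθ, hφ.1]; ring)
      hH (H.mul_mem (H.mul_mem hgH hH) (H.inv_mem hgH)) hQ hconj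
    apply hns ((2 : F)⁻¹ * (-ξ a))
    have h4 : (2 : F) • θ = (-ξ a) • φ := by
      have h5 : θ - (-θ - ξ a • φ) = 0 := by rw [← h3, sub_self]
      have h6 : θ - (-θ - ξ a • φ) = (2 : F) • θ - (-ξ a) • φ := by module
      rw [h6, sub_eq_zero] at h5
      exact h5
    rw [mul_smul, ← h4, smul_smul, inv_mul_cancel₀ h2, one_smul]

/-- `SL(V)` is generated by transvections -/
theorem eq_top_of_tv (hn : 2 ≤ finrank F V) (hH : ∀ (v : V) (φ : Dual F V), φ v = 0 → tv v φ ∈ H) : H = ⊤ := by
  set b := Module.finBasis F V with hb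
  set e := Matrix.SpecialLinearGroup.toLin_equiv b with he
  have : Nontrivial (Fin (finrank F V)) := Fin.nontrivial_iff_two_le.mpr hn
  have h1 : H.comap e.toMonoidHom = ⊤ := by
    apply H6.SLGen.eq_top_of_transvection_mem
    intro i j hij c
    rw [Subgroup.mem_comap]
    have h2 : (c • b.coord j) (b i) = 0 := by
      rw [LinearMap.smul_apply, Module.Basis.coord_apply, Module.Basis.repr_self, Finsupp.single_eq_of_ne hij.symm,
        smul_zero]
    have h3 : e.toMonoidHom (Matrix.SpecialLinearGroup.transvection hij c) = tv (b i) (c • b.coord j) := by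
      apply ext_smul
      intro x
      have h4 : e.toMonoidHom (Matrix.SpecialLinearGroup.transvection hij c) • x
          = Matrix.toLin b b (Matrix.SpecialLinearGroup.transvection hij c : Matrix _ _ F) x := by
        rw [← Matrix.SpecialLinearGroup.toLin_equiv.toLinearMap_eq]
        rfl
      rw [h4, tv_smul h2, Matrix.SpecialLinearGroup.transvection_coe, map_add, Matrix.toLin_one]
      rw [LinearMap.add_apply, LinearMap.id_apply]
      congr 1
      rw [Matrix.toLin_apply]
      rw [Finset.sum_eq_single i]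
      · rw [Matrix.single_mulVec]
        simp
      · intro k _ hk
        rw [Matrix.single_mulVec]
        rw [Function.update_of_ne hk]
        simp
      · simp
    rw [h3]
    exact hH _ _ h2
  rw [eq_top_iff]
  intro g _
  have h2 : e.symm g ∈ H.comap e.toMonoidHom := by rw [h1]; trivial
  rw [Subgroup.mem_comap] at h2
  simpa using h2

omit [FiniteDimensional F V] in
theorem transport {Ω : Type*} [MulAction (SpecialLinearGroup F V) Ω] {v v' : V} {g : SpecialLinearGroup F V} {c : F}
    (hg : g • v = c • v') (hc : c ≠ 0) {φ : Dual F V} (hφ : φ v = 0) (ω : Ω) :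
    (c • dm g φ) v' = 0 ∧ (tv v' (c • dm g φ) • (g • ω) = g • ω ↔ tv v φ • ω = ω) := by
  have h1 : (dm g φ) (c • v') = 0 := by rw [← hg, dm_apply_smul, hφ]
  have h2 : (dm g φ) v' = 0 := by
    rw [map_smul, smul_eq_mul, mul_eq_zero] at h1
    rcases h1 with h | h
    · exact absurd h hc
    · exact h
  have h3 : tv v' (c • dm g φ) = g * tv v φ * g⁻¹ := by
    rw [conj_tv g hφ, hg, tv_smul_left _ h2]
  refine ⟨by rw [LinearMap.smul_apply, h2, smul_zero], ?_⟩
  rw [h3, mul_smul, mul_smul, inv_smul_smul, smul_left_cancel_iff]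

omit [FiniteDimensional F V] in
theorem exists_move {v v' : V} (hv : v ≠ 0) (hv' : v' ≠ 0) :
    ∃ (g : SpecialLinearGroup F V) (c : F), c ≠ 0 ∧ g • v = c • v' := by
  have : IsPretransitive (SpecialLinearGroup F V) (ℙ F V) :=
    MulAction.isPretransitive_of_is_two_pretransitive
  obtain ⟨g, hg⟩ := this.exists_smul_eq (Projectivization.mk F v hv) (Projectivization.mk F v' hv')
  rw [Projectivization.smul_mk, Projectivization.mk_eq_mk_iff'] at hg
  obtain ⟨c, hc⟩ := hg
  refine ⟨g, c, ?_, hc.symm⟩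
  rintro rfl
  rw [zero_smul] at hc
  exact (smul_ne_zero_iff_ne g).mpr hv hc.symm

theorem min_index [Finite F] (hn : 3 ≤ finrank F V) (hexc : ¬ (finrank F V = 4 ∧ Nat.card F = 2))
    (H : Subgroup (SpecialLinearGroup F V)) (hH : H ≠ ⊤) : Nat.card (ℙ F V) ≤ H.index := by
  by_contra hlt
  push Not at hlt
  have hfinG : Finite (SpecialLinearGroup F V) := finite_SL
  have hfinV : Finite V := Module.finite_of_finite F
  have hfinP : Finite (ℙ F V) := inferInstance
  have hfinD : Finite (Dual F V) := Module.finite_of_finite F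
  set Ω := SpecialLinearGroup F V ⧸ H with hΩ
  have hcard : Nat.card Ω < Nat.card (ℙ F V) := hlt
  set ω₀ : Ω := ((1 : SpecialLinearGroup F V) : Ω) with hω₀
  have hst : ∀ g : SpecialLinearGroup F V, g • ω₀ = ω₀ ↔ g ∈ H := by
    intro g
    rw [← MulAction.mem_stabilizer_iff, hω₀, MulAction.stabilizer_quotient]
  -- something moves
  have hmv : ∀ v : V, v ≠ 0 → ∃ φ : Dual F V, φ v = 0 ∧ ∃ ω : Ω, tv v φ • ω ≠ ω := by
    intro v₀ hv₀
    by_contra hc
    push Not at hc
    apply hH
    apply eq_top_of_tv (by omega)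
    intro v φ hφ
    by_cases hv : v = 0
    · subst hv
      rw [tv_zero_left]; exact H.one_mem
    · obtain ⟨g, c, hc0, hg⟩ := exists_move (F := F) hv hv₀
      obtain ⟨h1, h2⟩ := transport hg hc0 hφ ω₀
      rw [← hst, ← h2]
      exact hc _ h1 _
  by_cases hcase : ∃ v : V, v ≠ 0 ∧ Nat.card Ω = Nat.card F ^ (finrank F V - 1) ∧
      ∀ (ω : Ω) (φ : Dual F V), φ v = 0 → tv v φ • ω = ω → φ = 0
  · obtain ⟨v₀, hv₀, hcΩ, hfree₀⟩ := hcase
    have hfree : ∀ v : V, v ≠ 0 → ∀ (ω : Ω) (φ : Dual F V), φ v = 0 → tv v φ • ω = ω → φ = 0 := by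
      intro v hv ω φ hφ hfix
      obtain ⟨g, c, hc0, hg⟩ := exists_move (F := F) hv hv₀
      obtain ⟨h1, h2⟩ := transport hg hc0 hφ ω
      have h3 := hfree₀ _ _ h1 (h2.mpr hfix)
      rcases smul_eq_zero.mp h3 with h | h
      · exact absurd h hc0
      · ext x
        have := LinearMap.congr_fun h (g • x)
        rwa [dm_apply_smul] at this
    have hA1 : ∀ v : V, v ≠ 0 → ∀ φ : Dual F V, φ v = 0 → tv v φ ∈ H → φ = 0 := by
      intro v hv φ hφ hφH
      exact hfree v hv ω₀ φ hφ ((hst _).mpr hφH)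
    have hA2 : ∀ v : V, v ≠ 0 → ∀ g : SpecialLinearGroup F V, ∃ θ : Dual F V, θ v = 0 ∧ tv v θ * g ∈ H := by
      intro v hv g
      have hinj : Function.Injective (fun a : A (F := F) v => tv v a.1 • (g • ω₀)) := by
        intro a b hab
        change tv v a.1 • (g • ω₀) = tv v b.1 • (g • ω₀) at hab
        apply Subtype.ext
        have hbn : (-b.1) v = 0 := by rw [LinearMap.neg_apply, mem_A.mp b.2, neg_zero]
        have h1 : tv v (a.1 - b.1) • (g • ω₀) = g • ω₀ := by
          rw [sub_eq_add_neg, add_comm, ← tv_mul hbn (mem_A.mp a.2), mul_smul, hab, ← tv_inv (mem_A.mp b.2),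
            inv_smul_smul]
        have h2 := hfree v hv _ _ (by rw [LinearMap.sub_apply, mem_A.mp a.2, mem_A.mp b.2, sub_zero]) h1
        exact sub_eq_zero.mp h2
      have hfinA : Finite (A (F := F) v) := finite_A v
      have hbij := (Nat.bijective_iff_injective_and_card _).mpr ⟨hinj, by rw [card_A hv, hcΩ]⟩
      obtain ⟨a, ha⟩ := hbij.2 ω₀
      refine ⟨a.1, a.2, ?_⟩
      rw [← hst, mul_smul]
      exact ha
    rcases Nat.lt_or_ge (finrank F V) 4 with h3 | h4
    · exact false_eq3 (by omega) hA1 hA2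
    · rcases Nat.lt_or_ge 4 (finrank F V) with h5 | h5
      · exact false_ge5 h5 hA1 hA2
      · have h4' : finrank F V = 4 := le_antisymm h5 h4
        have hq : 2 < Nat.card F := by
          have h6 : 1 < Nat.card F := Finite.one_lt_card
          by_contra hc
          exact hexc ⟨h4', by omega⟩
        obtain ⟨c, hc0, hc1⟩ : ∃ c : F, c ≠ 0 ∧ c ≠ -1 := by
          classical
          have : Fintype F := Fintype.ofFinite F
          have h7 : ({0, -1} : Finset F).card < Fintype.card F := by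
            rw [← Nat.card_eq_fintype_card]
            exact lt_of_le_of_lt Finset.card_le_two hq
          obtain ⟨c, hc⟩ : ∃ c, c ∉ ({0, -1} : Finset F) := by
            by_contra hcon
            push Not at hcon
            have : ({0, -1} : Finset F) = Finset.univ := by
              ext x; simp only [Finset.mem_univ, iff_true]; exact hcon x
            rw [this, Finset.card_univ] at h7
            exact lt_irrefl _ h7
          rw [Finset.mem_insert, Finset.mem_singleton, not_or] at hc
          exact ⟨c, hc.1, hc.2⟩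
        exact false_eq4 h4' c hc0 hc1 hA1 hA2
  · apply false_of_caseB hn H
    intro v hv
    obtain ⟨φ₁, hφ₁, ω₁, hω₁⟩ := hmv v hv
    rcases SLDich.dich hn hcard hv φ₁ hφ₁ ω₁ hω₁ with h | h
    · exact absurd ⟨v, hv, h⟩ hcase
    · obtain ⟨w, hw, hw2⟩ := h ω₀
      refine ⟨w, hw, fun φ hφ => ?_⟩
      rw [← hst]
      exact hw2 φ hφ

end H41.SLMin
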