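import Cfsg.Agent.Lib.H41.SpA
import Cfsg.Agent.Lib.H41.SLCaseB

/-! Symplectic groups over the field with two elements: transvections, and the end of the minimal index argument. -/

set_option autoImplicit false

namespace H41.SpTwo

open Module H41.SpA

variable {F V : Type*} [Field F] [AddCommGroup V] [Module F V] {B : LinearMap.BilinForm F V}

theorem cases2 (hF : Nat.card F = 2) (c : F) : c = 0 ∨ c = 1 := by
  classical
  have hfin : Finite F := Nat.finite_of_card_ne_zero (by omega)
  have : Fintype F := Fintype.ofFinite F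
  by_contra hc
  push Not at hc
  have h3 : ({0, 1, c} : Finset F).card = 3 := by
    rw [Finset.card_insert_of_notMem, Finset.card_insert_of_notMem, Finset.card_singleton]
    · rw [Finset.mem_singleton]; exact hc.2.symm
    · rw [Finset.mem_insert, Finset.mem_singleton, not_or]; exact ⟨zero_ne_one, hc.1.symm⟩
  have h4 : ({0, 1, c} : Finset F).card ≤ Fintype.card F := Finset.card_le_univ _
  rw [h3, ← Nat.card_eq_fintype_card, hF] at h4
  omega

theorem one_add_one (hF : Nat.card F = 2) : (1 : F) + 1 = 0 := by
  rcases cases2 hF (1 + 1) with h | h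
  · exact h
  · exfalso
    have : (1 : F) = 0 := by linear_combination h
    exact one_ne_zero this

theorem two_eq_zero (hF : Nat.card F = 2) : (2 : F) = 0 := by
  rw [← one_add_one_eq_two, one_add_one hF]

theorem add_self_F (hF : Nat.card F = 2) (c : F) : c + c = 0 := by
  have := two_eq_zero hF
  linear_combination c * this

theorem add_self_V (hF : Nat.card F = 2) (x : V) : x + x = 0 := by
  have : x + x = (1 + 1 : F) • x := by module
  rw [this, one_add_one hF, zero_smul]

theorem neg_F (hF : Nat.card F = 2) (c : F) : -c = c := by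
  rw [neg_eq_iff_add_eq_zero, add_self_F hF]

theorem neg_V (hF : Nat.card F = 2) (x : V) : -x = x := by
  rw [neg_eq_iff_add_eq_zero, add_self_V hF]

theorem comm2 (hB : Good B) (hF : Nat.card F = 2) (x y : V) : B x y = B y x := by
  rw [hB.swap', neg_F hF]

/-- transvections -/
noncomputable def t (B : LinearMap.BilinForm F V) (v : V) : Sp B := e B v 0 1

theorem t_smul (hB : Good B) (v x : V) : t B v • x = x + B x v • v := by
  rw [t, e_smul hB (by rw [map_zero, LinearMap.zero_apply])]
  simp

theorem t_zero (hB : Good B) : t B 0 = 1 := by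
  apply ext_smul
  intro x
  rw [t_smul hB, one_smul, map_zero, zero_smul, add_zero]

theorem conj_t (hB : Good B) (g : Sp B) (v : V) : g * t B v * g⁻¹ = t B (g • v) := by
  rw [t, conj_e hB g (by rw [map_zero, LinearMap.zero_apply]), smul_zero, t]

theorem t_mul_self (hB : Good B) (hF : Nat.card F = 2) (v : V) : t B v * t B v = 1 := by
  apply ext_smul
  intro x
  rw [mul_smul, t_smul hB, t_smul hB, map_add, map_smul, LinearMap.add_apply, LinearMap.smul_apply, hB.alt,
    smul_zero, add_zero, one_smul, add_assoc, add_self_V hF, add_zero]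

theorem e_one (hB : Good B) {v w : V} (hw : B w v = 0) : e B v w 1 = e B v w 0 * t B v := by
  rw [t, e_mul hB hw (by rw [map_zero, LinearMap.zero_apply]), add_zero, zero_add, map_zero, LinearMap.zero_apply,
    add_zero]

theorem e_zero_eq (hB : Good B) (hF : Nat.card F = 2) {v w : V} (hw : B w v = 0) :
    e B v w 0 = t B v * t B w * t B (v + w) := by
  apply ext_smul
  intro x
  have hw' : B v w = 0 := hB.symm0 hw
  rw [e_smul hB hw, mul_smul (t B v * t B w), mul_smul (t B v), t_smul hB, t_smul hB, t_smul hB]
  simp only [map_add, map_smul, LinearMap.add_apply, LinearMap.smul_apply, smul_eq_mul, hw, hw', hB.alt]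
  have h2 := two_eq_zero hF
  have e1 : x + (B x v + B x w) • (v + w) + (B x w + (B x v + B x w) * (0 + 0)) • w +
      (B x v + (B x v + B x w) * (0 + 0) + (B x w + (B x v + B x w) * (0 + 0)) * 0) • v
      = x + B x v • w + B x w • v + (0 * B x v) • v + (2 : F) • (B x v • v + B x w • w) := by module
  rw [e1, h2, zero_smul, add_zero]

theorem t_comm (hB : Good B) {v w : V} (hw : B w v = 0) : t B v * t B w = t B w * t B v := by
  have h := conj_t hB (t B v) w
  rw [t_smul hB, hw, zero_smul, add_zero, mul_inv_eq_iff_eq_mul] at h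
  exact h

theorem e_zero_symm (hB : Good B) (hF : Nat.card F = 2) {v w : V} (hw : B w v = 0) : e B v w 0 = e B w v 0 := by
  rw [e_zero_eq hB hF hw, e_zero_eq hB hF (hB.symm0 hw), t_comm hB hw, add_comm]

theorem t_inv (hB : Good B) (hF : Nat.card F = 2) (v : V) : (t B v)⁻¹ = t B v :=
  inv_eq_of_mul_eq_one_left (t_mul_self hB hF v)

/-- nondegeneracy: separating a vector from a subspace -/
theorem exists_form_sep (hB : Good B) {W : Submodule F V} {x : V} (hx : x ∉ W) :
    ∃ d : V, B d x = 1 ∧ ∀ w ∈ W, B d w = 0 := by
  have := hB.fin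
  obtain ⟨φ, hφ1, hφ2⟩ := SLCaseB.exists_sep hx
  have hinj : Function.Injective B := by
    rw [← LinearMap.ker_eq_bot, LinearMap.ker_eq_bot']
    intro d hd
    apply hB.nd
    intro y
    rw [hd, LinearMap.zero_apply]
  have hsurj : Function.Surjective B :=
    (LinearMap.injective_iff_surjective_of_finrank_eq_finrank (Subspace.dual_finrank_eq).symm).mp hinj
  obtain ⟨d, hd⟩ := hsurj φ
  refine ⟨(φ x)⁻¹ • d, ?_, ?_⟩
  · rw [map_smul, LinearMap.smul_apply, hd, smul_eq_mul, inv_mul_cancel₀ hφ1]
  · intro w hw
    rw [map_smul, LinearMap.smul_apply, hd, hφ2 w hw, smul_zero]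

theorem exists_perp2 [FiniteDimensional F V] (B : LinearMap.BilinForm F V) (a b : V) {W : Submodule F V}
    (h : finrank F W + 2 < finrank F V) : ∃ x, B x a = 0 ∧ B x b = 0 ∧ x ∉ W := by
  let f : V →ₗ[F] F × F := (B.flip a).prod (B.flip b)
  have h1 := LinearMap.finrank_range_add_finrank_ker f
  have h2 : finrank F (LinearMap.range f) ≤ 2 := by
    have := Submodule.finrank_le (LinearMap.range f)
    rw [Module.finrank_prod, Module.finrank_self] at this
    exact this
  have h3 : ∃ x ∈ LinearMap.ker f, x ∉ W := by
    by_contra hc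
    push Not at hc
    have := Submodule.finrank_mono hc
    omega
  obtain ⟨x, hx, hxW⟩ := h3
  rw [LinearMap.mem_ker] at hx
  exact ⟨x, congrArg Prod.fst hx, congrArg Prod.snd hx, hxW⟩

theorem t_all (hB : Good B) (hF : Nat.card F = 2) (hn : 6 ≤ finrank F V) (H : Subgroup (Sp B))
    (hstar : ∀ v : V, v ≠ 0 → ∀ w : V, B w v = 0 → ∃ c : F, e B v w c ∈ H) : ∀ v : V, t B v ∈ H := by
  have hfin := hB.fin
  have h11 : (1 : F) + 1 = 0 := one_add_one hF
  by_cases hT : ∃ w : V, w ≠ 0 ∧ t B w ∈ H
  · obtain ⟨w, hw0, hwH⟩ := hT
    -- the set of centres is closed under addition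
    have hadd : ∀ x y : V, t B x ∈ H → t B y ∈ H → t B (x + y) ∈ H := by
      intro x y hx hy
      by_cases hx0 : x = 0
      · rw [hx0, zero_add]; exact hy
      rcases cases2 hF (B y x) with h | h
      · obtain ⟨c, hc⟩ := hstar x hx0 y h
        have h1 : e B x y 0 ∈ H := by
          rcases cases2 hF c with h' | h'
          · rw [h'] at hc; exact hc
          · rw [h', e_one hB h] at hc
            have := H.mul_mem hc hx
            rwa [mul_assoc, t_mul_self hB hF, mul_one] at this
        rw [e_zero_eq hB hF h] at h1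
        have h2 := H.mul_mem (H.inv_mem (H.mul_mem hx hy)) h1
        rwa [inv_mul_cancel_left] at h2
      · have h1 := conj_t hB (t B x) y
        rw [t_smul hB, h, one_smul] at h1
        rw [add_comm, ← h1]
        exact H.mul_mem (H.mul_mem hx hy) (H.inv_mem hx)
    have hmap : ∀ g ∈ H, ∀ x : V, t B x ∈ H → t B (g • x) ∈ H := by
      intro g hg x hx
      rw [← conj_t hB]
      exact H.mul_mem (H.mul_mem hg hx) (H.inv_mem hg)
    by_contra hcon
    push Not at hcon
    obtain ⟨v₀, hv₀⟩ := hcon
    obtain ⟨v, hv, hvw⟩ : ∃ v : V, t B v ∉ H ∧ B w v = 1 := by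
      rcases cases2 hF (B w v₀) with h | h
      · obtain ⟨y, hy, -⟩ := exists_form_sep hB (W := (⊥ : Submodule F V)) (x := w) (by simpa using hw0)
        rw [comm2 hB hF] at hy
        by_cases hyH : t B y ∈ H
        · refine ⟨v₀ + y, ?_, by rw [map_add, h, hy, zero_add]⟩
          intro h1
          apply hv₀
          have h2 := hadd _ _ h1 hyH
          rwa [add_assoc, add_self_V hF, add_zero] at h2
        · exact ⟨y, hyH, hy⟩
      · exact ⟨v₀, hv₀, h⟩
    have hv0 : v ≠ 0 := by
      rintro rfl
      exact hv (by rw [t_zero hB]; exact H.one_mem)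
    have key : ∀ (y : V) (c : F), B y v = 0 → e B v y c ∈ H → t B (y + (B w y + c) • v) ∈ H := by
      intro y c hy hc
      have h1 := hmap _ hc w hwH
      rw [e_smul hB hy, hvw, one_smul, mul_one] at h1
      have h2 := hadd _ _ hwH h1
      have h3 : w + (w + y + B w y • v + c • v) = y + (B w y + c) • v := by
        rw [add_smul]
        have : w + (w + y + B w y • v + c • v) = (w + w) + (y + (B w y • v + c • v)) := by abel
        rw [this, add_self_V hF, zero_add]
      rwa [h3] at h2
    -- two vectors of v^⊥ with product 1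
    obtain ⟨y, hyv, -, hyW⟩ := exists_perp2 B v v (W := Submodule.span F {v}) (by
      rw [finrank_span_singleton hv0]; omega)
    obtain ⟨y', hy'1, hy'2⟩ := exists_form_sep hB hyW
    have hy'v : B y' v = 0 := hy'2 v (Submodule.mem_span_singleton_self v)
    obtain ⟨c, hc⟩ := hstar v hv0 y hyv
    obtain ⟨c', hc'⟩ := hstar v hv0 y' hy'v
    have h1 := H.mul_mem hc hc'
    rw [e_mul hB hyv hy'v, hy'1] at h1
    have k1 := key y c hyv hc
    have k2 := key y' c' hy'v hc'
    have k3 := key _ _ (by rw [map_add, LinearMap.add_apply, hyv, hy'v, add_zero]) h1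
    apply hv
    have k4 := hadd _ _ (hadd _ _ k1 k2) k3
    have h5 : y + (B w y + c) • v + (y' + (B w y' + c') • v) + (y + y' + (B w (y + y') + (c + c' + 1)) • v)
        = v + (2 : F) • (y + y' + (B w y + B w y' + c + c') • v) := by
      rw [map_add]
      module
    rwa [h5, two_eq_zero hF, zero_smul, add_zero] at k4
  · exfalso
    push Not at hT
    -- choose a, b, c, d
    have : Nontrivial V := Module.nontrivial_of_finrank_pos (R := F) (by omega)
    obtain ⟨a, ha⟩ := exists_ne (0 : V)
    obtain ⟨b, hba, -, hbW⟩ := exists_perp2 B a a (W := Submodule.span F {a}) (by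
      rw [finrank_span_singleton ha]; omega)
    have hfab : finrank F (Submodule.span F ({a, b} : Set V)) ≤ 2 := by
      classical
      have := finrank_span_finset_le_card (R := F) ({a, b} : Finset V)
      rw [Finset.coe_pair] at this
      exact this.trans Finset.card_le_two
    obtain ⟨c, hca, hcb, hcW⟩ := exists_perp2 B a b (W := Submodule.span F {a, b}) (by omega)
    obtain ⟨d, hdc, hdW⟩ := exists_form_sep hB hcW
    have hda : B d a = 0 := hdW a (Submodule.subset_span (by simp))
    have hdb : B d b = 0 := hdW b (Submodule.subset_span (by simp))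
    have hb : b ≠ 0 := fun h => hbW (by rw [h]; exact Submodule.zero_mem _)
    have hc : c ≠ 0 := fun h => hcW (by rw [h]; exact Submodule.zero_mem _)
    have hd : d ≠ 0 := by
      rintro rfl
      rw [map_zero, LinearMap.zero_apply] at hdc
      exact zero_ne_one hdc
    have hab : a + b ≠ 0 := by
      intro h
      apply hbW
      have : b = -a := by rw [eq_neg_iff_add_eq_zero, add_comm]; exact h
      rw [this]
      exact Submodule.neg_mem _ (Submodule.mem_span_singleton_self a)
    have hcd : c + d ≠ 0 := by
      intro h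
      have h1 : B (c + d) c = 0 := by rw [h, map_zero, LinearMap.zero_apply]
      rw [map_add, LinearMap.add_apply, hB.alt, hdc, zero_add] at h1
      exact one_ne_zero h1
    choose! κ hκ using hstar
    -- properties of κ
    have huniq : ∀ v : V, v ≠ 0 → ∀ w : V, B w v = 0 → ∀ r : F, e B v w r ∈ H → κ v w = r := by
      intro v hv w hw r hr
      have h1 := hκ v hv w hw
      by_contra hne
      have h2 : e B v w 0 ∈ H ∧ e B v w 1 ∈ H := by
        rcases cases2 hF (κ v w) with h | h <;> rcases cases2 hF r with h' | h'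
        · exact absurd (h.trans h'.symm) hne
        · rw [h] at h1; rw [h'] at hr; exact ⟨h1, hr⟩
        · rw [h] at h1; rw [h'] at hr; exact ⟨hr, h1⟩
        · exact absurd (h.trans h'.symm) hne
      apply hT v hv
      have h3 := H.mul_mem (H.inv_mem h2.1) h2.2
      rwa [e_one hB hw, inv_mul_cancel_left] at h3
    have hκadd : ∀ v : V, v ≠ 0 → ∀ w w' : V, B w v = 0 → B w' v = 0 → κ v (w + w') = κ v w + κ v w' + B w' w := by
      intro v hv w w' hw hw'
      apply huniq v hv _ (by rw [map_add, LinearMap.add_apply, hw, hw', add_zero])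
      rw [← e_mul hB hw hw']
      exact H.mul_mem (hκ v hv w hw) (hκ v hv w' hw')
    have hκsymm : ∀ v w : V, v ≠ 0 → w ≠ 0 → B w v = 0 → κ v w = κ w v := by
      intro v w hv hw hvw
      have hwv := hB.symm0 hvw
      rcases cases2 hF (κ v w) with h | h
      · rw [h]
        symm
        apply huniq w hw v hwv
        rw [← e_zero_symm hB hF hvw]
        have := hκ v hv w hvw
        rwa [h] at this
      · rcases cases2 hF (κ w v) with h' | h'
        · exfalso
          have h1 := hκ w hw v hwv
          rw [h', ← e_zero_symm hB hF hvw] at h1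
          have h2 := huniq v hv w hvw 0 h1
          rw [h] at h2
          exact one_ne_zero h2
        · rw [h, h']
    have hac := hB.symm0 hca
    have hbc := hB.symm0 hcb
    have had := hB.symm0 hda
    have hbd := hB.symm0 hdb
    have hab0 := hB.symm0 hba
    have E1 := hκadd a ha c d hca hda
    have E2 := hκadd b hb c d hcb hdb
    have E3 := hκadd (a + b) hab c d (by rw [map_add, hca, hcb, add_zero]) (by rw [map_add, hda, hdb, add_zero])
    have E4 := hκadd c hc a b hac hbc
    have E5 := hκadd d hd a b had hbd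
    have E6 := hκadd (c + d) hcd a b (by rw [map_add, hac, had, add_zero]) (by rw [map_add, hbc, hbd, add_zero])
    rw [hdc] at E1 E2 E3
    rw [hba] at E4 E5 E6
    rw [hκsymm c (a + b) hc hab (by rw [map_add, LinearMap.add_apply, hac, hbc, add_zero]),
      hκsymm c a hc ha hac, hκsymm c b hc hb hbc] at E4
    rw [hκsymm d (a + b) hd hab (by rw [map_add, LinearMap.add_apply, had, hbd, add_zero]),
      hκsymm d a hd ha had, hκsymm d b hd hb hbd] at E5
    rw [hκsymm (c + d) (a + b) hcd hab (by
        simp only [map_add, LinearMap.add_apply, hac, hbc, had, hbd, add_zero]),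
      hκsymm (c + d) a hcd ha (by rw [map_add, hac, had, add_zero]),
      hκsymm (c + d) b hcd hb (by rw [map_add, hbc, hbd, add_zero])] at E6
    apply one_ne_zero (α := F)
    linear_combination - E6 - E1 - E2 + E3 + E4 + E5

end H41.SpTwo
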