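import Cfsg.Agent.Lib.H41.SpTwo
import Cfsg.Agent.Lib.H41.OrbChar
import Cfsg.Agent.Lib.H41.SLCount

/-! The radical of a point stabiliser in `Sp_2m(2)` as a vector space acting on a set; characters. -/

set_option autoImplicit false

namespace H41.SpTwoA

open Module H41.SpA H41.SpTwo AddAction

variable {F V : Type*} [Field F] [AddCommGroup V] [Module F V] {B : LinearMap.BilinForm F V}

/-- a quadratic form (as a function) with a given alternating polarization in characteristic two -/
theorem exists_quad [FiniteDimensional F V] (halt : ∀ x, B x x = 0) (hsymm : ∀ x y, B x y = B y x) :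
    ∃ κ : V → F, ∀ x y, κ (x + y) = κ x + κ y + B x y := by
  classical
  let b := Module.finBasis F V
  let β : LinearMap.BilinForm F V := Matrix.toBilin b (Matrix.of fun i j => if i < j then B (b i) (b j) else 0)
  have hβ : ∀ i j, β (b i) (b j) = if i < j then B (b i) (b j) else 0 := by
    intro i j
    have : LinearMap.BilinForm.toMatrix b β i j = if i < j then B (b i) (b j) else 0 := by
      rw [LinearMap.BilinForm.toMatrix_toBilin]; rfl
    rw [← this, LinearMap.BilinForm.toMatrix_apply]
  have key : ∀ x y, β x y + β y x = B x y := by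
    have h1 : β + LinearMap.BilinForm.flip β = B := by
      apply LinearMap.BilinForm.ext_basis b
      intro i j
      change β (b i) (b j) + β (b j) (b i) = B (b i) (b j)
      rw [hβ, hβ]
      rcases lt_trichotomy i j with h | h | h
      · rw [if_pos h, if_neg (not_lt.mpr h.le), add_zero]
      · subst h; rw [if_neg (lt_irrefl _), halt, add_zero]
      · rw [if_neg (not_lt.mpr h.le), if_pos h, zero_add, hsymm]
    intro x y
    rw [← h1]; rfl
  refine ⟨fun x => β x x, fun x y => ?_⟩
  simp only [map_add, LinearMap.add_apply]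
  rw [← key x y]; ring

/-- vectors orthogonal to `v` and `v'` -/
def W (B : LinearMap.BilinForm F V) (v v' : V) : Submodule F V := LinearMap.ker (B.flip v) ⊓ LinearMap.ker (B.flip v')

theorem mem_W {v v' x : V} : x ∈ W B v v' ↔ B x v = 0 ∧ B x v' = 0 := Iff.rfl

theorem finrank_W (hB : Good B) {v v' : V} (hv : B v' v = 1) : finrank F (W B v v') + 2 = finrank F V := by
  have := hB.fin
  let f : V →ₗ[F] F × F := (B.flip v).prod (B.flip v')
  have h1 := LinearMap.finrank_range_add_finrank_ker f
  have hk : LinearMap.ker f = W B v v' := by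
    rw [LinearMap.ker_prod]; rfl
  have hr : LinearMap.range f = ⊤ := by
    rw [LinearMap.range_eq_top]
    rintro ⟨p, q⟩
    refine ⟨p • v' - q • v, ?_⟩
    have hv' : B v v' = -1 := by rw [hB.swap', hv]
    change ((B (p • v' - q • v)) v, (B (p • v' - q • v)) v') = (p, q)
    simp only [map_sub, map_smul, LinearMap.sub_apply, LinearMap.smul_apply, hv, hv', hB.alt, smul_eq_mul]
    ext <;> simp
  rw [hk, hr, finrank_top, Module.finrank_prod, Module.finrank_self] at h1
  omega

theorem decomp (hB : Good B) {v v' : V} (hv : B v' v = 1) (x : V) :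
    x - B x v • v' + B x v' • v ∈ W B v v' := by
  have hv' : B v v' = -1 := by rw [hB.swap', hv]
  rw [mem_W]
  simp only [map_sub, map_add, map_smul, LinearMap.sub_apply, LinearMap.add_apply, LinearMap.smul_apply, hv, hv',
    hB.alt, smul_eq_mul]
  constructor <;> ring

theorem W_nondeg (hB : Good B) {v v' : V} (hv : B v' v = 1) {u : V} (hu : u ∈ W B v v')
    (h : ∀ w ∈ W B v v', B u w = 0) : u = 0 := by
  apply hB.nd
  intro x
  have h1 := h _ (decomp hB hv x)
  rw [mem_W] at hu
  simp only [map_sub, map_add, map_smul, hu.1, hu.2, smul_zero, add_zero, sub_zero] at h1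
  exact h1

variable {Ω : Type*} [MulAction (Sp B) Ω]

/-- the radical acting -/
@[reducible] noncomputable def act (hB : Good B) (hF : Nat.card F = 2) (v v' : V) (κ : V → F)
    (hκ : ∀ x y, κ (x + y) = κ x + κ y + B x y) (Ω : Type*) [MulAction (Sp B) Ω] :
    AddAction (W B v v' × F) Ω where
  vadd a ω := e B v a.1.1 (a.2 + κ a.1.1) • ω
  zero_vadd ω := by
    change e B v (0 : V) ((0 : F) + κ 0) • ω = ω
    have h0 : κ 0 = 0 := by
      have := hκ 0 0
      simp only [map_zero, add_zero, add_self_F hF] at this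
      exact this
    rw [h0, add_zero, e_zero hB, one_smul]
  add_vadd a b ω := by
    change e B v (a.1.1 + b.1.1) (a.2 + b.2 + κ (a.1.1 + b.1.1)) • ω
      = e B v a.1.1 (a.2 + κ a.1.1) • e B v b.1.1 (b.2 + κ b.1.1) • ω
    rw [← mul_smul, e_mul hB a.1.2.1 b.1.2.1, hκ, comm2 hB hF a.1.1 b.1.1]
    congr 2
    ring

/-- Gauss sums of quadratic characters -/
theorem gauss {X : Type*} [AddCommGroup X] [Fintype X] (k : X → ℤ) (b : X → X → ℤ) (hk : ∀ x, k x * k x = 1)
    (hadd : ∀ x y, k (x + y) = k x * k y * b x y) (h0 : ∀ x, b x 0 = 1) (hs : ∀ y, y ≠ 0 → ∑ x, b x y = 0) :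
    (∑ x, k x) * (∑ x, k x) = Fintype.card X := by
  classical
  have hk0 : k 0 = 1 := by
    have h1 := hadd 0 0
    rw [h0, add_zero, hk, one_mul] at h1
    exact h1
  rw [Finset.sum_mul_sum]
  have h1 : ∀ x : X, ∑ y : X, k x * k y = ∑ y : X, k y * b x y := by
    intro x
    rw [← Equiv.sum_comp (Equiv.addLeft x)]
    apply Finset.sum_congr rfl
    intro y _
    rw [Equiv.coe_addLeft, hadd]
    linear_combination (k y * b x y) * hk x
  rw [Finset.sum_congr rfl (fun x _ => h1 x), Finset.sum_comm]
  have h2 : ∀ y : X, ∑ x : X, k y * b x y = if y = 0 then (Fintype.card X : ℤ) else 0 := by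
    intro y
    rw [← Finset.mul_sum]
    by_cases hy : y = 0
    · rw [if_pos hy, hy, hk0, one_mul, Finset.sum_congr rfl (fun x _ => h0 x), Finset.sum_const, Finset.card_univ]
      simp
    · rw [if_neg hy, hs y hy, mul_zero]
  rw [Finset.sum_congr rfl (fun y _ => h2 y), Finset.sum_ite_eq', if_pos (Finset.mem_univ _)]

/-- the number of zeros of a quadratic function of `2n` variables over the field with two elements -/
theorem card_one {X : Type*} [AddCommGroup X] [Fintype X] (k : X → ℤ) (b : X → X → ℤ) (hk : ∀ x, k x * k x = 1)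
    (hadd : ∀ x y, k (x + y) = k x * k y * b x y) (h0 : ∀ x, b x 0 = 1) (hs : ∀ y, y ≠ 0 → ∑ x, b x y = 0)
    {n : ℕ} (hn : Fintype.card X = 2 ^ (2 * n)) [DecidablePred fun x => k x = 1] :
    2 ^ (2 * n) ≤ 2 * (Finset.univ.filter (fun x => k x = 1)).card + 2 ^ n := by
  have h1 := gauss k b hk hadd h0 hs
  have hk1 : ∀ x, k x = 1 ∨ k x = -1 := fun x => mul_self_eq_one_iff.mp (hk x)
  have h2 : ∑ x, k x = 2 * ((Finset.univ.filter (fun x => k x = 1)).card : ℤ) - Fintype.card X := by
    have h3 : ∀ x, k x = 2 * (if k x = 1 then 1 else 0) - 1 := by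
      intro x
      rcases hk1 x with h | h
      · rw [if_pos h, h]; norm_num
      · rw [if_neg (by rw [h]; norm_num), h]; norm_num
    rw [Finset.sum_congr rfl (fun x _ => h3 x), Finset.sum_sub_distrib, ← Finset.mul_sum, Finset.sum_const,
      Finset.card_univ, Finset.card_filter]
    push_cast
    simp
  have h4 : (∑ x, k x) = 2 ^ n ∨ (∑ x, k x) = - 2 ^ n := by
    apply mul_self_eq_mul_self_iff.mp
    rw [h1, hn]
    push_cast
    rw [two_mul, pow_add]
  rw [h2, hn] at h4
  push_cast at h4
  have hpos : (0 : ℤ) ≤ 2 ^ n := by positivity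
  zify
  rcases h4 with h | h <;> linarith

end H41.SpTwoA
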