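import Cfsg.Agent.Lib.H41.SpTwoA

/-! The counting argument for the action of the radical of a point stabiliser of `Sp_2m(2)`, in abstract form. -/

set_option autoImplicit false

namespace H41.SpTwoCount

open Module H41.SpA H41.SpTwo H41.SpTwoA H41.OrbChar AddAction

variable {F W : Type*} [Field F] [AddCommGroup W] [Module F W] (b : LinearMap.BilinForm F W)

/-- conjugation by a transvection -/
def al (κ : W → F) (y : W) (a : W × F) : W × F := (a.1 + b a.1 y • y, a.2 + κ a.1 + κ (a.1 + b a.1 y • y))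

/-- the linear characters attached to vectors -/
noncomputable def chi (ψ : AddChar F ℂ) (u : W) : AddChar (W × F) ℂ :=
  ψ.compAddMonoidHom ((b u).toAddMonoidHom.comp (AddMonoidHom.fst _ _))

variable {b} {ψ : AddChar F ℂ}

theorem chi_apply (u : W) (a : W × F) : chi b ψ u a = ψ (b u a.1) := rfl

theorem chi_add (u u' : W) : chi b ψ (u + u') = chi b ψ u + chi b ψ u' := by
  ext a
  rw [AddChar.add_apply, chi_apply, chi_apply, chi_apply, map_add, LinearMap.add_apply, AddChar.map_add_eq_mul]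

theorem chi_zero : chi b ψ (0 : W) = 0 := by
  ext a
  rw [chi_apply, map_zero, LinearMap.zero_apply, AddChar.map_zero_eq_one]
  rfl

theorem chi_neg (u : W) : chi b ψ (-u) = - chi b ψ u := by
  rw [eq_neg_iff_add_eq_zero, ← chi_add, neg_add_cancel, chi_zero]

theorem psi_eq_one_iff (hF : Nat.card F = 2) (hψ : ψ 1 ≠ 1) (c : F) : ψ c = 1 ↔ c = 0 := by
  constructor
  · intro h
    rcases cases2 hF c with h' | h'
    · exact h'
    · rw [h'] at h; exact absurd h hψ
  · rintro rfl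
    exact AddChar.map_zero_eq_one ψ

theorem sq_one (hF : Nat.card F = 2) (χ : AddChar (W × F) ℂ) (a : W × F) : χ a * χ a = 1 := by
  rw [← AddChar.map_add_eq_mul]
  have : a + a = 0 := by
    ext
    · exact add_self_V hF a.1
    · exact add_self_F hF a.2
  rw [this, AddChar.map_zero_eq_one]

theorem pm_one (hF : Nat.card F = 2) (χ : AddChar (W × F) ℂ) (a : W × F) : χ a = 1 ∨ χ a = -1 :=
  mul_self_eq_one_iff.mp (sq_one hF χ a)

theorem chi_inj (hb : Good b) (hF : Nat.card F = 2) (hψ : ψ 1 ≠ 1) {u u' : W} (h : chi b ψ u = chi b ψ u') : u = u' := by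
  rw [← sub_eq_zero]
  apply hb.nd
  intro w
  have h1 : chi b ψ (u - u') (w, 0) = 1 := by
    rw [sub_eq_add_neg, chi_add, chi_neg, h, add_neg_cancel]
    rfl
  exact (psi_eq_one_iff hF hψ _).mp h1

/-- characters trivial on the centre come from vectors -/
theorem exists_chi [Finite F] (hb : Good b) (hF : Nat.card F = 2) (hψ : ψ 1 ≠ 1) (χ : AddChar (W × F) ℂ)
    (h : χ (0, 1) = 1) : ∃ u : W, χ = chi b ψ u := by
  have hfd := hb.fin
  obtain ⟨l, hl⟩ := SLCount.exists_linear ψ (by rintro rfl; exact hψ rfl)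
    (χ.compAddMonoidHom (AddMonoidHom.inl W F))
  have hinj : Function.Injective b := by
    rw [← LinearMap.ker_eq_bot, LinearMap.ker_eq_bot']
    intro d hd
    apply hb.nd
    intro y
    rw [hd, LinearMap.zero_apply]
  have hsurj : Function.Surjective b :=
    (LinearMap.injective_iff_surjective_of_finrank_eq_finrank (Subspace.dual_finrank_eq).symm).mp hinj
  obtain ⟨u, hu⟩ := hsurj l
  refine ⟨u, ?_⟩
  ext ⟨w, c⟩
  have h1 : ((w, c) : W × F) = (w, 0) + (0, c) := by simp
  rw [h1, AddChar.map_add_eq_mul]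
  have h2 : χ (0, c) = 1 := by
    rcases cases2 hF c with h' | h'
    · rw [h']; exact AddChar.map_zero_eq_one χ
    · rw [h']; exact h
  have h3 : χ (w, 0) = ψ (b u w) := by
    rw [hu]; exact hl w
  rw [h2, h3, mul_one, chi_apply]
  simp

variable {κ : W → F} {Ω : Type*} [AddAction (W × F) Ω]

theorem al_al (hb : Good b) (hF : Nat.card F = 2) (y : W) (a : W × F) : al b κ y (al b κ y a) = a := by
  have e1 : a.1 + b a.1 y • y + b (a.1 + b a.1 y • y) y • y = a.1 := by
    rw [map_add, map_smul, LinearMap.add_apply, LinearMap.smul_apply, hb.alt, smul_zero, add_zero, add_assoc,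
      add_self_V hF, add_zero]
  ext
  · exact e1
  · change a.2 + κ a.1 + κ (a.1 + b a.1 y • y) + κ (a.1 + b a.1 y • y)
      + κ (a.1 + b a.1 y • y + b (a.1 + b a.1 y • y) y • y) = a.2
    rw [e1]
    have h2 := two_eq_zero hF
    linear_combination (κ a.1 + κ (a.1 + b a.1 y • y)) * h2

/-- as a permutation -/
def alE (hb : Good b) (hF : Nat.card F = 2) (κ : W → F) (y : W) : W × F ≃ W × F where
  toFun := al b κ y
  invFun := al b κ y
  left_inv := al_al hb hF y
  right_inv := al_al hb hF y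

theorem fix_iff {τ : W → Ω ≃ Ω} (hτ : ∀ (y : W) (a : W × F) (ω : Ω), τ y (a +ᵥ ω) = al b κ y a +ᵥ τ y ω) (y : W)
    (a : W × F) (ω : Ω) : al b κ y a +ᵥ τ y ω = τ y ω ↔ a +ᵥ ω = ω := by
  rw [← hτ, (τ y).apply_eq_iff_eq]

theorem fix_card {τ : W → Ω ≃ Ω} (hτ : ∀ (y : W) (a : W × F) (ω : Ω), τ y (a +ᵥ ω) = al b κ y a +ᵥ τ y ω) (y : W)
    (a : W × F) : Nat.card {ω : Ω // al b κ y a +ᵥ ω = ω} = Nat.card {ω : Ω // a +ᵥ ω = ω} := by
  symm
  apply Nat.card_congr
  refine (τ y).subtypeEquiv ?_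
  intro ω
  exact (fix_iff hτ y a ω).symm

theorem b_al (hb : Good b) (hF : Nat.card F = 2) (u y w : W) : b u (w + b w y • y) = b (u + b u y • y) w := by
  rw [map_add, map_smul, map_add, map_smul, LinearMap.add_apply, LinearMap.smul_apply, smul_eq_mul, smul_eq_mul,
    comm2 hb hF w y]
  ring

theorem chi_al (hb : Good b) (hF : Nat.card F = 2) (u y : W) (a : W × F) :
    chi b ψ (u + b u y • y) a = chi b ψ u (al b κ y a) := by
  rw [chi_apply, chi_apply, ← b_al hb hF]
  rfl

theorem mult_chi [Finite F] [Finite Ω] (hb : Good b) (hF : Nat.card F = 2) {τ : W → Ω ≃ Ω}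
    (hτ : ∀ (y : W) (a : W × F) (ω : Ω), τ y (a +ᵥ ω) = al b κ y a +ᵥ τ y ω) (u y : W) :
    mult Ω (chi b ψ (u + b u y • y)) = mult Ω (chi b ψ u) := by
  have := hb.fin
  have : Finite W := Module.finite_of_finite F
  exact mult_congr (chi b ψ u) _ (alE hb hF κ y) (fix_card hτ y) (chi_al hb hF u y)

theorem exists_b_one (hb : Good b) {x : W} (hx : x ≠ 0) : ∃ y, b y x = 1 := by
  obtain ⟨y, hy, -⟩ := exists_form_sep hb (W := (⊥ : Submodule F W)) (x := x) (by simpa using hx)
  exact ⟨y, hy⟩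

/-- all vector characters have the same multiplicity -/
theorem mult_const [Finite F] [Finite Ω] (hb : Good b) (hF : Nat.card F = 2) {τ : W → Ω ≃ Ω}
    (hτ : ∀ (y : W) (a : W × F) (ω : Ω), τ y (a +ᵥ ω) = al b κ y a +ᵥ τ y ω) {u u' : W} (hu : u ≠ 0) (hu' : u' ≠ 0) :
    mult Ω (chi b ψ u) = mult Ω (chi b ψ u') := by
  -- adjacent vectors
  have hadj : ∀ x y : W, b x y = 1 → mult Ω (chi b ψ x) = mult Ω (chi b ψ y) := by
    intro x y hxy
    have h1 := mult_chi (ψ := ψ) hb hF hτ x (x + y)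
    rw [map_add, hb.alt, hxy, zero_add, one_smul, ← add_assoc, add_self_V hF, zero_add] at h1
    exact h1.symm
  by_cases huu : b u u' = 1
  · exact hadj u u' huu
  · have huu0 : b u u' = 0 := (cases2 hF _).resolve_right huu
    obtain ⟨z, hz1, hz2⟩ : ∃ z, b u z = 1 ∧ b u' z = 1 := by
      obtain ⟨y, hy⟩ := exists_b_one hb hu
      obtain ⟨y', hy'⟩ := exists_b_one hb hu'
      rw [comm2 hb hF] at hy hy'
      rcases cases2 hF (b u' y) with h | h
      · rcases cases2 hF (b u y') with h' | h'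
        · exact ⟨y + y', by rw [map_add, hy, h', add_zero], by rw [map_add, h, hy', zero_add]⟩
        · exact ⟨y', h', hy'⟩
      · exact ⟨y, hy, h⟩
    rw [hadj u z hz1, hadj u' z hz2]

theorem mem_transport (hb : Good b) (hF : Nat.card F = 2) {τ : W → Ω ≃ Ω}
    (hτ : ∀ (y : W) (a : W × F) (ω : Ω), τ y (a +ᵥ ω) = al b κ y a +ᵥ τ y ω) (u y : W) (ω : Ω) :
    chi b ψ u ∈ U (Quotient.mk'' (τ y ω) : orbitRel.Quotient (W × F) Ω) ↔
      chi b ψ (u + b u y • y) ∈ U (Quotient.mk'' ω : orbitRel.Quotient (W × F) Ω) := by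
  rw [mem_U_mk, mem_U_mk]
  constructor
  · intro h x hx
    rw [mem_stabilizer_iff] at hx
    rw [chi_al (κ := κ) hb hF]
    apply h
    rw [mem_stabilizer_iff, fix_iff hτ]
    exact hx
  · intro h x hx
    rw [mem_stabilizer_iff] at hx
    have h1 := h (al b κ y x) (by
      rw [mem_stabilizer_iff, ← fix_iff hτ y, al_al hb hF]
      exact hx)
    rwa [chi_al (κ := κ) hb hF, al_al hb hF] at h1

/-- vectors whose character is trivial on the stabiliser -/
def Bs (b : LinearMap.BilinForm F W) (ψ : AddChar F ℂ) (i : orbitRel.Quotient (W × F) Ω) : AddSubgroup W where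
  carrier := {u | chi b ψ u ∈ U i}
  zero_mem' := by
    change chi b ψ 0 ∈ U i
    rw [chi_zero]; exact zero_mem _
  add_mem' := by
    intro x y hx hy
    change chi b ψ (x + y) ∈ U i
    rw [chi_add]; exact add_mem hx hy
  neg_mem' := by
    intro x hx
    change chi b ψ (-x) ∈ U i
    rw [chi_neg]; exact neg_mem hx

theorem mem_Bs {i : orbitRel.Quotient (W × F) Ω} {u : W} : u ∈ Bs b ψ i ↔ chi b ψ u ∈ U i := Iff.rfl

theorem card_Bs_le [Finite F] (hb : Good b) (hF : Nat.card F = 2) (hψ : ψ 1 ≠ 1) (i : orbitRel.Quotient (W × F) Ω) :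
    Nat.card (Bs b ψ i) ≤ Nat.card (U i) := by
  have := hb.fin
  have : Finite W := Module.finite_of_finite F
  refine Nat.card_le_card_of_injective (fun u : Bs b ψ i => (⟨chi b ψ u.1, u.2⟩ : U i)) ?_
  intro x y hxy
  exact Subtype.ext (chi_inj hb hF hψ (congrArg Subtype.val hxy))

theorem card_Bs_le' [Finite F] (hb : Good b) (hF : Nat.card F = 2) (hψ : ψ 1 ≠ 1) (i : orbitRel.Quotient (W × F) Ω)
    (χ : AddChar (W × F) ℂ) (hχ : χ ∈ U i) (hχ1 : χ (0, 1) ≠ 1) :
    2 * Nat.card (Bs b ψ i) ≤ Nat.card (U i) := by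
  have := hb.fin
  have : Finite W := Module.finite_of_finite F
  have h2 : 2 * Nat.card (Bs b ψ i) = Nat.card (Bs b ψ i ⊕ Bs b ψ i) := by
    rw [Nat.card_sum]; ring
  rw [h2]
  refine Nat.card_le_card_of_injective (Sum.elim (fun u : Bs b ψ i => (⟨chi b ψ u.1, u.2⟩ : U i))
    (fun u : Bs b ψ i => (⟨χ + chi b ψ u.1, add_mem hχ u.2⟩ : U i))) ?_
  have hne : ∀ u u' : W, chi b ψ u ≠ χ + chi b ψ u' := by
    intro u u' h
    apply hχ1
    have h3 := DFunLike.congr_fun h ((0, 1) : W × F)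
    have e0 : ∀ x : W, chi b ψ x ((0, 1) : W × F) = 1 := by
      intro x
      rw [chi_apply]
      change ψ (b x 0) = 1
      rw [map_zero (b x), AddChar.map_zero_eq_one]
    rw [AddChar.add_apply, e0, e0, mul_one] at h3
    exact h3.symm
  rintro (x | x) (y | y) hxy
  · exact congrArg Sum.inl (Subtype.ext (chi_inj hb hF hψ (congrArg Subtype.val hxy)))
  · exact absurd (congrArg Subtype.val hxy) (hne _ _)
  · exact absurd (congrArg Subtype.val hxy).symm (hne _ _)
  · have h4 : χ + chi b ψ x.1 = χ + chi b ψ y.1 := congrArg Subtype.val hxy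
    exact congrArg Sum.inr (Subtype.ext (chi_inj hb hF hψ (add_left_cancel h4)))

/-- if the multiplicity is one, two different nonzero vectors in the same annihilator force everything -/
theorem Bs_eq_top [Finite F] [Finite Ω] (hb : Good b) (hF : Nat.card F = 2) {τ : W → Ω ≃ Ω}
    (hτ : ∀ (y : W) (a : W × F) (ω : Ω), τ y (a +ᵥ ω) = al b κ y a +ᵥ τ y ω)
    (h1 : ∀ u : W, u ≠ 0 → mult Ω (chi b ψ u) = 1) (i : orbitRel.Quotient (W × F) Ω) {u u' : W}
    (hu : u ∈ Bs b ψ i) (hu' : u' ∈ Bs b ψ i) (hu0 : u ≠ 0) (hu0' : u' ≠ 0) (hne : u ≠ u') : Bs b ψ i = ⊤ := by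
  have huniq : ∀ x : W, x ≠ 0 → ∀ j k : orbitRel.Quotient (W × F) Ω, x ∈ Bs b ψ j → x ∈ Bs b ψ k → j = k := by
    intro x hx j k hj hk
    have h2 : Subsingleton {i : orbitRel.Quotient (W × F) Ω // chi b ψ x ∈ U i} :=
      (Nat.card_eq_one_iff_unique.mp (h1 x hx)).1
    exact congrArg Subtype.val (Subsingleton.elim (⟨j, hj⟩ : {i : orbitRel.Quotient (W × F) Ω // chi b ψ x ∈ U i})
      ⟨k, hk⟩)
  have hstep : ∀ x x' : W, x ∈ Bs b ψ i → x' ∈ Bs b ψ i → x ≠ 0 → ∀ y, b x y = 0 → b x' y = 1 → y ∈ Bs b ψ i := by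
    intro x x' hx hx' hx0 y hxy hxy'
    obtain ⟨ω, rfl⟩ := Quotient.mk''_surjective i
    have h2 : x ∈ Bs b ψ (Quotient.mk'' (τ y ω) : orbitRel.Quotient (W × F) Ω) := by
      rw [mem_Bs, mem_transport hb hF hτ, hxy, zero_smul, add_zero]
      exact hx
    have h3 := huniq x hx0 _ _ h2 hx
    have h4 : x' + y ∈ Bs b ψ (Quotient.mk'' (τ y ω) : orbitRel.Quotient (W × F) Ω) := by
      rw [mem_Bs, mem_transport hb hF hτ, map_add, LinearMap.add_apply, hb.alt, add_zero, hxy', one_smul, add_assoc,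
        add_self_V hF, add_zero]
      exact hx'
    rw [h3] at h4
    have h5 := add_mem hx' h4
    rwa [← add_assoc, add_self_V hF, zero_add] at h5
  have hall : ∀ y, ¬ (b u y = 0 ∧ b u' y = 0) → y ∈ Bs b ψ i := by
    intro y hy
    rcases cases2 hF (b u y) with h2 | h2 <;> rcases cases2 hF (b u' y) with h3 | h3
    · exact absurd ⟨h2, h3⟩ hy
    · exact hstep u u' hu hu' hu0 y h2 h3
    · exact hstep u' u hu' hu hu0' y h3 h2
    · have h4 : u + u' ≠ 0 := by
        intro h
        apply hne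
        rw [← sub_eq_zero, sub_eq_add_neg, neg_V hF]
        exact h
      exact hstep (u + u') u (add_mem hu hu') hu h4 y (by
        rw [map_add, LinearMap.add_apply, h2, h3, one_add_one hF]) h2
  rw [eq_top_iff]
  intro y _
  by_cases hy : b u y = 0 ∧ b u' y = 0
  · obtain ⟨z, hz⟩ := exists_b_one hb hu0
    rw [comm2 hb hF] at hz
    have h2 : z ∈ Bs b ψ i := hall z (fun h => by rw [h.1] at hz; exact zero_ne_one hz)
    have h3 : z + y ∈ Bs b ψ i := hall _ (fun h => by
      rw [map_add, hz, hy.1, add_zero] at h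
      exact one_ne_zero h.1)
    have h4 := add_mem h2 h3
    rwa [← add_assoc, add_self_V hF, zero_add] at h4
  · exact hall y hy

end H41.SpTwoCount
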