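import Cfsg.Agent.Lib.H41.SpTwoCount

/-! The dichotomy for the radical of a point stabiliser of `Sp_2m(2)` acting on a small set. -/

set_option autoImplicit false

namespace H41.SpTwoDich

open Module H41.SpA H41.SpTwo H41.SpTwoA H41.OrbChar H41.SpTwoCount AddAction

variable {F W : Type*} [Field F] [AddCommGroup W] [Module F W] {b : LinearMap.BilinForm F W}
  {ψ : AddChar F ℂ} {κ : W → F} {Ω : Type*} [AddAction (W × F) Ω]

theorem exists_of_notMem {A : Type*} [AddCommGroup A] [Finite A] (S : AddSubgroup A) {x : A} (hx : x ∉ S) :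
    ∃ χ : AddChar A ℂ, (∀ y ∈ S, χ y = 1) ∧ χ x ≠ 1 := by
  obtain ⟨χ', hχ'⟩ : ∃ χ' : AddChar (A ⧸ S) ℂ, χ' (QuotientAddGroup.mk' S x) ≠ 1 := by
    rw [AddChar.exists_apply_ne_zero]
    intro h
    apply hx
    exact (QuotientAddGroup.eq_zero_iff x).mp h
  refine ⟨χ'.compAddMonoidHom (QuotientAddGroup.mk' S), ?_, hχ'⟩
  intro y hy
  change χ' (QuotientAddGroup.mk' S y) = 1
  have : QuotientAddGroup.mk' S y = 0 := (QuotientAddGroup.eq_zero_iff y).mpr hy
  rw [this, AddChar.map_zero_eq_one]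

/-- if no vector character occurs then the stabilisers cover the linear part -/
theorem right_of_zero [Finite F] [Finite Ω] (hb : Good b) (hF : Nat.card F = 2)
    (h0 : ∀ u : W, u ≠ 0 → mult Ω (chi b ψ u) = 0) (ω : Ω) (w : W) : ∃ c : F, ((w, c) : W × F) +ᵥ ω = ω := by
  by_contra hcon
  let R : Submodule F W :=
    { carrier := {w | ∃ c : F, ((w, c) : W × F) +ᵥ ω = ω}
      zero_mem' := ⟨0, zero_vadd _ _⟩
      add_mem' := by
        rintro x y ⟨c, hc⟩ ⟨d, hd⟩
        refine ⟨c + d, ?_⟩
        have : ((x + y, c + d) : W × F) = (x, c) + (y, d) := rfl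
        rw [this, add_vadd, hd, hc]
      smul_mem' := by
        rintro r x ⟨c, hc⟩
        rcases cases2 hF r with h | h
        · rw [h, zero_smul]; exact ⟨0, zero_vadd _ _⟩
        · rw [h, one_smul]; exact ⟨c, hc⟩ }
  have hw : w ∉ R := hcon
  obtain ⟨d, hd1, hd2⟩ := exists_form_sep hb hw
  have hd0 : d ≠ 0 := by
    rintro rfl
    rw [map_zero, LinearMap.zero_apply] at hd1
    exact zero_ne_one hd1
  have h1 : chi b ψ d ∈ U (Quotient.mk'' ω : orbitRel.Quotient (W × F) Ω) := by
    rw [mem_U_mk]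
    rintro ⟨x, c⟩ hx
    rw [chi_apply]
    change ψ (b d x) = 1
    rw [hd2 x ⟨c, hx⟩, AddChar.map_zero_eq_one]
  have h2 := h0 d hd0
  have : Finite (orbitRel.Quotient (W × F) Ω) := Quotient.finite _
  rw [mult, Finite.card_eq_zero_iff] at h2
  exact h2.elim ⟨_, h1⟩

/-- counting the characters equivalent to one which is nontrivial on the centre -/
theorem card_equiv [Fintype W] [DecidableEq W] (hb : Good b) (hF : Nat.card F = 2)
    (hκ : ∀ x y, κ (x + y) = κ x + κ y + b x y) (χ : AddChar (W × F) ℂ) (hχ : χ (0, 1) ≠ 1) {n : ℕ}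
    (hn : Nat.card W = 2 ^ (2 * n)) [DecidablePred fun y : W => χ (y, κ y) = 1] :
    2 ^ (2 * n) ≤ 2 * (Finset.univ.filter (fun y : W => χ (y, κ y) = 1)).card + 2 ^ n := by
  classical
  have hχ1 : χ (0, 1) = -1 := (pm_one hF χ _).resolve_left hχ
  let sg : F → ℤ := fun c => if c = 0 then 1 else -1
  have hsg : ∀ c d : F, sg (c + d) = sg c * sg d := by
    intro c d
    rcases cases2 hF c with h | h <;> rcases cases2 hF d with h' | h' <;> subst h <;> subst h' <;>
      simp [sg, one_add_one hF]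
  let k : W → ℤ := fun y => if χ (y, κ y) = 1 then 1 else -1
  have hk1 : ∀ y, k y * k y = 1 := by
    intro y
    by_cases h : χ (y, κ y) = 1
    · simp [k, h]
    · simp [k, h]
  have hkχ : ∀ y, ((k y : ℤ) : ℂ) = χ (y, κ y) := by
    intro y
    rcases pm_one hF χ (y, κ y) with h | h
    · simp [k, h]
    · have : (-1 : ℂ) ≠ 1 := by norm_num
      simp [k, h, this]
  have hsχ : ∀ c : F, ((sg c : ℤ) : ℂ) = χ (0, c) := by
    intro c
    rcases cases2 hF c with h | h
    · subst h
      have : χ ((0 : W), (0 : F)) = 1 := AddChar.map_zero_eq_one χ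
      rw [this]; simp [sg]
    · subst h; rw [hχ1]; simp [sg]
  have hadd : ∀ x y, k (x + y) = k x * k y * sg (b x y) := by
    intro x y
    have h1 : ((k (x + y) : ℤ) : ℂ) = ((k x * k y * sg (b x y) : ℤ) : ℂ) := by
      rw [hkχ, hκ]
      push_cast
      rw [hkχ, hkχ, hsχ, ← AddChar.map_add_eq_mul, ← AddChar.map_add_eq_mul]
      congr 1
      ext <;> simp
    exact_mod_cast h1
  have h0 : ∀ x : W, sg (b x 0) = 1 := by
    intro x
    simp [sg]
  have hs : ∀ y : W, y ≠ 0 → ∑ x, sg (b x y) = 0 := by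
    intro y hy
    obtain ⟨z, hz⟩ := exists_b_one hb hy
    have h1 : ∑ x, sg (b x y) = ∑ x, sg (b (x + z) y) := (Equiv.sum_comp (Equiv.addRight z) _).symm
    have h2 : ∀ x, sg (b (x + z) y) = - sg (b x y) := by
      intro x
      rw [map_add, LinearMap.add_apply, hz, hsg]
      have : sg 1 = -1 := by simp [sg]
      rw [this]; ring
    rw [Finset.sum_congr rfl (fun x _ => h2 x), Finset.sum_neg_distrib] at h1
    linarith
  have h3 := card_one k (fun x y => sg (b x y)) hk1 hadd h0 hs (n := n) (by rw [← Nat.card_eq_fintype_card, hn])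
  have h4 : (Finset.univ.filter (fun x => k x = 1)) = (Finset.univ.filter (fun y : W => χ (y, κ y) = 1)) := by
    apply Finset.filter_congr
    intro x _
    by_cases h : χ (x, κ x) = 1
    · simp [k, h]
    · simp [k, h]
  rw [h4] at h3
  exact h3

/-- equivalence of characters nontrivial on the centre -/
theorem mult_equiv [Finite F] [Finite Ω] (hb : Good b) (hF : Nat.card F = 2) (hψ : ψ 1 ≠ 1) {τ : W → Ω ≃ Ω}
    (hτ : ∀ (y : W) (a : W × F) (ω : Ω), τ y (a +ᵥ ω) = al b κ y a +ᵥ τ y ω)
    (hκ : ∀ x y, κ (x + y) = κ x + κ y + b x y) (χ : AddChar (W × F) ℂ) (hχ : χ (0, 1) ≠ 1) {y : W}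
    (hy : χ (y, κ y) = 1) : mult Ω (χ + chi b ψ y) = mult Ω χ := by
  have := hb.fin
  have : Finite W := Module.finite_of_finite F
  have hχ1 : χ (0, 1) = -1 := (pm_one hF χ _).resolve_left hχ
  have hψ1 : ψ 1 = -1 := by
    have : ψ 1 * ψ 1 = 1 := by
      rw [← AddChar.map_add_eq_mul, one_add_one hF, AddChar.map_zero_eq_one]
    exact (mul_self_eq_one_iff.mp this).resolve_left hψ
  apply mult_congr χ _ (alE hb hF κ y) (fix_card hτ y)
  rintro ⟨w, c⟩
  change (χ + chi b ψ y) (w, c) = χ (w + b w y • y, c + κ w + κ (w + b w y • y))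
  have h2 := two_eq_zero hF
  rw [AddChar.add_apply, chi_apply]
  change χ (w, c) * ψ (b y w) = _
  rcases cases2 hF (b w y) with h | h
  · rw [comm2 hb hF y w, h, zero_smul, add_zero, AddChar.map_zero_eq_one, mul_one]
    congr 2
    linear_combination (-κ w) * h2
  · rw [comm2 hb hF y w, h, one_smul, hψ1, hκ, h]
    have h3 : ((w + y, c + κ w + (κ w + κ y + 1)) : W × F) = (w, c) + (y, κ y) + (0, 1) := by
      ext
      · simp
      · change c + κ w + (κ w + κ y + 1) = c + κ y + 1
        linear_combination (κ w) * h2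
    rw [h3, AddChar.map_add_eq_mul, AddChar.map_add_eq_mul, hy, hχ1, mul_one]

theorem dich [Finite F] [Finite Ω] (hb : Good b) (hF : Nat.card F = 2) {τ : W → Ω ≃ Ω}
    (hτ : ∀ (y : W) (a : W × F) (ω : Ω), τ y (a +ᵥ ω) = al b κ y a +ᵥ τ y ω)
    (hκ : ∀ x y, κ (x + y) = κ x + κ y + b x y) {n : ℕ} (hn1 : 1 ≤ n) (hn : Nat.card W = 2 ^ (2 * n))
    (hD : Nat.card Ω + 2 ^ n < 2 * 2 ^ (2 * n)) :
    (∀ ω : Ω, ((0, 1) : W × F) +ᵥ ω = ω) ∨ (∀ (ω : Ω) (w : W), ∃ c : F, ((w, c) : W × F) +ᵥ ω = ω) := by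
  classical
  have := hb.fin
  have hWfin : Finite W := Module.finite_of_finite F
  have : Fintype W := Fintype.ofFinite W
  obtain ⟨ψ, hψ⟩ : ∃ ψ : AddChar F ℂ, ψ 1 ≠ 1 := AddChar.exists_apply_ne_zero.mpr one_ne_zero
  have hIfin : Finite (orbitRel.Quotient (W × F) Ω) := Quotient.finite _
  have : Fintype (orbitRel.Quotient (W × F) Ω) := Fintype.ofFinite _
  rcases isEmpty_or_nonempty Ω with hΩ | hΩ
  · left; intro ω; exact hΩ.elim ω
  set K := 2 ^ (2 * n) with hK
  have hK4 : 2 ^ n * 2 ^ n = K := by rw [hK, two_mul, pow_add]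
  have h2n : 2 ≤ 2 ^ n := by
    calc 2 = 2 ^ 1 := rfl
      _ ≤ 2 ^ n := Nat.pow_le_pow_right (by norm_num) hn1
  have hKge : 4 ≤ K := by rw [← hK4]; exact Nat.mul_le_mul h2n h2n
  have hWnt : Nontrivial W := by
    rw [← Finite.one_lt_card_iff_nontrivial, hn]; omega
  obtain ⟨u₀, hu₀⟩ := exists_ne (0 : W)
  set M := mult Ω (chi b ψ u₀) with hM
  have hMu : ∀ u : W, u ≠ 0 → mult Ω (chi b ψ u) = M := fun u hu => mult_const hb hF hτ hu hu₀
  have hIpos : 0 < Fintype.card (orbitRel.Quotient (W × F) Ω) :=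
    Fintype.card_pos_iff.mpr ⟨Quotient.mk'' (Classical.arbitrary Ω)⟩
  set I := Fintype.card (orbitRel.Quotient (W × F) Ω) with hI
  have hDU : ∑ i : orbitRel.Quotient (W × F) Ω, Nat.card (U i) = Nat.card Ω := sum_card_U
  -- sum of the sizes of the Bs
  have hBs : ∑ i : orbitRel.Quotient (W × F) Ω, Nat.card (Bs b ψ i) = I + M * (K - 1) := by
    have h1 : ∀ i : orbitRel.Quotient (W × F) Ω, Nat.card (Bs b ψ i) = ∑ u : W, if chi b ψ u ∈ U i then 1 else 0 := by
      intro i
      rw [← Finset.card_filter, Nat.card_eq_fintype_card, ← Fintype.card_subtype]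
      rfl
    have h2 : ∀ u : W, ∑ i : orbitRel.Quotient (W × F) Ω, (if chi b ψ u ∈ U i then 1 else 0) = mult Ω (chi b ψ u) := by
      intro u
      rw [mult, Nat.card_eq_fintype_card, Fintype.card_subtype, Finset.card_filter]
    rw [Finset.sum_congr rfl (fun i _ => h1 i), Finset.sum_comm, Finset.sum_congr rfl (fun u _ => h2 u),
      ← Finset.sum_erase_add _ _ (Finset.mem_univ (0 : W)),
      Finset.sum_congr rfl (fun u hu => hMu u (Finset.ne_of_mem_erase hu)), Finset.sum_const,
      Finset.card_erase_of_mem (Finset.mem_univ _), Finset.card_univ, ← Nat.card_eq_fintype_card, hn, chi_zero,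
      mult_zero, Nat.card_eq_fintype_card, smul_eq_mul]
    ring
  have hBU : ∑ i : orbitRel.Quotient (W × F) Ω, Nat.card (Bs b ψ i) ≤ Nat.card Ω := by
    rw [← hDU]
    exact Finset.sum_le_sum (fun i _ => card_Bs_le hb hF hψ i)
  have hM1 : M ≤ 1 := by
    by_contra hc
    push Not at hc
    have : 2 * (K - 1) ≤ M * (K - 1) := Nat.mul_le_mul_right _ hc
    omega
  rcases Nat.eq_zero_or_pos M with hM0 | hMpos
  · right
    exact right_of_zero (ψ := ψ) hb hF (fun u hu => by rw [hMu u hu, hM0])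
  have hMeq : M = 1 := le_antisymm hM1 hMpos
  rw [hMeq, one_mul] at hBs
  have hmult1 : ∀ u : W, u ≠ 0 → mult Ω (chi b ψ u) = 1 := fun u hu => by rw [hMu u hu, hMeq]
  by_cases hbig : ∃ i : orbitRel.Quotient (W × F) Ω, 2 < Nat.card (Bs b ψ i)
  · obtain ⟨i, hi⟩ := hbig
    -- two different nonzero elements
    obtain ⟨u, hu, u', hu', hu0, hu0', hne⟩ : ∃ u ∈ Bs b ψ i, ∃ u' ∈ Bs b ψ i, u ≠ 0 ∧ u' ≠ 0 ∧ u ≠ u' := by
      by_contra hc
      push Not at hc
      have h1 : Nat.card (Bs b ψ i) ≤ 2 := by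
        by_cases hx : ∃ x ∈ Bs b ψ i, x ≠ 0
        · obtain ⟨x, hx, hx0⟩ := hx
          have hsub : ((Bs b ψ i : AddSubgroup W) : Set W) ⊆ ({0, x} : Finset W) := by
            intro y hy
            by_cases hy0 : y = 0
            · simp [hy0]
            · have := hc x hx y hy hx0 hy0
              simp [this]
          have h2 := Set.ncard_le_ncard hsub (Finset.finite_toSet _)
          rw [Set.ncard_coe_finset] at h2
          exact h2.trans Finset.card_le_two
        · push Not at hx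
          have : Bs b ψ i = ⊥ := by
            rw [AddSubgroup.eq_bot_iff_forall]; exact hx
          rw [this]; simp
      omega
    have htop := Bs_eq_top hb hF hτ hmult1 i hu hu' hu0 hu0' hne
    have hcardtop : Nat.card (Bs b ψ i) = K := by
      rw [htop, ← hn]
      exact Nat.card_congr AddSubgroup.topEquiv.toEquiv
    have hUi : K ≤ Nat.card (U i) := by rw [← hcardtop]; exact card_Bs_le hb hF hψ i
    have hno : ∀ χ ∈ U i, χ (0, 1) = 1 := by
      intro χ hχ
      by_contra h
      have h1 := card_Bs_le' hb hF hψ i χ hχ h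
      have h2 : Nat.card (U i) ≤ Nat.card Ω := by
        rw [← hDU]
        exact Finset.single_le_sum (f := fun i => Nat.card (U i)) (fun _ _ => Nat.zero_le _) (Finset.mem_univ i)
      have h3 : 0 < 2 ^ n := by positivity
      omega
    by_cases hC : ∃ χ : AddChar (W × F) ℂ, χ (0, 1) ≠ 1 ∧ 0 < mult Ω χ
    · exfalso
      obtain ⟨χ, hχ, hχm⟩ := hC
      have hcount := card_equiv hb hF hκ χ hχ hn
      set J := Finset.univ.filter (fun y : W => χ (y, κ y) = 1) with hJ
      have hex : ∀ y : W, y ∈ J → ∃ j : orbitRel.Quotient (W × F) Ω, χ + chi b ψ y ∈ U j := by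
        intro y hy
        rw [hJ, Finset.mem_filter] at hy
        have h1 := mult_equiv hb hF hψ hτ hκ χ hχ hy.2
        rw [← h1, mult, Finite.card_pos_iff] at hχm
        obtain ⟨j⟩ := hχm
        exact ⟨j.1, j.2⟩
      have hInon : Nonempty (orbitRel.Quotient (W × F) Ω) := ⟨i⟩
      choose! j hj using hex
      have hone : ∀ y : W, (χ + chi b ψ y) (0, 1) ≠ 1 := by
        intro y
        rw [AddChar.add_apply, chi_apply]
        change χ (0, 1) * ψ (b y 0) ≠ 1
        rw [map_zero (b y), AddChar.map_zero_eq_one, mul_one]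
        exact hχ
      have hji : ∀ y ∈ J, j y ≠ i := by
        intro y hy h
        have h1 := hj y hy
        rw [h] at h1
        exact hone y (hno _ h1)
      have huniq : ∀ x : W, x ≠ 0 → ∀ k : orbitRel.Quotient (W × F) Ω, x ∈ Bs b ψ k → k = i := by
        intro x hx k hk
        have h2 : Subsingleton {i : orbitRel.Quotient (W × F) Ω // chi b ψ x ∈ U i} :=
          (Nat.card_eq_one_iff_unique.mp (hmult1 x hx)).1
        have h3 : x ∈ Bs b ψ i := by rw [htop]; trivial
        exact congrArg Subtype.val (Subsingleton.elim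
          (⟨k, hk⟩ : {i : orbitRel.Quotient (W × F) Ω // chi b ψ x ∈ U i}) ⟨i, h3⟩)
      have hinj : Set.InjOn j J := by
        intro y hy y' hy' h
        have h1 := hj y hy
        have h2 := hj y' hy'
        rw [← h] at h2
        have h3 : chi b ψ (y - y') ∈ U (j y) := by
          have h4 : chi b ψ (y - y') = (χ + chi b ψ y) - (χ + chi b ψ y') := by
            rw [sub_eq_add_neg, chi_add, chi_neg]; abel
          rw [h4]
          exact sub_mem h1 h2
        by_contra hne'
        exact hji y hy (huniq (y - y') (sub_ne_zero.mpr hne') _ h3)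
      have hU2 : ∀ y ∈ J, 2 ≤ Nat.card (U (j y)) := by
        intro y hy
        have h1 := card_Bs_le' hb hF hψ (j y) _ (hj y hy) (hone y)
        have h2 : 0 < Nat.card (Bs b ψ (j y)) := Nat.card_pos
        omega
      have hsum : Nat.card (U i) + 2 * J.card ≤ Nat.card Ω := by
        rw [← hDU]
        have h1 : ∑ k ∈ insert i (J.image j), Nat.card (U k) ≤ ∑ k : orbitRel.Quotient (W × F) Ω, Nat.card (U k) :=
          Finset.sum_le_sum_of_subset (Finset.subset_univ _)
        refine le_trans ?_ h1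
        rw [Finset.sum_insert]
        · have h2 : 2 * J.card ≤ ∑ k ∈ J.image j, Nat.card (U k) := by
            rw [← Finset.card_image_of_injOn hinj, mul_comm, ← smul_eq_mul, ← Finset.sum_const]
            apply Finset.sum_le_sum
            intro k hk
            obtain ⟨y, hy, rfl⟩ := Finset.mem_image.mp hk
            exact hU2 y hy
          omega
        · intro h
          obtain ⟨y, hy, hyi⟩ := Finset.mem_image.mp h
          exact hji y hy hyi
      omega
    · left
      push Not at hC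
      intro ω
      by_contra hmv
      obtain ⟨χ, hχ1, hχ2⟩ := exists_of_notMem (stabilizer (W × F) ω) (x := ((0, 1) : W × F)) hmv
      have h1 := hC χ hχ2
      have h2 : 0 < mult Ω χ := by
        rw [mult, Finite.card_pos_iff]
        exact ⟨⟨Quotient.mk'' ω, mem_U_mk.mpr hχ1⟩⟩
      omega
  · exfalso
    push Not at hbig
    have h1 : ∑ i : orbitRel.Quotient (W × F) Ω, Nat.card (Bs b ψ i) ≤ ∑ i : orbitRel.Quotient (W × F) Ω, 2 :=
      Finset.sum_le_sum (fun i _ => hbig i)
    rw [Finset.sum_const, Finset.card_univ, smul_eq_mul] at h1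
    omega

end H41.SpTwoDich
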