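import Cfsg.Agent.Lib.H41.SpTwoMin

/-! A subgroup of index `2^(m-1) (2^m - 1)` of `Sp_2m(2)`: the stabiliser of a quadratic form of minus type. -/

set_option autoImplicit false

namespace H41.SpTwoForms

open Module H41.SpA H41.SpTwo H41.SpTwoA MulAction

variable {F V : Type*} [Field F] [AddCommGroup V] [Module F V] {B : LinearMap.BilinForm F V}

open Classical in
/-- sign -/
noncomputable def sg (c : F) : ℤ := if c = 0 then 1 else -1

theorem sg_zero : sg (0 : F) = 1 := by simp [sg]

theorem sg_one : sg (1 : F) = -1 := by simp [sg]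

theorem sg_mul_self (c : F) : sg c * sg c = 1 := by
  by_cases h : c = 0 <;> simp [sg, h]

theorem sg_add (hF : Nat.card F = 2) (c d : F) : sg (c + d) = sg c * sg d := by
  rcases cases2 hF c with h | h <;> rcases cases2 hF d with h' | h' <;> subst h <;> subst h' <;>
    simp [sg, one_add_one hF]

/-- quadratic functions polarizing to `B` -/
abbrev QF (B : LinearMap.BilinForm F V) : Type _ := {q : V → F // ∀ x y, q (x + y) = q x + q y + B x y}

noncomputable instance : MulAction (Sp B) (QF B) where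
  smul g q := ⟨fun x => q.1 (g⁻¹ • x), fun x y => by
    change q.1 (g⁻¹ • (x + y)) = q.1 (g⁻¹ • x) + q.1 (g⁻¹ • y) + B x y
    rw [smul_add, q.2, iso]⟩
  one_smul q := by
    apply Subtype.ext
    funext x
    change q.1 ((1 : Sp B)⁻¹ • x) = q.1 x
    rw [inv_one, one_smul]
  mul_smul g h q := by
    apply Subtype.ext
    funext x
    change q.1 ((g * h)⁻¹ • x) = q.1 (h⁻¹ • g⁻¹ • x)
    rw [mul_inv_rev, mul_smul]

theorem smul_apply (g : Sp B) (q : QF B) (x : V) : (g • q).1 x = q.1 (g⁻¹ • x) := rfl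

/-- translates -/
def tr (q : QF B) (v : V) : QF B := ⟨fun x => q.1 x + B x v, fun x y => by
  change q.1 (x + y) + B (x + y) v = q.1 x + B x v + (q.1 y + B y v) + B x y
  rw [q.2, map_add, LinearMap.add_apply]; ring⟩

theorem exists_tr (hB : Good B) (hF : Nat.card F = 2) (q q' : QF B) : ∃ v, q' = tr q v := by
  have := hB.fin
  let l : Dual F V :=
    { toFun := fun x => q'.1 x - q.1 x
      map_add' := by intro x y; rw [q.2, q'.2]; ring
      map_smul' := by
        intro c x
        have h0 : q'.1 0 - q.1 0 = 0 := by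
          have h1 := q.2 0 0
          have h2 := q'.2 0 0
          simp only [map_zero, add_zero, add_self_F hF] at h1 h2
          rw [h1, h2, sub_zero]
        rcases cases2 hF c with h | h
        · subst h; simp [h0]
        · subst h; simp }
  have hinj : Function.Injective B := by
    rw [← LinearMap.ker_eq_bot, LinearMap.ker_eq_bot']
    intro d hd
    apply hB.nd
    intro y
    rw [hd, LinearMap.zero_apply]
  have hsurj : Function.Surjective B :=
    (LinearMap.injective_iff_surjective_of_finrank_eq_finrank (Subspace.dual_finrank_eq).symm).mp hinj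
  obtain ⟨v, hv⟩ := hsurj l
  refine ⟨v, Subtype.ext (funext fun x => ?_)⟩
  change q'.1 x = q.1 x + B x v
  rw [comm2 hB hF x v, hv]
  change q'.1 x = q.1 x + (q'.1 x - q.1 x)
  ring

theorem tr_inj (hB : Good B) (q : QF B) {v v' : V} (h : tr q v = tr q v') : v = v' := by
  rw [← sub_eq_zero]
  apply hB.nd
  intro x
  have h1 : q.1 x + B x v = q.1 x + B x v' := congrFun (congrArg Subtype.val h) x
  rw [hB.swap', map_sub, neg_sub, sub_eq_zero]
  exact (add_left_cancel h1).symm

theorem t_tr (hB : Good B) (hF : Nat.card F = 2) (q : QF B) {v : V} (hv : q.1 v = 0) : t B v • q = tr q v := by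
  apply Subtype.ext
  funext x
  rw [smul_apply, t_inv hB hF, t_smul hB]
  change q.1 (x + B x v • v) = q.1 x + B x v
  rcases cases2 hF (B x v) with h | h
  · rw [h, zero_smul, add_zero, add_zero]
  · rw [h, one_smul, q.2, hv, h, add_zero]

/-- Gauss sum -/
noncomputable def S [Fintype V] (q : QF B) : ℤ := ∑ x, sg (q.1 x)

theorem S_smul [Fintype V] (g : Sp B) (q : QF B) : S (g • q) = S q := by
  exact Equiv.sum_comp (MulAction.toPerm g⁻¹) (fun x => sg (q.1 x))

theorem S_tr (hB : Good B) (hF : Nat.card F = 2) [Fintype V] (q : QF B) (v : V) :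
    S (tr q v) = sg (q.1 v) * S q := by
  rw [S, S, ← Equiv.sum_comp (Equiv.addRight v), Finset.mul_sum]
  apply Finset.sum_congr rfl
  intro x _
  change sg (q.1 (x + v) + B (x + v) v) = _
  rw [map_add, LinearMap.add_apply, hB.alt, add_zero, q.2]
  have : q.1 x + q.1 v + B x v + B x v = q.1 v + q.1 x := by
    rw [add_assoc, add_self_F hF]; ring
  rw [this, sg_add hF]

theorem S_sq (hB : Good B) (hF : Nat.card F = 2) [Fintype V] (q : QF B) : S q * S q = Fintype.card V := by
  apply gauss (fun x => sg (q.1 x)) (fun x y => sg (B x y)) (fun x => sg_mul_self _)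
  · intro x y
    rw [q.2, sg_add hF, sg_add hF]
  · intro x
    rw [map_zero, sg_zero]
  · intro y hy
    obtain ⟨z, hz⟩ := SpTwoCount.exists_b_one hB hy
    have h1 : ∑ x, sg (B x y) = ∑ x, sg (B (x + z) y) := (Equiv.sum_comp (Equiv.addRight z) _).symm
    have h2 : ∀ x, sg (B (x + z) y) = - sg (B x y) := by
      intro x
      rw [map_add, LinearMap.add_apply, hz, sg_add hF, sg_one]
      ring
    rw [Finset.sum_congr rfl (fun x _ => h2 x), Finset.sum_neg_distrib] at h1
    linarith

theorem exists_subgroup (hB : Good B) (hF : Nat.card F = 2) {m : ℕ} (hm1 : 1 ≤ m) (hm : finrank F V = 2 * m) :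
    ∃ H : Subgroup (Sp B), H.index = 2 ^ (m - 1) * (2 ^ m - 1) := by
  classical
  have := hB.fin
  have hfinF : Finite F := Nat.finite_of_card_ne_zero (by omega)
  have hfinV : Finite V := Module.finite_of_finite F
  have : Fintype V := Fintype.ofFinite V
  have hcV : Fintype.card V = 2 ^ (2 * m) := by
    rw [← Nat.card_eq_fintype_card, Module.natCard_eq_pow_finrank (K := F), hF, hm]
  obtain ⟨κ, hκ⟩ := exists_quad (B := B) hB.alt (comm2 hB hF)
  have hSpm : ∀ q : QF B, S q = 2 ^ m ∨ S q = - 2 ^ m := by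
    intro q
    apply mul_self_eq_mul_self_iff.mp
    rw [S_sq hB hF q, hcV]
    push_cast
    rw [two_mul, pow_add]
  have hpos : (0 : ℤ) < 2 ^ m := by positivity
  -- number of zeros
  have hzero : ∀ q : QF B, S q = 2 * ((Finset.univ.filter (fun x => q.1 x = 0)).card : ℤ) - Fintype.card V := by
    intro q
    have h3 : ∀ x, sg (q.1 x) = 2 * (if q.1 x = 0 then 1 else 0) - 1 := by
      intro x
      by_cases h : q.1 x = 0
      · simp [sg, h]
      · simp [sg, h]
    rw [S, Finset.sum_congr rfl (fun x _ => h3 x), Finset.sum_sub_distrib, ← Finset.mul_sum, Finset.sum_const,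
      Finset.card_univ, Finset.card_filter]
    push_cast
    simp
  obtain ⟨q, hq⟩ : ∃ q : QF B, S q = - 2 ^ m := by
    let q₀ : QF B := ⟨κ, hκ⟩
    rcases hSpm q₀ with h | h
    · obtain ⟨v, hv⟩ : ∃ v, q₀.1 v ≠ 0 := by
        by_contra hc
        push Not at hc
        have h1 : S q₀ = Fintype.card V := by
          rw [S, Finset.sum_congr rfl (fun x _ => by rw [hc x, sg_zero]), Finset.sum_const, Finset.card_univ]
          simp
        rw [h, hcV] at h1
        push_cast at h1
        rw [two_mul, pow_add] at h1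
        have h2 : (2 : ℤ) ≤ 2 ^ m := by
          calc (2 : ℤ) = 2 ^ 1 := by norm_num
            _ ≤ 2 ^ m := pow_le_pow_right₀ (by norm_num) hm1
        nlinarith
      refine ⟨tr q₀ v, ?_⟩
      rw [S_tr hB hF, h]
      have : sg (q₀.1 v) = -1 := by simp [sg, hv]
      rw [this]; ring
    · exact ⟨q₀, h⟩
  refine ⟨stabilizer (Sp B) q, ?_⟩
  rw [index_stabilizer]
  -- the orbit is the set of translates by zeros
  have hcard : Nat.card (orbit (Sp B) q) = (Finset.univ.filter (fun x => q.1 x = 0)).card := by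
    rw [← Fintype.card_subtype, ← Nat.card_eq_fintype_card]
    symm
    refine Nat.card_congr (Equiv.ofBijective (fun v : {x // q.1 x = 0} =>
      (⟨tr q v.1, ⟨t B v.1, t_tr hB hF q v.2⟩⟩ : orbit (Sp B) q)) ⟨?_, ?_⟩)
    · intro v v' h
      exact Subtype.ext (tr_inj hB q (congrArg Subtype.val h))
    · rintro ⟨_, ⟨g, rfl⟩⟩
      obtain ⟨v, hv⟩ := exists_tr hB hF q (g • q)
      have h1 := S_smul g q
      rw [hv, S_tr hB hF, hq] at h1
      have h2 : sg (q.1 v) = 1 := by
        have : (sg (q.1 v) - 1) * (2 ^ m) = 0 := by linarith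
        rcases mul_eq_zero.mp this with h | h
        · linarith
        · exact absurd h hpos.ne'
      have h3 : q.1 v = 0 := by
        by_contra h
        rw [show sg (q.1 v) = -1 by simp [sg, h]] at h2
        norm_num at h2
      exact ⟨⟨v, h3⟩, Subtype.ext hv.symm⟩
  have h4 := hzero q
  rw [hq, hcV] at h4
  change Nat.card (orbit (Sp B) q) = _
  rw [hcard]
  obtain ⟨n, rfl⟩ : ∃ n, m = n + 1 := ⟨m - 1, by omega⟩
  rw [Nat.add_sub_cancel]
  have h5 : (1 : ℕ) ≤ 2 ^ (n + 1) := Nat.one_le_two_pow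
  zify [h5]
  push_cast at h4
  have h6 : (2 : ℤ) ^ (2 * (n + 1)) = 2 * 2 ^ n * 2 ^ (n + 1) := by
    rw [two_mul (n + 1), pow_add, pow_succ]; ring
  rw [h6] at h4
  have h7 : (2 : ℤ) ^ (n + 1) = 2 * 2 ^ n := by rw [pow_succ]; ring
  have h8 : (2 : ℤ) * ((Finset.univ.filter (fun x => q.1 x = 0)).card : ℤ) = 2 * (2 ^ n * (2 ^ (n + 1) - 1)) := by
    rw [h7] at h4 ⊢
    linarith
  exact mul_left_cancel₀ (by norm_num : (2 : ℤ) ≠ 0) h8

end H41.SpTwoForms
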