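import Cfsg.Agent.Lib.H41.SpTwoDich
import Cfsg.Agent.Lib.H95.SpBasic

/-! The minimal index of a proper subgroup of `Sp_2m(2)`, `m ≥ 3`. -/

set_option autoImplicit false

namespace H41.SpTwoMin

open Module H41.SpA H41.SpTwo H41.SpTwoA MulAction

variable {F V : Type*} [Field F] [AddCommGroup V] [Module F V] {B : LinearMap.BilinForm F V}

theorem good_W (hB : Good B) {v v' : V} (hv : B v' v = 1) : Good (B.restrict (W B v v')) where
  fin := by
    have := hB.fin
    infer_instance
  alt := fun x => hB.alt x.1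
  nd := by
    intro x hx
    apply Subtype.ext
    apply W_nondeg hB hv x.2
    intro w hw
    exact hx ⟨w, hw⟩

theorem e_shift (hB : Good B) (hF : Nat.card F = 2) {v w : V} (hw : B w v = 0) (r c : F) :
    e B v (w + r • v) c = e B v w c := by
  apply ext_smul
  intro x
  rw [e_smul hB hw, e_smul hB (by rw [map_add, map_smul, LinearMap.add_apply, LinearMap.smul_apply, hw, hB.alt, smul_zero,
    add_zero]), map_add, map_smul]
  have h2 := two_eq_zero hF
  have e1 : x + B x v • (w + r • v) + (B x w + r • B x v) • v + (c * B x v) • v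
      = x + B x v • w + B x w • v + (c * B x v) • v + ((2 : F) * (r * B x v)) • v := by
    rw [smul_eq_mul]; module
  rw [e1, h2, zero_mul, zero_smul, add_zero]

theorem star (hB : Good B) (hF : Nat.card F = 2) {m : ℕ} (hm2 : 2 ≤ m) (hm : finrank F V = 2 * m) {Ω : Type*}
    [MulAction (Sp B) Ω] [Finite Ω] (hD : Nat.card Ω < 2 ^ (m - 1) * (2 ^ m - 1)) (v : V) (hv0 : v ≠ 0) (w : V)
    (hw : B w v = 0) (ω : Ω) : ∃ c : F, e B v w c • ω = ω := by
  have := hB.fin
  have hfinF : Finite F := Nat.finite_of_card_ne_zero (by omega)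
  obtain ⟨v', hv, -⟩ := exists_form_sep hB (W := (⊥ : Submodule F V)) (x := v) (by simpa using hv0)
  obtain ⟨κ, hκ⟩ := exists_quad (B := B) hB.alt (comm2 hB hF)
  have hκ0 : κ 0 = 0 := by
    have := hκ 0 0
    simp only [map_zero, add_zero, add_self_F hF] at this
    exact this
  let inst := act hB hF v v' κ hκ Ω
  have hvadd : ∀ (a : W B v v' × F) (ω : Ω), a +ᵥ ω = e B v a.1.1 (a.2 + κ a.1.1) • ω := fun a ω => rfl
  obtain ⟨n, rfl⟩ : ∃ n, m = n + 1 := ⟨m - 1, by omega⟩
  have hcW : Nat.card (W B v v') = 2 ^ (2 * n) := by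
    rw [Module.natCard_eq_pow_finrank (K := F), hF]
    have := finrank_W hB hv
    congr 1
    omega
  have hτ : ∀ (y : W B v v') (a : W B v v' × F) (ω : Ω),
      (fun y : W B v v' => MulAction.toPerm (t B y.1) (β := Ω)) y (a +ᵥ ω)
        = SpTwoCount.al (B.restrict (W B v v')) (fun x => κ x.1) y a
          +ᵥ (fun y : W B v v' => MulAction.toPerm (t B y.1) (β := Ω)) y ω := by
    intro y a ω
    change t B y.1 • (a +ᵥ ω) = SpTwoCount.al (B.restrict (W B v v')) (fun x => κ x.1) y a +ᵥ (t B y.1 • ω)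
    rw [hvadd, hvadd, ← mul_smul, ← mul_smul]
    congr 1
    have hyv : B v y.1 = 0 := hB.symm0 y.2.1
    have h1 := conj_e hB (t B y.1) (w := a.1.1) (v := v) a.1.2.1 (a.2 + κ a.1.1)
    rw [t_smul hB y.1 v, hyv, zero_smul, add_zero, mul_inv_eq_iff_eq_mul, t_smul hB] at h1
    rw [h1]
    congr 2
    change a.2 + κ a.1.1 = a.2 + κ a.1.1 + κ (a.1.1 + B a.1.1 y.1 • y.1) + κ (a.1.1 + B a.1.1 y.1 • y.1)
    rw [add_assoc, add_self_F hF, add_zero]
  have hD' : Nat.card Ω + 2 ^ n < 2 * 2 ^ (2 * n) := by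
    rw [Nat.add_sub_cancel] at hD
    have h1 : 2 ^ n * (2 ^ (n + 1) - 1) + 2 ^ n = 2 * 2 ^ (2 * n) := by
      have h2 : 1 ≤ 2 ^ (n + 1) := Nat.one_le_two_pow
      obtain ⟨k, hk⟩ : ∃ k, 2 ^ (n + 1) = k + 1 := ⟨2 ^ (n + 1) - 1, by omega⟩
      rw [hk, Nat.add_sub_cancel]
      have h3 : 2 ^ n * k + 2 ^ n = 2 ^ n * (k + 1) := by ring
      rw [h3, ← hk, pow_succ, two_mul n, pow_add]
      ring
    omega
  rcases SpTwoDich.dich (Ω := Ω) (good_W hB hv) hF hτ (fun x y => hκ x.1 y.1) (n := n) (by omega) hcW hD' with h | h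
  · -- transvections act trivially
    have hv1 : ∀ ω : Ω, t B v • ω = ω := by
      intro ω
      have h1 := h ω
      rw [hvadd] at h1
      change e B v (0 : V) ((1 : F) + κ 0) • ω = ω at h1
      rwa [hκ0, add_zero] at h1
    have hadj : ∀ x y : V, B x y = 1 → (∀ ω : Ω, t B x • ω = ω) → ∀ ω : Ω, t B y • ω = ω := by
      intro x y hxy hx ω
      have h1 := conj_t hB (t B (x + y)) x
      rw [t_smul hB, map_add, hB.alt, hxy, zero_add, one_smul, ← add_assoc, add_self_V hF, zero_add] at h1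
      rw [← h1, mul_smul, mul_smul, hx, smul_inv_smul]
    have hall : ∀ (y : V) (ω : Ω), t B y • ω = ω := by
      intro y
      by_cases hy : y = 0
      · intro ω; rw [hy, t_zero hB, one_smul]
      rcases cases2 hF (B v y) with h2 | h2
      · obtain ⟨z, hz, hz'⟩ : ∃ z, B v z = 1 ∧ B y z = 1 := by
          obtain ⟨a, ha⟩ := SpTwoCount.exists_b_one hB hv0
          obtain ⟨a', ha'⟩ := SpTwoCount.exists_b_one hB hy
          rw [comm2 hB hF] at ha ha'
          rcases cases2 hF (B y a) with h3 | h3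
          · rcases cases2 hF (B v a') with h4 | h4
            · exact ⟨a + a', by rw [map_add, ha, h4, add_zero], by rw [map_add, h3, ha', zero_add]⟩
            · exact ⟨a', h4, ha'⟩
          · exact ⟨a, ha, h3⟩
        exact hadj z y (by rw [comm2 hB hF, hz']) (hadj v z hz hv1)
      · exact hadj v y h2 hv1
    refine ⟨0, ?_⟩
    rw [e_zero_eq hB hF hw, mul_smul, mul_smul, hall, hall, hall]
  · -- linear parts
    have hw' : w + B w v' • v ∈ W B v v' := by
      have h1 := decomp hB hv w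
      rwa [hw, zero_smul, sub_zero] at h1
    obtain ⟨c, hc⟩ := h ω ⟨_, hw'⟩
    rw [hvadd] at hc
    change e B v (w + B w v' • v) (c + κ (w + B w v' • v)) • ω = ω at hc
    rw [e_shift hB hF hw] at hc
    exact ⟨_, hc⟩

theorem eq_top_of_t (hB : Good B) (hF : Nat.card F = 2) (H : Subgroup (Sp B)) (hH : ∀ v, t B v ∈ H) : H = ⊤ := by
  have := hB.fin
  have h1 := H95.SpBasic.isom_le_of_tr B hB.alt hB.nd (H.map (Sp B).subtype) (by
    intro v c
    rcases cases2 hF c with h | h
    · subst h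
      have : H95.SpBasic.tr B hB.alt v 0 = 1 := by
        ext x
        change x + (0 * B x v) • v = x
        rw [zero_mul, zero_smul, add_zero]
      rw [this]; exact one_mem _
    · subst h
      refine ⟨t B v, hH v, ?_⟩
      ext x
      change t B v • x = x + (1 * B x v) • v
      rw [t_smul hB, one_mul])
  rw [eq_top_iff]
  intro g _
  obtain ⟨h, hh, hg⟩ := h1 (x := g.1) g.2
  have : h = g := Subtype.ext hg
  rwa [← this]

theorem min_index (hB : Good B) (hF : Nat.card F = 2) {m : ℕ} (hm3 : 3 ≤ m) (hm : finrank F V = 2 * m)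
    (H : Subgroup (Sp B)) (hH : H ≠ ⊤) : 2 ^ (m - 1) * (2 ^ m - 1) ≤ H.index := by
  by_contra hlt
  push Not at hlt
  have := hB.fin
  have hfinF : Finite F := Nat.finite_of_card_ne_zero (by omega)
  have hfinV : Finite V := Module.finite_of_finite F
  have hfinG : Finite (Sp B) := finite_Sp
  apply hH
  apply eq_top_of_t hB hF
  apply t_all hB hF (by omega)
  intro v hv w hw
  set ω₀ : Sp B ⧸ H := ((1 : Sp B) : Sp B ⧸ H) with hω₀
  obtain ⟨c, hc⟩ := star hB hF (by omega) hm (Ω := Sp B ⧸ H) hlt v hv w hw ω₀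
  refine ⟨c, ?_⟩
  rw [← MulAction.mem_stabilizer_iff, hω₀, MulAction.stabilizer_quotient] at hc
  exact hc

end H41.SpTwoMin
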