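import Mathlib
import Cfsg.Agent.Lib.H57.PolarSU

/-! Geometry for the minimal index of the unitary groups: isotropic vectors, Siegel elements, transitivity. -/

set_option autoImplicit false
set_option linter.unusedSectionVars false

namespace H41.UnA

open Module H95.UBasic H95.UPar H95.UPair H57.Polar

variable {F V : Type*} [Field F] [AddCommGroup V] [Module F V] {σ : F →+* F}
variable {h : V →ₗ[F] V →ₛₗ[σ] F}

/-- nondegenerate subspaces -/
def ND (h : V →ₗ[F] V →ₛₗ[σ] F) (U : Submodule F V) : Prop := ∀ v ∈ U, (∀ w ∈ U, h v w = 0) → v = 0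

theorem nd_top (H : IsSkew h) : ND h ⊤ := fun v _ hv => H.nd v fun w => hv w trivial

/-- the orthogonal of a vector in a subspace -/
def p1 (h : V →ₗ[F] V →ₛₗ[σ] F) (U : Submodule F V) (x : V) : Submodule F V := perpF h U ![x]

/-- the orthogonal of two vectors in a subspace -/
def p2 (h : V →ₗ[F] V →ₛₗ[σ] F) (U : Submodule F V) (x y : V) : Submodule F V := perpF h U ![x, y]

theorem mem_p1 {U : Submodule F V} {x w : V} : w ∈ p1 h U x ↔ w ∈ U ∧ h w x = 0 := by
  rw [p1, mem_perpF]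
  refine and_congr_right fun _ => ⟨fun h1 => h1 0, fun h1 i => ?_⟩
  fin_cases i
  exact h1

theorem mem_p2 {U : Submodule F V} {x y w : V} : w ∈ p2 h U x y ↔ w ∈ U ∧ h w x = 0 ∧ h w y = 0 := by
  rw [p2, mem_perpF]
  refine and_congr_right fun _ => ⟨fun h1 => ⟨h1 0, h1 1⟩, fun h1 i => ?_⟩
  fin_cases i
  · exact h1.1
  · exact h1.2

section basic

variable (H : IsSkew h)
include H

theorem smul_iso {x : V} (hx : h x x = 0) (c : F) : h (c • x) (c • x) = 0 := by
  simp [hx]

theorem hfe {e f : V} (hef : h e f = 1) : h f e = -1 := by rw [H.skew, hef, map_one]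

theorem hfe' {e f : V} (hef : h e f = -1) : h f e = 1 := by rw [H.skew, hef, map_neg, map_one, neg_neg]

/-- scale a vector to product one -/
theorem scale_one {x e : V} (hxe : h x e ≠ 0) : h x ((σ (h x e))⁻¹ • e) = 1 := by
  rw [map_smulₛₗ, map_inv₀, H.inv, smul_eq_mul, inv_mul_cancel₀ hxe]

/-- an isotropic partner in a subspace -/
theorem hyp_of {S : Submodule F V} {e y : V} (he : e ∈ S) (hee : h e e = 0) (hy : y ∈ S) (hey : h e y ≠ 0) :
    ∃ f ∈ S, h f f = 0 ∧ h e f = 1 := by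
  obtain ⟨l, hl1, hl2⟩ := iso_fix H hee (scale_one H hey)
  exact ⟨_, S.add_mem (S.smul_mem _ hy) (S.smul_mem _ he), hl1, hl2⟩

/-- a functional which is nonzero on `S` is nonzero on an isotropic vector of `S` -/
theorem tlem {S : Submodule F V} {e f : V} (he : e ∈ S) (hf : f ∈ S) (hee : h e e = 0) (hff : h f f = 0)
    (hef : h e f = 1) {x y : V} (hy : y ∈ S) (hxy : h x y ≠ 0) : ∃ u ∈ S, h u u = 0 ∧ h x u = 1 := by
  suffices hs : ∃ u ∈ S, h u u = 0 ∧ h x u ≠ 0 by
    obtain ⟨u, hu, huu, hxu⟩ := hs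
    exact ⟨_, S.smul_mem _ hu, smul_iso H huu _, scale_one H hxu⟩
  have hfe := hfe H hef
  by_cases c1 : h x e = 0
  · by_cases c2 : h x f = 0
    · set y' := y - h y f • e + h y e • f with hy'
      have k0 : h x y' = h x y := by
        rw [hy', map_add, map_sub, map_smulₛₗ, map_smulₛₗ, c1, c2]; simp
      have k1 : h y' e = 0 := by
        rw [hy']
        simp only [map_add, map_sub, LinearMap.add_apply, LinearMap.sub_apply, map_smul, LinearMap.smul_apply,
          smul_eq_mul, hee, hfe]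
        ring
      have k2 : h y' f = 0 := by
        rw [hy']
        simp only [map_add, map_sub, LinearMap.add_apply, LinearMap.sub_apply, map_smul, LinearMap.smul_apply,
          smul_eq_mul, hff, hef]
        ring
      have k3 : h e y' = 0 := H.symm_zero k1
      have k4 : h f y' = 0 := H.symm_zero k2
      obtain ⟨l, hl⟩ := exists_sub_conj H (s := h y' y') (H.self y')
      refine ⟨e + y' + l • f, ?_, ?_, ?_⟩
      · refine S.add_mem (S.add_mem he ?_) (S.smul_mem _ hf)
        exact S.add_mem (S.sub_mem hy (S.smul_mem _ he)) (S.smul_mem _ hf)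
      · simp only [map_add, LinearMap.add_apply, map_smul, LinearMap.smul_apply, map_smulₛₗ, smul_eq_mul,
          hee, hff, hef, hfe, k1, k2, k3, k4, ← hl]
        ring
      · rw [map_add, map_add, map_smulₛₗ, c1, c2, k0]
        simpa using hxy
    · exact ⟨f, hf, hff, c2⟩
  · exact ⟨e, he, hee, c1⟩

/-- moving a vector to another one of the same norm -/
theorem sieg_move' {e x y : V} (he : h e e = 0) (hxy : h x x = h y y) (hxe : h x e = 1) (hye : h y e = 1) :
    Good h e (y - x) (h x x - h x y) ∧ sieg h e (y - x) (h x x - h x y) x = y := by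
  have hex : h e x = -1 := hfe H hxe
  have hey : h e y = -1 := hfe H hye
  have hyx : h y x = - σ (h x y) := H.skew x y
  have hs := H.self x
  have hg : Good h e (y - x) (h x x - h x y) := by
    refine ⟨he, ?_, ?_, ?_⟩
    · rw [map_sub, hex, hey, sub_self]
    · rw [map_sub, LinearMap.sub_apply, hxe, hye, sub_self]
    · simp only [map_sub, LinearMap.sub_apply, hyx, map_sub, hs, ← hxy]
      ring
  refine ⟨hg, ?_⟩
  rw [sieg_apply hg, hxe, map_sub]
  module

theorem sieg_fix {e w v : V} {a : F} (hg : Good h e w a) (h1 : h v e = 0) (h2 : h v w = 0) :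
    sieg h e w a v = v := by
  rw [sieg_apply hg, h1, h2]
  simp

variable [FiniteDimensional F V]

theorem nd_hyp {U : Submodule F V} (hU : ND h U) {e f : V} (he : e ∈ U) (hf : f ∈ U) (hee : h e e = 0)
    (hff : h f f = 0) (hef : h e f = 1) :
    ND h (p2 h U e f) ∧ finrank F U = finrank F (p2 h U e f) + 2 := by
  have hfe := hfe H hef
  constructor
  · intro v hv hw
    rw [mem_p2] at hv
    apply hU v hv.1
    intro w hwU
    have h1 := hw (w - h w f • e + h w e • f) (by
      rw [mem_p2]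
      refine ⟨U.add_mem (U.sub_mem hwU (U.smul_mem _ he)) (U.smul_mem _ hf), ?_, ?_⟩
      · simp only [map_add, map_sub, LinearMap.add_apply, LinearMap.sub_apply, map_smul, LinearMap.smul_apply,
          smul_eq_mul, hee, hfe]
        ring
      · simp only [map_add, map_sub, LinearMap.add_apply, LinearMap.sub_apply, map_smul, LinearMap.smul_apply,
          smul_eq_mul, hff, hef]
        ring)
    rw [map_add, map_sub, map_smulₛₗ, map_smulₛₗ, hv.2.1, hv.2.2] at h1
    simpa using h1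
  · have h1 := finrank_perpF_eq H hU (x := ![e, f]) (by
      intro i
      fin_cases i
      · exact he
      · exact hf) (by
      rw [LinearIndependent.pair_iff]
      intro a b hab
      have e1 := congrArg (fun x => h x f) hab
      have e2 := congrArg (fun x => h x e) hab
      simp only [map_add, map_smul, LinearMap.add_apply, LinearMap.smul_apply, smul_eq_mul, hef, hee, hff, hfe,
        map_zero, LinearMap.zero_apply] at e1 e2
      constructor
      · linear_combination e1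
      · linear_combination -e2)
    rw [Fintype.card_fin] at h1
    exact h1

theorem nd_ani {U : Submodule F V} (hU : ND h U) {x : V} (hx : x ∈ U) (hxx : h x x ≠ 0) :
    ND h (p1 h U x) ∧ finrank F U = finrank F (p1 h U x) + 1 := by
  constructor
  · intro v hv hw
    rw [mem_p1] at hv
    apply hU v hv.1
    intro w hwU
    have h1 := hw (w - (h w x * (h x x)⁻¹) • x) (by
      rw [mem_p1]
      refine ⟨U.sub_mem hwU (U.smul_mem _ hx), ?_⟩
      simp only [map_sub, LinearMap.sub_apply, map_smul, LinearMap.smul_apply, smul_eq_mul]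
      rw [mul_assoc, inv_mul_cancel₀ hxx]
      ring)
    rw [map_sub, map_smulₛₗ, hv.2] at h1
    simpa using h1
  · have h1 := finrank_perpF_eq H hU (x := ![x]) (by
      intro i
      fin_cases i
      exact hx) (by
      rw [linearIndependent_unique_iff]
      rintro rfl
      simp at hxx)
    rw [Fintype.card_fin] at h1
    exact h1

theorem finrank_p1 {U : Submodule F V} (x : V) : finrank F U ≤ finrank F (p1 h U x) + 1 := by
  have h1 := finrank_perpF_ge h U ![x]
  rw [Fintype.card_fin] at h1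
  exact h1

theorem finrank_p2 {U : Submodule F V} (x y : V) : finrank F U ≤ finrank F (p2 h U x y) + 2 := by
  have h1 := finrank_perpF_ge h U ![x, y]
  rw [Fintype.card_fin] at h1
  exact h1

/-- a hyperbolic pair -/
theorem exists_hyp {U : Submodule F V} (hU : ND h U) (hd : 2 ≤ finrank F U) :
    ∃ e ∈ U, ∃ f ∈ U, h e e = 0 ∧ h f f = 0 ∧ h e f = 1 := by
  obtain ⟨e, he, he0, hee⟩ := exists_iso H hd
  obtain ⟨y, hy, hey⟩ : ∃ y ∈ U, h e y ≠ 0 := by
    by_contra hcon
    push Not at hcon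
    exact he0 (hU e he hcon)
  obtain ⟨f, hf, hff, hef⟩ := hyp_of H he hee hy hey
  exact ⟨e, he, f, hf, hee, hff, hef⟩

theorem ne_of_hyp {e f : V} (hef : h e f = 1) : e ≠ 0 ∧ f ≠ 0 := by
  constructor
  · rintro rfl
    simp at hef
  · rintro rfl
    simp at hef

/-- a partner orthogonal to an orthogonal anisotropic vector -/
theorem partner_ani {v x : V} (hv0 : v ≠ 0) (hv : h v v = 0) (hvx : h v x = 0) (hxx : h x x ≠ 0) :
    ∃ v', h v' v' = 0 ∧ h v v' = 1 ∧ h v' x = 0 := by
  obtain ⟨hU, -⟩ := nd_ani H (nd_top H) (x := x) trivial hxx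
  have hvU : v ∈ p1 h ⊤ x := mem_p1.2 ⟨trivial, hvx⟩
  obtain ⟨y, hy, hey⟩ : ∃ y ∈ p1 h ⊤ x, h v y ≠ 0 := by
    by_contra hcon
    push Not at hcon
    exact hv0 (hU v hvU hcon)
  obtain ⟨f, hf, hff, hef⟩ := hyp_of H hvU hv hy hey
  exact ⟨f, hff, hef, (mem_p1.1 hf).2⟩

/-- a frame adapted to an isotropic and an orthogonal anisotropic vector -/
theorem frame_ani (hn : 5 ≤ finrank F V) {v x : V} (hv0 : v ≠ 0) (hv : h v v = 0) (hvx : h v x = 0)
    (hxx : h x x ≠ 0) : ∃ v' U, h v' v' = 0 ∧ h v v' = 1 ∧ h v' x = 0 ∧ ND h U ∧ finrank F V = finrank F U + 3 ∧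
      (∀ w, w ∈ U ↔ h w v = 0 ∧ h w v' = 0 ∧ h w x = 0) := by
  obtain ⟨v', h1, h2, h3⟩ := partner_ani H hv0 hv hvx hxx
  obtain ⟨k1, k2⟩ := nd_ani H (nd_top H) (x := x) trivial hxx
  obtain ⟨k3, k4⟩ := nd_hyp H k1 (e := v) (f := v') (mem_p1.2 ⟨trivial, hvx⟩) (mem_p1.2 ⟨trivial, h3⟩) hv h1 h2
  refine ⟨v', _, h1, h2, h3, k3, ?_, ?_⟩
  · rw [finrank_top] at k2
    omega
  · intro w
    rw [mem_p2, mem_p1]
    constructor
    · rintro ⟨⟨-, a⟩, b, c⟩
      exact ⟨b, c, a⟩
    · rintro ⟨b, c, a⟩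
      exact ⟨⟨trivial, a⟩, b, c⟩

/-- vectors orthogonal to `v^⊥` -/
theorem mem_span_of_perp {v x : V} (hx : ∀ w, h w v = 0 → h x w = 0) : x ∈ Submodule.span F ({v} : Set V) := by
  by_contra hcon
  obtain ⟨z, -, hz, hzx⟩ := exists_perp_ne H (nd_top H) (W := Submodule.span F {v}) le_top (y := x) trivial hcon
  have h1 := H.symm_zero (hx z (hz v (Submodule.mem_span_singleton_self v)))
  rw [hzx] at h1
  exact one_ne_zero h1

theorem mem_span_of_perp2 {v y x : V} (hx : ∀ w, h w v = 0 → h w y = 0 → h x w = 0) :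
    x ∈ Submodule.span F ({v, y} : Set V) := by
  by_contra hcon
  obtain ⟨z, -, hz, hzx⟩ := exists_perp_ne H (nd_top H) (W := Submodule.span F {v, y}) le_top (y := x) trivial hcon
  have h1 := H.symm_zero (hx z (hz v (Submodule.subset_span (by simp))) (hz y (Submodule.subset_span (by simp))))
  rw [hzx] at h1
  exact one_ne_zero h1

/-- moving isotropic vectors which are not orthogonal -/
theorem move1 (hn : 5 ≤ finrank F V) {G : Subgroup (V ≃ₗ[F] V)} (hG : ∀ v w a, Good h v w a → sieg h v w a ∈ G)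
    {v e e' : V} (hee : h e e = 0) (hee' : h e' e' = 0) (hve : h v e = 0) (hve' : h v e' = 0) (hs : h e e' ≠ 0) :
    ∃ g ∈ G, g v = v ∧ g e = e' := by
  set s := h e e' with hsd
  have hs' : h e' e = -σ s := H.skew e e'
  have hσs : σ s ≠ 0 := fun h0 => hs (H.inj h0)
  -- the partner
  have hef : h e ((σ s)⁻¹ • e') = 1 := scale_one H hs
  obtain ⟨k1, k2⟩ := nd_hyp H (nd_top H) (e := e) (f := (σ s)⁻¹ • e') trivial trivial hee (smul_iso H hee' _) hef
  rw [finrank_top] at k2
  have k3 := finrank_p1 (h := h) H (U := p2 h ⊤ e ((σ s)⁻¹ • e')) v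
  obtain ⟨k, hk, hkk⟩ := exists_value H k1 (X := p1 h (p2 h ⊤ e ((σ s)⁻¹ • e')) v) (fun w hw => (mem_p1.1 hw).1)
    (by omega) (s := -(s - σ s)) (by rw [map_neg, map_sub, H.inv]; ring)
  rw [mem_p1, mem_p2] at hk
  obtain ⟨⟨-, hke, hkf⟩, hkv⟩ := hk
  have hke' : h k e' = 0 := by
    rw [map_smulₛₗ, smul_eq_mul] at hkf
    refine (mul_eq_zero.1 hkf).resolve_left ?_
    rw [map_inv₀, H.inv]
    exact inv_ne_zero hs
  have hek : h e k = 0 := H.symm_zero hke
  have hek' : h e' k = 0 := H.symm_zero hke'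
  set z := (-(σ s) * s⁻¹) • e + e' + k with hz
  have hzz : h z z = 0 := by
    rw [hz]
    simp only [map_add, LinearMap.add_apply, map_smul, LinearMap.smul_apply, map_smulₛₗ, smul_eq_mul,
      hee, hee', ← hsd, hs', hke, hke', hek, hek', hkk, map_mul, map_neg, map_inv₀, H.inv]
    field_simp
    ring
  have hez : h e z = s := by
    rw [hz]
    simp only [map_add, map_smulₛₗ, smul_eq_mul, hee, hek, ← hsd]
    ring
  have hez' : h e' z = s := by
    rw [hz]
    simp only [map_add, map_smulₛₗ, smul_eq_mul, hee', hek', hs', map_mul, map_neg, map_inv₀, H.inv]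
    field_simp
    ring
  have hvz : h v z = 0 := by
    rw [hz]
    simp only [map_add, map_smulₛₗ, smul_eq_mul, hve, hve', H.symm_zero hkv]
    ring
  set z' := (σ s)⁻¹ • z with hz'
  have hzz' : h z' z' = 0 := smul_iso H hzz _
  have h1 : h e z' = 1 := by rw [hz', map_smulₛₗ, map_inv₀, H.inv, hez, smul_eq_mul, inv_mul_cancel₀ hs]
  have h2 : h e' z' = 1 := by rw [hz', map_smulₛₗ, map_inv₀, H.inv, hez', smul_eq_mul, inv_mul_cancel₀ hs]
  obtain ⟨hg, hm⟩ := sieg_move' H hzz' (hee.trans hee'.symm) h1 h2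
  refine ⟨_, hG _ _ _ hg, ?_, hm⟩
  apply sieg_fix H hg
  · rw [hz', map_smulₛₗ, hvz, smul_zero]
  · rw [map_sub, hve, hve', sub_zero]

/-- a hyperbolic pair containing `v`, and its orthogonal space -/
theorem frame_v {v : V} (hv0 : v ≠ 0) (hv : h v v = 0) : ∃ v' U, h v' v' = 0 ∧ h v v' = 1 ∧ ND h U ∧
    finrank F V = finrank F U + 2 ∧ (∀ w, w ∈ U ↔ h w v = 0 ∧ h w v' = 0) := by
  obtain ⟨v', h1, h2⟩ := H6.SUGenB.exists_partner H hv0 hv
  obtain ⟨k3, k4⟩ := nd_hyp H (nd_top H) (e := v) (f := v') trivial trivial hv h1 h2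
  refine ⟨v', _, h1, h2, k3, ?_, ?_⟩
  · rwa [finrank_top] at k4
  · intro w
    rw [mem_p2]
    exact ⟨fun h => h.2, fun h => ⟨trivial, h⟩⟩

/-- transitivity of the stabiliser of an isotropic vector on isotropic vectors -/
theorem trans_iso_perp (hn : 5 ≤ finrank F V) {G : Subgroup (V ≃ₗ[F] V)}
    (hG : ∀ v w a, Good h v w a → sieg h v w a ∈ G) {v e e' : V} (hv0 : v ≠ 0) (hv : h v v = 0)
    (hee : h e e = 0) (hee' : h e' e' = 0) (hve : h v e = 0) (hve' : h v e' = 0)
    (hen : e ∉ Submodule.span F ({v} : Set V)) (hen' : e' ∉ Submodule.span F ({v} : Set V)) :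
    ∃ g ∈ G, g v = v ∧ g e = e' := by
  obtain ⟨v', U, hvp, hvv', hU, -, hUm⟩ := frame_v H hv0 hv
  have hv'v : h v' v = -1 := hfe H hvv'
  have proj : ∀ e, h e e = 0 → h v e = 0 → e ∉ Submodule.span F ({v} : Set V) →
      e - h e v' • v ∈ U ∧ e - h e v' • v ≠ 0 ∧ h (e - h e v' • v) (e - h e v' • v) = 0 := by
    intro e hee hve hen
    have hev : h e v = 0 := H.symm_zero hve
    refine ⟨?_, ?_, ?_⟩
    · rw [hUm]
      simp only [map_sub, LinearMap.sub_apply, map_smul, LinearMap.smul_apply, smul_eq_mul, hev, hv, hvv']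
      constructor <;> ring
    · intro h0
      apply hen
      rw [Submodule.mem_span_singleton]
      exact ⟨h e v', (sub_eq_zero.1 h0).symm⟩
    · simp only [map_sub, LinearMap.sub_apply, map_smul, LinearMap.smul_apply, smul_eq_mul, hev, hv, hve, hee,
        map_smulₛₗ]
      ring
  obtain ⟨a1, a2, a3⟩ := proj e hee hve hen
  obtain ⟨b1, b2, b3⟩ := proj e' hee' hve' hen'
  obtain ⟨z, hz, hzz, hz1, hz2⟩ := iso_conn H hU a1 b1 a2 b2 a3 b3
  have hzv := (hUm z).1 hz
  have hvz : h v z = 0 := H.symm_zero hzv.1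
  have c1 : h e z ≠ 0 := by
    intro h0
    apply hz1
    rw [map_sub, LinearMap.sub_apply, map_smul, LinearMap.smul_apply, hvz, h0]
    simp
  have c2 : h z e' ≠ 0 := by
    intro h0
    apply hz2
    rw [map_sub, LinearMap.sub_apply, map_smul, LinearMap.smul_apply, hvz, H.symm_zero h0]
    simp
  obtain ⟨g1, hg1, hg1v, hg1e⟩ := move1 H hn hG hee hzz hve hvz c1
  obtain ⟨g2, hg2, hg2v, hg2e⟩ := move1 H hn hG hzz hee' hvz hve' c2
  refine ⟨g2 * g1, G.mul_mem hg2 hg1, ?_, ?_⟩
  · rw [LinearEquiv.mul_apply, hg1v, hg2v]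
  · rw [LinearEquiv.mul_apply, hg1e, hg2e]

/-- an isotropic vector of `v^⊥` not orthogonal to a vector outside of `⟨v⟩` -/
theorem exists_iso_v (hn : 5 ≤ finrank F V) {v x : V} (hv0 : v ≠ 0) (hv : h v v = 0)
    (hx : x ∉ Submodule.span F ({v} : Set V)) : ∃ e, h e v = 0 ∧ h e e = 0 ∧ h x e = 1 := by
  obtain ⟨v', U, hvp, hvv', hU, hd, hUm⟩ := frame_v H hv0 hv
  obtain ⟨e, he, f, hf, hee, hff, hef⟩ := exists_hyp H hU (by omega)
  obtain ⟨y, hy, hxy⟩ : ∃ y, h y v = 0 ∧ h x y ≠ 0 := by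
    by_contra hcon
    push Not at hcon
    exact hx (mem_span_of_perp H hcon)
  obtain ⟨u, hu, huu, hxu⟩ := tlem H (S := p1 h ⊤ v) (mem_p1.2 ⟨trivial, ((hUm e).1 he).1⟩)
    (mem_p1.2 ⟨trivial, ((hUm f).1 hf).1⟩) hee hff hef (mem_p1.2 ⟨trivial, hy⟩) hxy
  exact ⟨u, (mem_p1.1 hu).2, huu, hxu⟩

/-- transitivity of the stabiliser of an isotropic vector -/
theorem trans_perp (hn : 5 ≤ finrank F V) {G : Subgroup (V ≃ₗ[F] V)}
    (hG : ∀ v w a, Good h v w a → sieg h v w a ∈ G) (hGI : G ≤ isom h) {v x y : V} (hv0 : v ≠ 0) (hv : h v v = 0)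
    (hxy : h x x = h y y) (hvx : h v x = 0) (hvy : h v y = 0)
    (hxn : x ∉ Submodule.span F ({v} : Set V)) (hyn : y ∉ Submodule.span F ({v} : Set V)) :
    ∃ g ∈ G, g v = v ∧ g x = y := by
  obtain ⟨e, hev, hee, hxe⟩ := exists_iso_v H hn hv0 hv hxn
  obtain ⟨e', hev', hee', hye'⟩ := exists_iso_v H hn hv0 hv hyn
  have hns : ∀ x e, h v x = 0 → h x e = 1 → e ∉ Submodule.span F ({v} : Set V) := by
    intro x e hvx hxe h0
    obtain ⟨c, rfl⟩ := Submodule.mem_span_singleton.1 h0
    rw [map_smulₛₗ, H.symm_zero hvx, smul_zero] at hxe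
    exact zero_ne_one hxe
  obtain ⟨g, hg, hgv, hge⟩ := trans_iso_perp H hn hG hv0 hv hee' hee (H.symm_zero hev') (H.symm_zero hev)
    (hns y e' hvy hye') (hns x e hvx hxe)
  have hgi := hGI hg
  have h1 : h (g y) e = 1 := by rw [← hge, hgi, hye']
  obtain ⟨hgd, hm⟩ := sieg_move' H (e := e) (x := x) (y := g y) hee (by rw [hgi, hxy]) hxe h1
  have h2 : h v (g y) = 0 := by rw [← hgv, hgi, hvy]
  have h3 : sieg h e (g y - x) (h x x - h x (g y)) v = v := by
    apply sieg_fix H hgd
    · exact H.symm_zero hev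
    · rw [map_sub, h2, hvx, sub_zero]
  refine ⟨g⁻¹ * sieg h e (g y - x) (h x x - h x (g y)), G.mul_mem (G.inv_mem hg) (hG _ _ _ hgd), ?_, ?_⟩
  · rw [LinearEquiv.mul_apply, h3]
    apply g.injective
    rw [hgv]
    exact g.apply_symm_apply v
  · rw [LinearEquiv.mul_apply, hm]
    exact g.symm_apply_apply y

end basic

end H41.UnA
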