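import Mathlib
import Cfsg.Agent.Lib.H41.UnA

/-! Special elements of the unitary groups. -/

set_option autoImplicit false
set_option linter.unusedSectionVars false

namespace H41.UnA2

open Module H95.UBasic H95.UPar H95.UPair H57.Polar H41.UnA

variable {F V : Type*} [Field F] [AddCommGroup V] [Module F V] {σ : F →+* F}
variable {h : V →ₗ[F] V →ₛₗ[σ] F} [FiniteDimensional F V]

theorem sieg_mem_SU [Finite F] (H : IsSkew h) (hn : 1 ≤ finrank F V) (v w : V) (a : F) : sieg h v w a ∈ SU h := by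
  obtain ⟨p, hp⟩ := CharP.exists F
  have hpp : Fact p.Prime := ⟨CharP.char_is_prime F p⟩
  haveI : Nontrivial V := Module.nontrivial_of_finrank_pos (R := F) (by omega)
  refine ⟨sieg_isom (H57.PolarSU.toSk H) v w a, ?_⟩
  have h1 : (LinearEquiv.det (sieg h v w a)) ^ p ^ 3 = 1 := by
    rw [← map_pow, H57.Polar3.sieg_pow p, map_one]
  change LinearEquiv.det (sieg h v w a) = 1
  rw [← Units.val_inj] at h1 ⊢
  rw [Units.val_pow_eq_pow_val, Units.val_one] at h1
  have h2 : ((LinearEquiv.det (sieg h v w a) : Fˣ) - 1 : F) ^ p ^ 3 = 0 := by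
    rw [sub_pow_char_pow, h1, one_pow, sub_self]
  rw [Units.val_one]
  exact sub_eq_zero.1 (pow_eq_zero_iff (pow_ne_zero _ hpp.out.ne_zero) |>.1 h2)

/-- a quasireflection -/
theorem qref (H : IsSkew h) {y : V} (hy : h y y ≠ 0) {ε : F} (hε : ε * σ ε = 1) :
    ∃ g ∈ isom h, g y = ε • y ∧ (∀ w, h w y = 0 → g w = w) ∧ ((LinearEquiv.det g : Fˣ) : F) = ε := by
  have hs := H.self y
  have hε0 : ε ≠ 0 := by
    rintro rfl
    simp at hε
  have hσε : σ ε = ε⁻¹ := eq_inv_of_mul_eq_one_right hε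
  have hg : σ ((ε - 1) * (h y y)⁻¹) + ((ε - 1) * (h y y)⁻¹) * σ ((ε - 1) * (h y y)⁻¹) * h y y
      = (ε - 1) * (h y y)⁻¹ := by
    rw [map_mul, map_sub, map_one, map_inv₀, hs, hσε]
    field_simp
    ring
  refine ⟨rf h y ((ε - 1) * (h y y)⁻¹), rf_mem H _ _, ?_, ?_, ?_⟩
  · rw [rf_apply hg, mul_assoc, inv_mul_cancel₀ hy]
    module
  · intro w hw
    rw [rf_apply hg, hw]
    simp
  · rw [rf_det hg, mul_assoc, inv_mul_cancel₀ hy]
    ring

/-- an isometry of a hyperbolic plane scaling `u` -/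
theorem plane (H : IsSkew h) {u u' : V} (huu : h u u = 0) (hu'u' : h u' u' = 0) (huu' : h u u' = 1) {β : F}
    (hβ : β ≠ 0) : ∃ g ∈ isom h, g u = β • u ∧ (∀ w, h w u = 0 → h w u' = 0 → g w = w) ∧
      ((LinearEquiv.det g : Fˣ) : F) = β * (σ β)⁻¹ := by
  have hu'u := hfe H huu'
  have key : ∀ κ : F, κ ≠ 0 → ∃ g ∈ isom h, g u = κ • u' ∧ (∀ w, h w u = 0 → h w u' = 0 → g w = w) ∧
      ((LinearEquiv.det g : Fˣ) : F) = κ * (σ κ)⁻¹ := by
    intro κ hκ
    have hσκ : σ κ ≠ 0 := fun h0 => hκ (H.inj h0)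
    set y := u - κ • u' with hy
    have hyy : h y y = κ - σ κ := by
      rw [hy]
      simp only [map_sub, LinearMap.sub_apply, map_smul, LinearMap.smul_apply, map_smulₛₗ, smul_eq_mul, huu, hu'u',
        huu', hu'u]
      ring
    have hg : σ ((σ κ)⁻¹) + (σ κ)⁻¹ * σ ((σ κ)⁻¹) * h y y = (σ κ)⁻¹ := by
      rw [hyy, map_inv₀, H.inv]
      field_simp
      ring
    have huy : h u y = - σ κ := by
      rw [hy]
      simp only [map_sub, map_smulₛₗ, smul_eq_mul, huu, huu']
      ring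
    refine ⟨rf h y ((σ κ)⁻¹), rf_mem H _ _, ?_, ?_, ?_⟩
    · rw [rf_apply hg, huy, mul_neg, inv_mul_cancel₀ hσκ, hy]
      module
    · intro w h1 h2
      have h3 : h w y = 0 := by
        rw [hy]
        simp only [map_sub, map_smulₛₗ, smul_eq_mul, h1, h2]
        ring
      rw [rf_apply hg, h3]
      simp
    · rw [rf_det hg, hyy]
      field_simp
      ring
  obtain ⟨g1, hg1, a1, b1, c1⟩ := key 1 one_ne_zero
  obtain ⟨g2, hg2, a2, b2, c2⟩ := key β hβ
  rw [one_smul] at a1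
  refine ⟨g1⁻¹ * g2, (isom h).mul_mem ((isom h).inv_mem hg1) hg2, ?_, ?_, ?_⟩
  · rw [LinearEquiv.mul_apply, a2, ← a1, map_smul]
    congr 1
    exact g1.symm_apply_apply u
  · intro w h1 h2
    rw [LinearEquiv.mul_apply, b2 w h1 h2]
    apply g1.injective
    rw [b1 w h1 h2]
    exact g1.apply_symm_apply w
  · rw [map_mul, map_inv, Units.val_mul, Units.val_inv_eq_inv_val, c1, c2]
    simp

/-- the scalar `β` of norm one on a hyperbolic plane -/
theorem plane2 (H : IsSkew h) {u u' : V} (huu : h u u = 0) (hu'u' : h u' u' = 0) (huu' : h u u' = 1) {β : F}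
    (hβ : β * σ β = 1) : ∃ g ∈ isom h, g u = β • u ∧ g u' = β • u' ∧ (∀ w, h w u = 0 → h w u' = 0 → g w = w) ∧
      ((LinearEquiv.det g : Fˣ) : F) = β * β := by
  have hu'u := hfe H huu'
  obtain ⟨κ, hκ⟩ := H.ne
  have e0 : κ - σ κ ≠ 0 := fun h0 => hκ (sub_eq_zero.1 h0).symm
  set y := u + κ • u' with hy
  set z := u + (σ κ) • u' with hz
  have hyy : h y y = σ κ - κ := by
    rw [hy]
    simp only [map_add, LinearMap.add_apply, map_smul, LinearMap.smul_apply, map_smulₛₗ, smul_eq_mul, huu, hu'u',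
      huu', hu'u]
    ring
  have hzz : h z z = κ - σ κ := by
    rw [hz]
    simp only [map_add, LinearMap.add_apply, map_smul, LinearMap.smul_apply, map_smulₛₗ, smul_eq_mul, huu, hu'u',
      huu', hu'u, H.inv]
    ring
  have hyz : h y z = 0 := by
    rw [hy, hz]
    simp only [map_add, LinearMap.add_apply, map_smul, LinearMap.smul_apply, map_smulₛₗ, smul_eq_mul, huu, hu'u',
      huu', hu'u, H.inv]
    ring
  obtain ⟨g1, hg1, a1, b1, c1⟩ := qref H (y := y) (by rw [hyy]; intro h0; exact e0 (by linear_combination -h0)) hβ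
  obtain ⟨g2, hg2, a2, b2, c2⟩ := qref H (y := z) (by rw [hzz]; exact e0) hβ
  have d1 : (g1 * g2) y = β • y := by
    rw [LinearEquiv.mul_apply, b2 y hyz, a1]
  have d2 : (g1 * g2) z = β • z := by
    rw [LinearEquiv.mul_apply, a2, map_smul, b1 z (H.symm_zero hyz)]
  have d3 : (g1 * g2) u' = β • u' := by
    have h1 : u' = (κ - σ κ)⁻¹ • (y - z) := by
      rw [hy, hz]
      have : u + κ • u' - (u + (σ κ) • u') = (κ - σ κ) • u' := by module
      rw [this, smul_smul, inv_mul_cancel₀ e0, one_smul]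
    rw [h1, map_smul, map_sub, d1, d2]
    module
  refine ⟨g1 * g2, (isom h).mul_mem hg1 hg2, ?_, d3, ?_, ?_⟩
  · have h1 : u = y - κ • u' := by rw [hy]; module
    rw [h1, map_sub, map_smul, d1, d3]
    module
  · intro w h1 h2
    have e1 : h w y = 0 := by
      rw [hy]
      simp only [map_add, map_smulₛₗ, smul_eq_mul, h1, h2]
      ring
    have e2 : h w z = 0 := by
      rw [hz]
      simp only [map_add, map_smulₛₗ, smul_eq_mul, h1, h2]
      ring
    rw [LinearEquiv.mul_apply, b2 w e2, b1 w e1]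
  · rw [map_mul, Units.val_mul, c1, c2]

/-- a partner of an isotropic vector in the orthogonal of two vectors -/
theorem partner_perp (H : IsSkew h) {v x u : V} (hu : h u u = 0) (huv : h u v = 0) (hux : h u x = 0)
    (hun : u ∉ Submodule.span F ({v, x} : Set V)) : ∃ u', h u' v = 0 ∧ h u' x = 0 ∧ h u' u' = 0 ∧ h u u' = 1 := by
  obtain ⟨z, -, hz, hzu⟩ := exists_perp_ne H (nd_top H) (W := Submodule.span F {v, x}) le_top (y := u) trivial hun
  obtain ⟨u', hu', h1, h2⟩ := hyp_of H (S := p2 h ⊤ v x) (e := u) (y := z) (mem_p2.2 ⟨trivial, huv, hux⟩) hu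
    (mem_p2.2 ⟨trivial, hz v (Submodule.subset_span (by simp)), hz x (Submodule.subset_span (by simp))⟩) (by
      intro h0
      rw [H.symm_zero h0] at hzu
      exact zero_ne_one hzu)
  rw [mem_p2] at hu'
  exact ⟨u', hu'.2.1, hu'.2.2, h1, h2⟩

theorem not_mem_span2 (H : IsSkew h) {v x u : V} (hv : h v v = 0) (hvx : h v x = 0) (hxx : h x x ≠ 0) (hu : h u u = 0)
    (hun : u ∉ Submodule.span F ({v} : Set V)) : u ∉ Submodule.span F ({v, x} : Set V) := by
  intro h0
  obtain ⟨a, b, rfl⟩ := Submodule.mem_span_pair.1 h0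
  have hxv : h x v = 0 := H.symm_zero hvx
  simp only [map_add, LinearMap.add_apply, map_smul, LinearMap.smul_apply, map_smulₛₗ, smul_eq_mul, hv, hvx, hxv,
    mul_zero, zero_add, add_zero] at hu
  apply hun
  have hb : b = 0 := by
    rcases mul_eq_zero.1 hu with h1 | h1
    · exact H.inj h1
    · rcases mul_eq_zero.1 h1 with h2 | h2
      · exact h2
      · exact absurd h2 hxx
  rw [hb, zero_smul, add_zero]
  exact Submodule.smul_mem _ _ (Submodule.mem_span_singleton_self v)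

/-- scaling an isotropic vector, fixing the points `v`, `x` -/
theorem torus (H : IsSkew h) (hn : 5 ≤ finrank F V) {v x u : V} (hv : h v v = 0)
    (hvx : h v x = 0) (hxx : h x x ≠ 0) (hu : h u u = 0) (huv : h u v = 0) (hux : h u x = 0)
    (hun : u ∉ Submodule.span F ({v} : Set V)) {a : F} (ha : σ a = a) (ha0 : a ≠ 0) :
    ∃ g ∈ SU h, ∃ α β : F, α * σ α = 1 ∧ β * σ β = a ∧ g v = α • v ∧ g x = α • x ∧ g u = β • u := by
  have hun2 := not_mem_span2 H hv hvx hxx hu hun
  obtain ⟨u', hu'v, hu'x, hu'u', huu'⟩ := partner_perp H hu huv hux hun2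
  have hvu : h v u = 0 := H.symm_zero huv
  have hvu' : h v u' = 0 := H.symm_zero hu'v
  have hxu : h x u = 0 := H.symm_zero hux
  have hxu' : h x u' = 0 := H.symm_zero hu'x
  obtain ⟨γ, hγ⟩ := H.norm a ha
  have hγ0 : γ ≠ 0 := by
    rintro rfl
    rw [zero_mul] at hγ
    exact ha0 hγ.symm
  have hσγ0 : σ γ ≠ 0 := fun h0 => hγ0 (H.inj h0)
  by_cases h5 : Odd (finrank F V)
  · obtain ⟨k, hk⟩ := h5
    set n := finrank F V with hnd
    set s := (a⁻¹) ^ k with hs
    have hs0 : s ≠ 0 := pow_ne_zero _ (inv_ne_zero ha0)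
    have hσs : σ s = s := by rw [hs, map_pow, map_inv₀, ha]
    set α := σ γ * γ⁻¹ with hα
    have hα0 : α ≠ 0 := mul_ne_zero hσγ0 (inv_ne_zero hγ0)
    have hσα : α * σ α = 1 := by
      rw [hα, map_mul, map_inv₀, H.inv]
      field_simp
    set β := γ ^ n * s with hβ
    have hβ0 : β ≠ 0 := mul_ne_zero (pow_ne_zero _ hγ0) hs0
    obtain ⟨g, hg, g1, g2, g3⟩ := plane H hu hu'u' huu' hβ0
    set A : V ≃ₗ[F] V := LinearEquiv.smulOfNeZero F V α hα0 with hA
    have hAx : ∀ w, A w = α • w := fun w => rfl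
    have hAi : A ∈ isom h := by
      intro x y
      rw [hAx, hAx]
      simp only [map_smul, LinearMap.smul_apply, map_smulₛₗ, smul_eq_mul]
      linear_combination (h x y) * hσα
    have hAd : ((LinearEquiv.det A : Fˣ) : F) = α ^ n := by
      rw [LinearEquiv.coe_det]
      have : (A : V →ₗ[F] V) = α • LinearMap.id := by
        ext w
        rfl
      rw [this, LinearMap.det_smul, LinearMap.det_id, mul_one]
    refine ⟨A * g, ⟨(isom h).mul_mem hAi hg, ?_⟩, α, α * β, hσα, ?_, ?_, ?_, ?_⟩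
    · change LinearEquiv.det (A * g) = 1
      rw [← Units.val_inj, map_mul, Units.val_mul, hAd, g3, Units.val_one, hβ, map_mul, hσs, map_pow, hα, mul_pow,
        inv_pow]
      have e1 : γ ^ n ≠ 0 := pow_ne_zero _ hγ0
      have e2 : σ γ ^ n ≠ 0 := pow_ne_zero _ hσγ0
      field_simp
    · have e1 : α * β * σ (α * β) = (α * σ α) * (β * σ β) := by rw [map_mul]; ring
      rw [e1, hσα, one_mul, hβ, map_mul, hσs, map_pow]
      have e2 : γ ^ n * s * (σ γ ^ n * s) = (γ * σ γ) ^ n * (s * s) := by rw [mul_pow]; ring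
      rw [e2, hγ, hs, ← pow_add, hk, ← two_mul, pow_succ, inv_pow]
      field_simp
    · rw [LinearEquiv.mul_apply, g2 v hvu hvu', hAx]
    · rw [LinearEquiv.mul_apply, g2 x hxu hxu', hAx]
    · rw [LinearEquiv.mul_apply, g1, hAx, smul_smul]
  · -- an anisotropic vector orthogonal to everything
    have h6 : 6 ≤ finrank F V := by
      rcases Nat.eq_or_lt_of_le hn with h1 | h1
      · exfalso
        apply h5
        rw [← h1]
        decide
      · omega
    obtain ⟨k1, k2⟩ := nd_ani H (nd_top H) (x := x) trivial hxx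
    obtain ⟨k3, k4⟩ := nd_hyp H k1 (e := u) (f := u') (mem_p1.2 ⟨trivial, hux⟩) (mem_p1.2 ⟨trivial, hu'x⟩) hu
      hu'u' huu'
    rw [finrank_top] at k2
    have k5 := finrank_p1 (h := h) H (U := p2 h (p1 h ⊤ x) u u') v
    obtain ⟨s0, hs0, hs0'⟩ := exists_skew_ne H
    obtain ⟨y, hy, hyy⟩ := exists_value H k3 (X := p1 h (p2 h (p1 h ⊤ x) u u') v) (fun w hw => (mem_p1.1 hw).1)
      (by omega) (s := s0) hs0
    rw [mem_p1, mem_p2, mem_p1] at hy
    obtain ⟨⟨⟨-, hyx⟩, hyu, hyu'⟩, hyv⟩ := hy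
    obtain ⟨g, hg, g1, g2, g3⟩ := plane H hu hu'u' huu' hγ0
    obtain ⟨r, hr, r1, r2, r3⟩ := qref H (y := y) (by rw [hyy]; exact hs0') (ε := σ γ * γ⁻¹) (by
      rw [map_mul, map_inv₀, H.inv]
      field_simp)
    refine ⟨g * r, ⟨(isom h).mul_mem hg hr, ?_⟩, 1, γ, by simp, hγ, ?_, ?_, ?_⟩
    · change LinearEquiv.det (g * r) = 1
      rw [← Units.val_inj, map_mul, Units.val_mul, g3, r3, Units.val_one]
      field_simp
    · rw [LinearEquiv.mul_apply, r2 v (H.symm_zero hyv), g2 v hvu hvu', one_smul]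
    · rw [LinearEquiv.mul_apply, r2 x (H.symm_zero hyx), g2 x hxu hxu', one_smul]
    · rw [LinearEquiv.mul_apply, r2 u (H.symm_zero hyu), g1]

end H41.UnA2
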