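import Mathlib
import Cfsg.Agent.Lib.H41.UnA2
import Cfsg.Agent.Lib.H41.OrbU

/-! The special unitary group acting on a finite set: the orbits of the root group `Z_v`, the action of `v^⊥` on them,
the stabilisers and their duals. -/

set_option autoImplicit false
set_option linter.unusedSectionVars false

namespace H41.UnB

open Module H95.UBasic H57.Polar H41.UnA H41.UnA2 H41.Dual

variable {F V : Type*} [Field F] [AddCommGroup V] [Module F V] {σ : F →+* F}

/-- the fixed elements -/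
def A0 (σ : F →+* F) : AddSubgroup F where
  carrier := {a | σ a = a}
  zero_mem' := map_zero σ
  add_mem' := by
    intro a b ha hb
    change σ (a + b) = a + b
    rw [map_add, show σ a = a from ha, show σ b = b from hb]
  neg_mem' := by
    intro a ha
    change σ (-a) = -a
    rw [map_neg, show σ a = a from ha]

theorem mem_A0 {a : F} : a ∈ A0 σ ↔ σ a = a := Iff.rfl

/-- standing hypotheses -/
structure Bas (h : V →ₗ[F] V →ₛₗ[σ] F) : Prop where
  H : IsSkew h
  n5 : 5 ≤ finrank F V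

variable {h : V →ₗ[F] V →ₛₗ[σ] F} [FiniteDimensional F V] [Finite F]

/-- the Siegel element -/
noncomputable def E (B : Bas h) (v w : V) (a : F) : SU h :=
  ⟨sieg h v w a, sieg_mem_SU B.H (by have := B.n5; omega) v w a⟩

variable (B : Bas h)

theorem coe_E (v w : V) (a : F) : ((E B v w a : SU h) : V ≃ₗ[F] V) = sieg h v w a := rfl

theorem Bas.sk {h : V →ₗ[F] V →ₛₗ[σ] F} (B : Bas h) : Sk h := H57.PolarSU.toSk B.H

theorem E_bad {v : V} (hv : h v v ≠ 0) (w : V) (a : F) : E B v w a = 1 :=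
  Subtype.ext (sieg_of_not fun hg => hv hg.1)

theorem E_zero (v : V) : E B v 0 0 = 1 := by
  by_cases hv : h v v = 0
  · apply Subtype.ext
    apply LinearEquiv.ext
    intro x
    change sieg h v 0 0 x = x
    rw [sieg_apply (good_tr hv (map_zero σ))]
    simp
  · exact E_bad B hv _ _

theorem E_mul {v w w' : V} {a a' : F} (hv : h v v = 0) (hw : h v w = 0) (hw' : h v w' = 0) (ha : a - σ a = h w w)
    (ha' : a' - σ a' = h w' w') : E B v w a * E B v w' a' = E B v (w + w') (a + a' + h w' w) :=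
  Subtype.ext (sieg_mul B.sk ⟨hv, hw, B.H.symm_zero hw, ha⟩ ⟨hv, hw', B.H.symm_zero hw', ha'⟩)

theorem E_mul0 {v w : V} {a b : F} (hv : h v v = 0) (hw : h v w = 0) (ha : a - σ a = h w w) (hb : σ b = b) :
    E B v 0 b * E B v w a = E B v w (b + a) := by
  rw [E_mul B hv (map_zero _) hw (by rw [hb]; simp) ha]
  simp

theorem E_mul0' {v w : V} {a b : F} (hv : h v v = 0) (hw : h v w = 0) (ha : a - σ a = h w w) (hb : σ b = b) :
    E B v w a * E B v 0 b = E B v w (a + b) := by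
  rw [E_mul B hv hw (map_zero _) ha (by rw [hb]; simp)]
  simp

theorem E_conj (g : SU h) (v w : V) (a : F) :
    g * E B v w a * g⁻¹ = E B ((g : V ≃ₗ[F] V) v) ((g : V ≃ₗ[F] V) w) a :=
  Subtype.ext (sieg_conj (SU_le h g.2) v w a)

theorem E_conj' (g : SU h) (v w : V) (a : F) :
    g * E B v w a = E B ((g : V ≃ₗ[F] V) v) ((g : V ≃ₗ[F] V) w) a * g := by
  rw [← E_conj, inv_mul_cancel_right]

theorem E_smul {v w : V} {a : F} (c : F) (hv : h v v = 0) (hvw : h v w = 0) (ha : a - σ a = h w w) :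
    E B (c • v) w a = E B v (σ c • w) (a * (c * σ c)) :=
  Subtype.ext (sieg_smul B.sk c hv hvw (B.H.symm_zero hvw) ha)

theorem E_shift {v w : V} {a : F} (hv : h v v = 0) (hvw : h v w = 0) (ha : a - σ a = h w w) (c : F) :
    E B v (w + c • v) a = E B v w (a + (c + σ c)) :=
  Subtype.ext (sieg_shift B.sk ⟨hv, hvw, B.H.symm_zero hvw, ha⟩ c)

theorem E_shift0 {v : V} {a : F} (hv : h v v = 0) (ha : σ a = a) (c : F) :
    E B v (c • v) a = E B v 0 (a + (c + σ c)) := by
  have h1 := E_shift B (v := v) (w := 0) (a := a) hv (map_zero _) (by rw [ha]; simp) c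
  rwa [zero_add] at h1

/-- the set `Ω` with the action of `Z_v` -/
def Y (_ : Bas h) (_ : V) (Ω : Type*) : Type _ := Ω

def toY {v : V} {Ω : Type*} (ω : Ω) : Y B v Ω := ω

def ofY {B : Bas h} {v : V} {Ω : Type*} (ω : Y B v Ω) : Ω := ω

variable {Ω : Type*} [MulAction (SU h) Ω]

instance (v : V) [Finite Ω] : Finite (Y B v Ω) := inferInstanceAs (Finite Ω)

theorem E_add0 (v : V) {a b : F} (ha : σ a = a) (hb : σ b = b) : E B v 0 (a + b) = E B v 0 a * E B v 0 b := by
  by_cases hv : h v v = 0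
  · rw [E_mul0 B hv (map_zero _) (by rw [hb]; simp) ha]
  · rw [E_bad B hv, E_bad B hv, E_bad B hv, one_mul]

noncomputable instance actY (v : V) : AddAction (A0 σ) (Y B v Ω) where
  vadd a ω := toY B (E B v 0 a.1 • ofY ω)
  zero_vadd ω := by
    change E B v 0 0 • ofY ω = ofY ω
    rw [E_zero, one_smul]
  add_vadd a b ω := by
    change E B v 0 (a.1 + b.1) • ofY ω = E B v 0 a.1 • E B v 0 b.1 • ofY ω
    rw [← mul_smul, E_add0 B v a.2 b.2]

/-- the stabiliser in `Z_v` -/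
noncomputable def T (v : V) (ω : Ω) : AddSubgroup (A0 σ) := AddAction.stabilizer (A0 σ) (toY B (v := v) ω)

theorem mem_T {v : V} {ω : Ω} {a : A0 σ} : a ∈ T B v ω ↔ E B v 0 a.1 • ω = ω := Iff.rfl

/-- the orbits of `Z_v` -/
abbrev X (v : V) (Ω : Type*) [MulAction (SU h) Ω] := AddAction.orbitRel.Quotient (A0 σ) (Y B v Ω)

/-- the orbit of a point -/
noncomputable def mkX (v : V) (ω : Ω) : X B v Ω := Quotient.mk'' (toY B ω)

theorem mkX_eq {v : V} {ω ω' : Ω} : mkX B v ω = mkX B v ω' ↔ ∃ b : F, σ b = b ∧ E B v 0 b • ω' = ω := by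
  rw [mkX, mkX, Quotient.eq'', AddAction.orbitRel_apply]
  constructor
  · rintro ⟨b, hb⟩
    exact ⟨b.1, b.2, hb⟩
  · rintro ⟨b, hb, hb'⟩
    exact ⟨⟨b, hb⟩, hb'⟩

theorem mkX_surj {v : V} (ξ : X B v Ω) : ∃ ω, mkX B v ω = ξ := ⟨ofY ξ.out, Quotient.out_eq' ξ⟩

/-- an element with prescribed difference -/
noncomputable def ca (w : V) : F := (exists_sub_conj B.H (B.H.self w)).choose

theorem ca_spec (w : V) : ca B w - σ (ca B w) = h w w := (exists_sub_conj B.H (B.H.self w)).choose_spec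

/-- the orthogonal of a vector as an additive subgroup -/
def P (h : V →ₗ[F] V →ₛₗ[σ] F) (v : V) : AddSubgroup V where
  carrier := {w | h v w = 0}
  zero_mem' := map_zero _
  add_mem' := by
    intro a b ha hb
    change h v (a + b) = 0
    rw [map_add, show h v a = 0 from ha, show h v b = 0 from hb, add_zero]
  neg_mem' := by
    intro a ha
    change h v (-a) = 0
    rw [map_neg, show h v a = 0 from ha, neg_zero]

theorem mem_P {v w : V} : w ∈ P h v ↔ h v w = 0 := Iff.rfl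

theorem E_comm0 {v w : V} {a b : F} (hb : σ b = b) : E B v w a * E B v 0 b = E B v 0 b * E B v w a := by
  by_cases hg : Good h v w a
  · rw [E_mul0 B hg.1 hg.2.1 hg.2.2.2 hb, E_mul0' B hg.1 hg.2.1 hg.2.2.2 hb, add_comm]
  · have : E B v w a = 1 := Subtype.ext (sieg_of_not hg)
    rw [this, one_mul, mul_one]

theorem mkX_smul {v w : V} {a : F} {ω ω' : Ω} (h1 : mkX B v ω = mkX B v ω') :
    mkX B v (E B v w a • ω) = mkX B v (E B v w a • ω') := by
  rw [mkX_eq] at h1 ⊢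
  obtain ⟨b, hb, rfl⟩ := h1
  exact ⟨b, hb, by rw [← mul_smul, ← mul_smul, E_comm0 B hb]⟩

theorem mkX_E {v w : V} {a a' : F} (hw : h v w = 0) (ha : a - σ a = h w w) (ha' : a' - σ a' = h w w) (ω : Ω) :
    mkX B v (E B v w a • ω) = mkX B v (E B v w a' • ω) := by
  by_cases hv : h v v = 0
  · rw [mkX_eq]
    have hb : σ (a - a') = a - a' := by rw [map_sub]; linear_combination ha' - ha
    refine ⟨a - a', hb, ?_⟩
    rw [← mul_smul, E_mul0 B hv hw ha' hb, sub_add_cancel]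
  · rw [E_bad B hv, E_bad B hv]

noncomputable instance actX (v : V) : AddAction (P h v) (X B v Ω) where
  vadd w := Quotient.map' (fun ω => toY B (E B v w.1 (ca B w.1) • ofY ω)) (by
    intro ω ω' h1
    have h2 : mkX B v (ofY ω) = mkX B v (ofY ω') := Quotient.sound' h1
    have h3 := mkX_smul B (w := w.1) (a := ca B w.1) h2
    exact Quotient.exact' h3)
  zero_vadd ξ := by
    obtain ⟨ω, rfl⟩ := mkX_surj B ξ
    change mkX B v (E B v 0 (ca B 0) • ω) = mkX B v ω
    rw [mkX_E B (a' := 0) (map_zero _) (ca_spec B 0) (by simp), E_zero, one_smul]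
  add_vadd w w' ξ := by
    obtain ⟨ω, rfl⟩ := mkX_surj B ξ
    change mkX B v (E B v (w.1 + w'.1) (ca B (w.1 + w'.1)) • ω) = mkX B v (E B v w.1 (ca B w.1) • E B v w'.1 (ca B w'.1) • ω)
    by_cases hv : h v v = 0
    · have hw := mem_P.1 w.2
      have hw' := mem_P.1 w'.2
      have g2 := (Good.add B.sk ⟨hv, hw, B.H.symm_zero hw, ca_spec B w.1⟩
        ⟨hv, hw', B.H.symm_zero hw', ca_spec B w'.1⟩).2.2.2
      rw [← mul_smul, E_mul B hv hw hw' (ca_spec B _) (ca_spec B _)]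
      exact mkX_E B (by rw [map_add, hw, hw', add_zero]) (ca_spec B _) g2 ω
    · rw [E_bad B hv, E_bad B hv, E_bad B hv, one_smul, one_smul]

theorem vadd_mkX {v : V} (w : P h v) {a : F} (ha : a - σ a = h w.1 w.1) (ω : Ω) :
    w +ᵥ mkX B v ω = mkX B v (E B v w.1 a • ω) :=
  mkX_E B (mem_P.1 w.2) (ca_spec B w.1) ha ω

/-- the stabiliser in `Z_v` as a function on the orbits -/
noncomputable def TX (v : V) (ξ : X B v Ω) : AddSubgroup (A0 σ) := AddAction.stabilizer (A0 σ) ξ.out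

theorem TX_mk (v : V) (ω : Ω) : TX B v (mkX B v ω) = T B v ω := by
  rw [TX, T, mkX]
  exact OrbChar.stab_out _

theorem T_E (v w : V) (a : F) (ω : Ω) : T B v (E B v w a • ω) = T B v ω := by
  ext b
  rw [mem_T, mem_T, ← mul_smul, ← E_comm0 B b.2, mul_smul]
  exact ⟨fun h1 => MulAction.injective _ h1, fun h1 => by rw [h1]⟩

theorem TX_vadd {v : V} (w : P h v) (ξ : X B v Ω) : TX B v (w +ᵥ ξ) = TX B v ξ := by
  obtain ⟨ω, rfl⟩ := mkX_surj B ξ
  rw [vadd_mkX B w (ca_spec B w.1), TX_mk, TX_mk, T_E]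

/-- the orbits with a prescribed type of stabilisers -/
def XC (v : V) (Ω : Type*) [MulAction (SU h) Ω] (C : AddSubgroup (A0 σ) → Prop) : Type _ :=
  {ξ : X B v Ω // C (TX B v ξ)}

instance (v : V) (C : AddSubgroup (A0 σ) → Prop) [Finite Ω] : Finite (XC B v Ω C) := by
  have : Finite (X B v Ω) := Quotient.finite _
  exact inferInstanceAs (Finite {ξ : X B v Ω // C (TX B v ξ)})

noncomputable instance actXC (v : V) (C : AddSubgroup (A0 σ) → Prop) : AddAction (P h v) (XC B v Ω C) where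
  vadd w ξ := ⟨w +ᵥ ξ.1, by rw [TX_vadd]; exact ξ.2⟩
  zero_vadd ξ := Subtype.ext (zero_vadd (P h v) ξ.1)
  add_vadd w w' ξ := Subtype.ext (add_vadd w w' ξ.1)

theorem val_vadd {v : V} {C : AddSubgroup (A0 σ) → Prop} (w : P h v) (ξ : XC B v Ω C) : (w +ᵥ ξ).1 = w +ᵥ ξ.1 := rfl

/-- a point of `XC` -/
noncomputable def mkC {v : V} {C : AddSubgroup (A0 σ) → Prop} (ω : Ω) (hω : C (T B v ω)) : XC B v Ω C :=
  ⟨mkX B v ω, by rw [TX_mk]; exact hω⟩

theorem mkC_surj {v : V} {C : AddSubgroup (A0 σ) → Prop} (ξ : XC B v Ω C) : ∃ ω, ∃ hω : C (T B v ω), mkC B ω hω = ξ := by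
  obtain ⟨ω, hω⟩ := mkX_surj B ξ.1
  exact ⟨ω, by rw [← TX_mk, hω]; exact ξ.2, Subtype.ext hω⟩

/-- membership in the stabiliser -/
theorem mem_R {v : V} (hv : h v v = 0) {C : AddSubgroup (A0 σ) → Prop} {ω : Ω} {hω : C (T B v ω)} {w : V} :
    w ∈ OrbU.R (P h v) (mkC B ω hω) ↔ h v w = 0 ∧ ∃ a, a - σ a = h w w ∧ E B v w a • ω = ω := by
  rw [OrbU.mem_R]
  constructor
  · rintro ⟨hw, h1⟩
    refine ⟨hw, ?_⟩
    have h2 : (⟨w, hw⟩ : P h v) +ᵥ mkX B v ω = mkX B v ω := congrArg Subtype.val h1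
    rw [vadd_mkX B _ (ca_spec B w)] at h2
    obtain ⟨b, hb, h3⟩ := (mkX_eq B).1 h2.symm
    refine ⟨b + ca B w, ?_, ?_⟩
    · rw [map_add, hb]
      have := ca_spec B w
      linear_combination this
    · rw [← E_mul0 B hv hw (ca_spec B w) hb, mul_smul]
      exact h3
  · rintro ⟨hw, a, ha, h1⟩
    refine ⟨hw, Subtype.ext ?_⟩
    change (⟨w, hw⟩ : P h v) +ᵥ mkX B v ω = mkX B v ω
    rw [vadd_mkX B _ ha, h1]

end H41.UnB
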