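import Mathlib
import Cfsg.Agent.Lib.H41.UnB

/-! Unitary spaces of dimension four: the radical of the stabiliser of a totally isotropic plane, as the space of
hermitian matrices. -/

set_option autoImplicit false
set_option linter.unusedSectionVars false

namespace H41.Uf1

open Module H95.UBasic H95.UPar H95.UPair H57.Polar H41.UnA H41.UnA2 H41.Dual
open H41.UnB (A0 mem_A0)

variable {F V : Type*} [Field F] [AddCommGroup V] [Module F V] {σ : F →+* F}

/-- hermitian matrices of size two -/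
abbrev M (σ : F →+* F) := (A0 σ) × (A0 σ) × F

def mkM (x y z : F) (hx : σ x = x) (hy : σ y = y) : M σ := (⟨x, hx⟩, ⟨y, hy⟩, z)

theorem extM {m m' : M σ} (h1 : m.1.1 = m'.1.1) (h2 : m.2.1.1 = m'.2.1.1) (h3 : m.2.2 = m'.2.2) : m = m' :=
  Prod.ext (Subtype.ext h1) (Prod.ext (Subtype.ext h2) h3)

/-- the determinant -/
def qf (m : M σ) : F := m.1.1 * m.2.1.1 - m.2.2 * σ m.2.2

/-- its polar form -/
def bf (m m' : M σ) : F := m.1.1 * m'.2.1.1 + m.2.1.1 * m'.1.1 - (m.2.2 * σ m'.2.2 + σ m.2.2 * m'.2.2)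

theorem hx (m : M σ) : σ m.1.1 = m.1.1 := m.1.2
theorem hy (m : M σ) : σ m.2.1.1 = m.2.1.1 := m.2.1.2

theorem qf_add (m m' : M σ) : qf (m + m') = qf m + qf m' + bf m m' := by
  simp only [qf, bf, Prod.fst_add, Prod.snd_add, AddSubgroup.coe_add, map_add]
  ring

theorem bf_add (m m' m'' : M σ) : bf m (m' + m'') = bf m m' + bf m m'' := by
  simp only [bf, Prod.fst_add, Prod.snd_add, AddSubgroup.coe_add, map_add]
  ring

theorem bf_comm (m m' : M σ) : bf m m' = bf m' m := by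
  simp only [bf]
  ring

theorem bf_add_left (m m' m'' : M σ) : bf (m + m') m'' = bf m m'' + bf m' m'' := by
  rw [bf_comm, bf_add, bf_comm m'', bf_comm m'']

theorem bf_zero (m : M σ) : bf m 0 = 0 := by simp [bf]

theorem qf_zero : qf (0 : M σ) = 0 := by simp [qf]

theorem qf_fixed (hi : ∀ a, σ (σ a) = a) (m : M σ) : σ (qf m) = qf m := by
  simp only [qf, map_sub, map_mul, hi, hx m, hy m]
  ring

theorem bf_fixed (hi : ∀ a, σ (σ a) = a) (m m' : M σ) : σ (bf m m') = bf m m' := by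
  simp only [bf, map_sub, map_add, map_mul, hi, hx m, hy m, hx m', hy m']
  ring

/-- scalar multiplication -/
def sc (k : F) (hk : σ k = k) (m : M σ) : M σ :=
  mkM (k * m.1.1) (k * m.2.1.1) (k * m.2.2) (by rw [map_mul, hk, hx]) (by rw [map_mul, hk, hy])

theorem bf_sc (k : F) (hk : σ k = k) (m m' : M σ) : bf (sc k hk m) m' = k * bf m m' := by
  simp only [bf, sc, mkM, map_mul, hk]
  ring

theorem qf_sc (k : F) (hk : σ k = k) (m : M σ) : qf (sc k hk m) = k * k * qf m := by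
  simp only [qf, sc, mkM, map_mul, hk]
  ring

/-- the first root elements -/
def t1 (hi : ∀ a, σ (σ a) = a) (r : F) : M σ ≃+ M σ where
  toFun m := mkM (m.1.1 + (m.2.2 * σ r + σ m.2.2 * r) + m.2.1.1 * (r * σ r)) m.2.1.1 (m.2.2 + r * m.2.1.1) (by
    simp only [map_add, map_mul, hi, hx m, hy m]; ring) (hy m)
  invFun m := mkM (m.1.1 - (m.2.2 * σ r + σ m.2.2 * r) + m.2.1.1 * (r * σ r)) m.2.1.1 (m.2.2 - r * m.2.1.1) (by
    simp only [map_add, map_sub, map_mul, hi, hx m, hy m]; ring) (hy m)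
  left_inv m := by
    apply extM
    · simp only [mkM, map_add, map_mul, hy m]; ring
    · rfl
    · simp only [mkM]; ring
  right_inv m := by
    apply extM
    · simp only [mkM, map_sub, map_mul, hy m]; ring
    · rfl
    · simp only [mkM]; ring
  map_add' m m' := by
    apply extM
    · simp only [mkM, Prod.fst_add, Prod.snd_add, AddSubgroup.coe_add, map_add]; ring
    · rfl
    · simp only [mkM, Prod.fst_add, Prod.snd_add, AddSubgroup.coe_add]; ring

/-- the opposite root elements -/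
def t2 (hi : ∀ a, σ (σ a) = a) (r : F) : M σ ≃+ M σ where
  toFun m := mkM m.1.1 (m.2.1.1 + (m.2.2 * r + σ m.2.2 * σ r) + m.1.1 * (r * σ r)) (m.2.2 + σ r * m.1.1) (hx m) (by
    simp only [map_add, map_mul, hi, hx m, hy m]; ring)
  invFun m := mkM m.1.1 (m.2.1.1 - (m.2.2 * r + σ m.2.2 * σ r) + m.1.1 * (r * σ r)) (m.2.2 - σ r * m.1.1) (hx m) (by
    simp only [map_add, map_sub, map_mul, hi, hx m, hy m]; ring)
  left_inv m := by
    apply extM
    · rfl
    · simp only [mkM, map_add, map_mul, hx m, hi]; ring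
    · simp only [mkM]; ring
  right_inv m := by
    apply extM
    · rfl
    · simp only [mkM, map_sub, map_mul, hx m, hi]; ring
    · simp only [mkM]; ring
  map_add' m m' := by
    apply extM
    · rfl
    · simp only [mkM, Prod.fst_add, Prod.snd_add, AddSubgroup.coe_add, map_add]; ring
    · simp only [mkM, Prod.fst_add, Prod.snd_add, AddSubgroup.coe_add]; ring

/-- the torus -/
def t3 (hi : ∀ a, σ (σ a) = a) (a b : F) (ha : a ≠ 0) (hb : b ≠ 0) : M σ ≃+ M σ where
  toFun m := mkM (a * σ a * m.1.1) (b * σ b * m.2.1.1) (a * σ b * m.2.2) (by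
    simp only [map_mul, hi, hx m]; ring) (by simp only [map_mul, hi, hy m]; ring)
  invFun m := mkM ((a * σ a)⁻¹ * m.1.1) ((b * σ b)⁻¹ * m.2.1.1) ((a * σ b)⁻¹ * m.2.2) (by
    rw [map_mul, map_inv₀, map_mul, hi, hx m, mul_comm (σ a)]) (by
    rw [map_mul, map_inv₀, map_mul, hi, hy m, mul_comm (σ b)])
  left_inv m := by
    have hσa : σ a ≠ 0 := fun h => ha (by rw [← hi a, h, map_zero])
    have hσb : σ b ≠ 0 := fun h => hb (by rw [← hi b, h, map_zero])
    apply extM
    · simp only [mkM]; field_simp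
    · simp only [mkM]; field_simp
    · simp only [mkM]; field_simp
  right_inv m := by
    have hσa : σ a ≠ 0 := fun h => ha (by rw [← hi a, h, map_zero])
    have hσb : σ b ≠ 0 := fun h => hb (by rw [← hi b, h, map_zero])
    apply extM
    · simp only [mkM]; field_simp
    · simp only [mkM]; field_simp
    · simp only [mkM]; field_simp
  map_add' m m' := by
    apply extM
    · simp only [mkM, Prod.fst_add, Prod.snd_add, AddSubgroup.coe_add]; ring
    · simp only [mkM, Prod.fst_add, Prod.snd_add, AddSubgroup.coe_add]; ring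
    · simp only [mkM, Prod.fst_add, Prod.snd_add]; ring

theorem qf_t1 (hi : ∀ a, σ (σ a) = a) (r : F) (m : M σ) : qf (t1 hi r m) = qf m := by
  change (m.1.1 + (m.2.2 * σ r + σ m.2.2 * r) + m.2.1.1 * (r * σ r)) * m.2.1.1
    - (m.2.2 + r * m.2.1.1) * σ (m.2.2 + r * m.2.1.1) = _
  simp only [qf, map_add, map_mul, hy m]
  ring

theorem qf_t2 (hi : ∀ a, σ (σ a) = a) (r : F) (m : M σ) : qf (t2 hi r m) = qf m := by
  change m.1.1 * (m.2.1.1 + (m.2.2 * r + σ m.2.2 * σ r) + m.1.1 * (r * σ r))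
    - (m.2.2 + σ r * m.1.1) * σ (m.2.2 + σ r * m.1.1) = _
  simp only [qf, map_add, map_mul, hx m, hi]
  ring

theorem qf_t3 (hi : ∀ a, σ (σ a) = a) (a b : F) (ha : a ≠ 0) (hb : b ≠ 0) (m : M σ) :
    qf (t3 hi a b ha hb m) = (a * σ a) * (b * σ b) * qf m := by
  change (a * σ a * m.1.1) * (b * σ b * m.2.1.1) - (a * σ b * m.2.2) * σ (a * σ b * m.2.2) = _
  simp only [qf, map_mul, hi]
  ring

theorem bf_of_qf {τ : M σ ≃+ M σ} (h : ∀ m, qf (τ m) = qf m) (m m' : M σ) : bf (τ m) (τ m') = bf m m' := by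
  have h1 := h (m + m')
  rw [map_add, qf_add, qf_add, h, h] at h1
  linear_combination h1

/-- standing hypotheses -/
structure B4 (h : V →ₗ[F] V →ₛₗ[σ] F) : Prop where
  H : IsSkew h
  n4 : finrank F V = 4

variable {h : V →ₗ[F] V →ₛₗ[σ] F} [FiniteDimensional F V] [Finite F]

/-- the Siegel element -/
noncomputable def E (B : B4 h) (v w : V) (a : F) : SU h :=
  ⟨sieg h v w a, sieg_mem_SU B.H (by rw [B.n4]; norm_num) v w a⟩

variable (B : B4 h)

theorem B4.sk {h : V →ₗ[F] V →ₛₗ[σ] F} (B : B4 h) : Sk h := H57.PolarSU.toSk B.H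

theorem E_bad {v : V} (hv : h v v ≠ 0) (w : V) (a : F) : E B v w a = 1 :=
  Subtype.ext (sieg_of_not fun hg => hv hg.1)

theorem E_zero (v : V) : E B v 0 0 = 1 := by
  by_cases hv : h v v = 0
  · apply Subtype.ext
    apply LinearEquiv.ext
    intro x
    change sieg h v 0 0 x = x
    rw [sieg_apply (good_tr hv (map_zero σ))]
    simp
  · exact E_bad B hv _ _

theorem E_mul {v w w' : V} {a a' : F} (hv : h v v = 0) (hw : h v w = 0) (hw' : h v w' = 0) (ha : a - σ a = h w w)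
    (ha' : a' - σ a' = h w' w') : E B v w a * E B v w' a' = E B v (w + w') (a + a' + h w' w) :=
  Subtype.ext (sieg_mul B.sk ⟨hv, hw, B.H.symm_zero hw, ha⟩ ⟨hv, hw', B.H.symm_zero hw', ha'⟩)

theorem E_conj (g : SU h) (v w : V) (a : F) :
    g * E B v w a * g⁻¹ = E B ((g : V ≃ₗ[F] V) v) ((g : V ≃ₗ[F] V) w) a :=
  Subtype.ext (sieg_conj (SU_le h g.2) v w a)

theorem E_conj' (g : SU h) (v w : V) (a : F) :
    g * E B v w a = E B ((g : V ≃ₗ[F] V) v) ((g : V ≃ₗ[F] V) w) a * g := by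
  rw [← E_conj, inv_mul_cancel_right]

theorem E_smul {v w : V} {a : F} (c : F) (hv : h v v = 0) (hvw : h v w = 0) (ha : a - σ a = h w w) :
    E B (c • v) w a = E B v (σ c • w) (a * (c * σ c)) :=
  Subtype.ext (sieg_smul B.sk c hv hvw (B.H.symm_zero hvw) ha)

theorem E_shift {v w : V} {a : F} (hv : h v v = 0) (hvw : h v w = 0) (ha : a - σ a = h w w) (c : F) :
    E B v (w + c • v) a = E B v w (a + (c + σ c)) :=
  Subtype.ext (sieg_shift B.sk ⟨hv, hvw, B.H.symm_zero hvw, ha⟩ c)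

theorem E_apply {v w : V} {a : F} (hg : Good h v w a) (u : V) :
    ((E B v w a : SU h) : V ≃ₗ[F] V) u = u + h u v • w + h u w • v + (a * h u v) • v := sieg_apply hg u

/-- a totally isotropic pair -/
structure TI (h : V →ₗ[F] V →ₛₗ[σ] F) (e f : V) : Prop where
  ee : h e e = 0
  ff : h f f = 0
  ef : h e f = 0
  fe : h f e = 0

/-- the elements of the radical -/
noncomputable def A (e f : V) (m : M σ) : SU h := E B e ((σ m.2.2) • f) m.1.1 * E B f 0 m.2.1.1

variable {B}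

theorem A_apply {e f : V} (T : TI h e f) (m : M σ) (u : V) : ((A B e f m : SU h) : V ≃ₗ[F] V) u =
    u + (m.1.1 * h u e + m.2.2 * h u f) • e + (m.2.1.1 * h u f + σ m.2.2 * h u e) • f := by
  have g1 : Good h e ((σ m.2.2) • f) m.1.1 := by
    refine ⟨T.ee, ?_, ?_, ?_⟩
    · rw [map_smulₛₗ, T.ef, smul_zero]
    · rw [map_smul, LinearMap.smul_apply, T.fe, smul_zero]
    · rw [hx m]; simp [T.ff]
  have g2 : Good h f 0 m.2.1.1 := good_tr T.ff (hy m)
  change ((E B e ((σ m.2.2) • f) m.1.1 : SU h) : V ≃ₗ[F] V) (((E B f 0 m.2.1.1 : SU h) : V ≃ₗ[F] V) u) = _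
  rw [E_apply B g2, E_apply B g1]
  simp only [map_add, LinearMap.add_apply, map_smul, LinearMap.smul_apply, map_smulₛₗ, smul_eq_mul, B.H.inv, T.ff, T.fe,
    map_zero, smul_zero, add_zero, zero_smul, mul_zero]
  module

theorem A_e {e f : V} (T : TI h e f) (m : M σ) : ((A B e f m : SU h) : V ≃ₗ[F] V) e = e := by
  rw [A_apply T, T.ee, T.ef]; simp

theorem A_f {e f : V} (T : TI h e f) (m : M σ) : ((A B e f m : SU h) : V ≃ₗ[F] V) f = f := by
  rw [A_apply T, T.ff, T.fe]; simp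

theorem ext_su {g g' : SU h} (hg : ∀ u, (g : V ≃ₗ[F] V) u = (g' : V ≃ₗ[F] V) u) : g = g' :=
  Subtype.ext (LinearEquiv.ext hg)

theorem A_add {e f : V} (T : TI h e f) (m m' : M σ) : A B e f (m + m') = A B e f m * A B e f m' := by
  apply ext_su
  intro u
  change _ = ((A B e f m : SU h) : V ≃ₗ[F] V) (((A B e f m' : SU h) : V ≃ₗ[F] V) u)
  rw [A_apply T m' u, map_add, map_add, map_smul, map_smul, A_e T, A_f T, A_apply T, A_apply T]
  simp only [Prod.fst_add, Prod.snd_add, AddSubgroup.coe_add, map_add]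
  module

theorem A_zero {e f : V} (T : TI h e f) : A B e f 0 = 1 := by
  apply ext_su
  intro u
  rw [A_apply T]
  simp

theorem A_conj {e f : V} (g : SU h) (m : M σ) :
    g * A B e f m = A B ((g : V ≃ₗ[F] V) e) ((g : V ≃ₗ[F] V) f) m * g := by
  rw [A, A, ← mul_assoc, E_conj' B g e, mul_assoc, E_conj' B g f, map_zero, map_smul, mul_assoc]

/-- a hyperbolic frame -/
structure Fr (h : V →ₗ[F] V →ₛₗ[σ] F) (e f e' f' : V) : Prop extends TI h e f where
  e'e' : h e' e' = 0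
  f'f' : h f' f' = 0
  e'f' : h e' f' = 0
  f'e' : h f' e' = 0
  ee' : h e e' = 1
  ff' : h f f' = 1
  ef' : h e f' = 0
  fe' : h f e' = 0
  e'e : h e' e = -1
  f'f : h f' f = -1
  f'e : h f' e = 0
  e'f : h e' f = 0

theorem A_inj {e f e' f' : V} (Φ : Fr h e f e' f') {m m' : M σ} (hm : A B e f m = A B e f m') : m = m' := by
  have h1 : ∀ u v, h (((A B e f m : SU h) : V ≃ₗ[F] V) u) v = h (((A B e f m' : SU h) : V ≃ₗ[F] V) u) v := by
    intro u v; rw [hm]
  apply extM
  · have := h1 e' e'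
    rw [A_apply Φ.toTI, A_apply Φ.toTI] at this
    simp only [map_add, LinearMap.add_apply, map_smul, LinearMap.smul_apply, smul_eq_mul, Φ.e'e', Φ.ee', Φ.fe', Φ.e'e,
      Φ.e'f] at this
    linear_combination -this
  · have := h1 f' f'
    rw [A_apply Φ.toTI, A_apply Φ.toTI] at this
    simp only [map_add, LinearMap.add_apply, map_smul, LinearMap.smul_apply, smul_eq_mul, Φ.f'f', Φ.ff', Φ.ef', Φ.f'f,
      Φ.f'e] at this
    linear_combination -this
  · have := h1 f' e'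
    rw [A_apply Φ.toTI, A_apply Φ.toTI] at this
    simp only [map_add, LinearMap.add_apply, map_smul, LinearMap.smul_apply, smul_eq_mul, Φ.f'e', Φ.fe', Φ.ee', Φ.f'f,
      Φ.f'e] at this
    linear_combination -this

/-- transport data for the radical -/
structure Tp (B : B4 h) (e f : V) where
  g : SU h
  τ : M σ ≃+ M σ
  conj : ∀ m, g * A B e f m = A B e f (τ m) * g

/-- change of basis -/
theorem A_basis1 {e f : V} (T : TI h e f) (r : F) (m : M σ) :
    A B e (f + r • e) m = A B e f (t1 B.H.inv r m) := by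
  have T' : TI h e (f + r • e) := by
    refine ⟨T.ee, ?_, ?_, ?_⟩ <;>
    simp only [map_add, LinearMap.add_apply, map_smul, LinearMap.smul_apply, map_smulₛₗ, smul_eq_mul, T.ee, T.ff, T.ef,
      T.fe, mul_zero, add_zero]
  apply ext_su
  intro u
  rw [A_apply T', A_apply T]
  simp only [t1, mkM, AddEquiv.coe_mk, Equiv.coe_fn_mk, map_add, map_smulₛₗ, smul_eq_mul, map_mul, hy m]
  module

theorem A_basis2 {e f : V} (T : TI h e f) (r : F) (m : M σ) :
    A B (e + r • f) f m = A B e f (t2 B.H.inv r m) := by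
  have T' : TI h (e + r • f) f := by
    refine ⟨?_, T.ff, ?_, ?_⟩ <;>
    simp only [map_add, LinearMap.add_apply, map_smul, LinearMap.smul_apply, map_smulₛₗ, smul_eq_mul, T.ee, T.ff, T.ef,
      T.fe, mul_zero, add_zero]
  apply ext_su
  intro u
  rw [A_apply T', A_apply T]
  simp only [t2, mkM, AddEquiv.coe_mk, Equiv.coe_fn_mk, map_add, map_smulₛₗ, smul_eq_mul, map_mul, hx m, B.H.inv]
  module

theorem A_basis3 {e f : V} (T : TI h e f) (a b : F) (ha : a ≠ 0) (hb : b ≠ 0) (m : M σ) :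
    A B (a • e) (b • f) m = A B e f (t3 B.H.inv a b ha hb m) := by
  have T' : TI h (a • e) (b • f) := by
    refine ⟨?_, ?_, ?_, ?_⟩ <;>
    simp only [map_smul, LinearMap.smul_apply, map_smulₛₗ, smul_eq_mul, T.ee, T.ff, T.ef,
      T.fe, mul_zero]
  apply ext_su
  intro u
  rw [A_apply T', A_apply T]
  simp only [t3, mkM, AddEquiv.coe_mk, Equiv.coe_fn_mk, map_smulₛₗ, smul_eq_mul, map_mul, B.H.inv]
  module

variable (B) in
/-- powers of root elements -/
theorem E_pow {v w : V} (hv : h v v = 0) (hw : h v w = 0) (hww : h w w = 0) (k : ℕ) :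
    E B v w 0 ^ k = E B v ((k : F) • w) 0 := by
  induction k with
  | zero => rw [pow_zero, Nat.cast_zero, zero_smul, E_zero]
  | succ k ih =>
    rw [pow_succ, ih, E_mul B hv (by rw [map_smulₛₗ, hw, smul_zero]) hw (by simp [hww]) (by simp [hww])]
    have e1 : (0 : F) + 0 + h w ((k : F) • w) = 0 := by rw [map_smulₛₗ, hww, smul_zero]; ring
    rw [e1]
    congr 1
    push_cast
    module

theorem isoE {v w : V} {s : F} (hv : h v v = 0) (hvw : h v w = 0) (hwv : h w v = 0) (hww : h w w = 0) :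
    Good h v (s • w) 0 := by
  refine ⟨hv, ?_, ?_, ?_⟩ <;> simp [hvw, hwv, hww]

/-- first root element -/
noncomputable def T1 {e f e' f' : V} (Φ : Fr h e f e' f') (r : F) : Tp B e f where
  g := E B e ((σ r) • f') 0
  τ := t1 B.H.inv r
  conj m := by
    rw [A_conj, ← A_basis1 Φ.toTI]
    have hg : Good h e ((σ r) • f') 0 := isoE Φ.ee Φ.ef' Φ.f'e Φ.f'f'
    have h1 : ((E B e ((σ r) • f') 0 : SU h) : V ≃ₗ[F] V) e = e := by
      rw [E_apply B hg]
      simp [Φ.ee, Φ.ef']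
    have h2 : ((E B e ((σ r) • f') 0 : SU h) : V ≃ₗ[F] V) f = f + r • e := by
      rw [E_apply B hg]
      simp [Φ.fe, Φ.ff', B.H.inv]
    rw [h1, h2]

theorem T1_g {e f e' f' : V} (Φ : Fr h e f e' f') (r : F) : (T1 (B := B) Φ r).g = E B e ((σ r) • f') 0 := rfl
theorem T1_τ {e f e' f' : V} (Φ : Fr h e f e' f') (r : F) : (T1 (B := B) Φ r).τ = t1 B.H.inv r := rfl

/-- second root element -/
noncomputable def T2 {e f e' f' : V} (Φ : Fr h e f e' f') (r : F) : Tp B e f where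
  g := E B f ((σ r) • e') 0
  τ := t2 B.H.inv r
  conj m := by
    rw [A_conj, ← A_basis2 Φ.toTI]
    have hg : Good h f ((σ r) • e') 0 := isoE Φ.ff Φ.fe' Φ.e'f Φ.e'e'
    have h1 : ((E B f ((σ r) • e') 0 : SU h) : V ≃ₗ[F] V) f = f := by
      rw [E_apply B hg]
      simp [Φ.ff, Φ.fe']
    have h2 : ((E B f ((σ r) • e') 0 : SU h) : V ≃ₗ[F] V) e = e + r • f := by
      rw [E_apply B hg]
      simp [Φ.ef, Φ.ee', B.H.inv]
    rw [h1, h2]

theorem T2_g {e f e' f' : V} (Φ : Fr h e f e' f') (r : F) : (T2 (B := B) Φ r).g = E B f ((σ r) • e') 0 := rfl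
theorem T2_τ {e f e' f' : V} (Φ : Fr h e f e' f') (r : F) : (T2 (B := B) Φ r).τ = t2 B.H.inv r := rfl

/-- composition -/
noncomputable def Tp.comp {e f : V} (S T : Tp B e f) : Tp B e f where
  g := S.g * T.g
  τ := T.τ.trans S.τ
  conj m := by
    rw [mul_assoc, T.conj, ← mul_assoc, S.conj, mul_assoc]
    rfl

/-- inverse -/
noncomputable def Tp.symm {e f : V} (S : Tp B e f) : Tp B e f where
  g := S.g⁻¹
  τ := S.τ.symm
  conj m := by
    have h1 := S.conj (S.τ.symm m)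
    rw [S.τ.apply_symm_apply] at h1
    rw [eq_mul_inv_iff_mul_eq, mul_assoc, ← h1, inv_mul_cancel_left]

/-- torus elements -/
theorem exists_T3 {e f e' f' : V} (Φ : Fr h e f e' f') {a b : F} (ha : a ≠ 0) (hb : b ≠ 0)
    (hab : σ (a * b) = a * b) : ∃ T : Tp B e f, T.τ = t3 B.H.inv a b ha hb := by
  obtain ⟨g1, hg1, a1, b1, c1⟩ := plane B.H Φ.ee Φ.e'e' Φ.ee' ha
  obtain ⟨g2, hg2, a2, b2, c2⟩ := plane B.H Φ.ff Φ.f'f' Φ.ff' hb
  have hdet : LinearEquiv.det (g1 * g2) = 1 := by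
    rw [← Units.val_inj, map_mul, Units.val_mul, c1, c2, Units.val_one]
    have hσa : σ a ≠ 0 := fun h0 => ha (B.H.inj h0)
    have hσb : σ b ≠ 0 := fun h0 => hb (B.H.inj h0)
    rw [map_mul] at hab
    field_simp
    linear_combination -hab
  have he : (g1 * g2) e = a • e := by
    rw [LinearEquiv.mul_apply, b2 e Φ.ef Φ.ef', a1]
  have hf : (g1 * g2) f = b • f := by
    rw [LinearEquiv.mul_apply, a2, map_smul, b1 f Φ.fe Φ.fe']
  refine ⟨⟨⟨g1 * g2, (isom h).mul_mem hg1 hg2, hdet⟩, t3 B.H.inv a b ha hb, fun m => ?_⟩, rfl⟩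
  rw [A_conj, ← A_basis3 Φ.toTI]
  change A B ((g1 * g2) e) ((g1 * g2) f) m * _ = _
  rw [he, hf]

/-- existence of frames -/
theorem exists_frame2 {e f : V} (T : TI h e f) (he0 : e ≠ 0) (hfe : f ∉ Submodule.span F ({e} : Set V))
    (H : IsSkew h) : ∃ e' f', Fr h e f e' f' := by
  have hf0 : f ≠ 0 := by
    rintro rfl
    exact hfe (Submodule.zero_mem _)
  have hen : e ∉ Submodule.span F ({f} : Set V) := by
    intro h1
    obtain ⟨c, hc⟩ := Submodule.mem_span_singleton.1 h1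
    have hc0 : c ≠ 0 := by
      rintro rfl
      rw [zero_smul] at hc
      exact he0 hc.symm
    apply hfe
    rw [Submodule.mem_span_singleton]
    refine ⟨c⁻¹, ?_⟩
    rw [← hc, smul_smul, inv_mul_cancel₀ hc0, one_smul]
  obtain ⟨z, -, hz, hze⟩ := exists_perp_ne H (nd_top H) (W := Submodule.span F {f}) le_top (y := e) trivial hen
  have hzf : h z f = 0 := hz f (Submodule.mem_span_singleton_self f)
  obtain ⟨e', he', h1, h2⟩ := hyp_of H (S := p1 h ⊤ f) (e := e) (y := z) (mem_p1.2 ⟨trivial, T.ef⟩) T.ee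
    (mem_p1.2 ⟨trivial, hzf⟩) (by
      intro h0
      have := H.symm_zero h0
      rw [this] at hze
      exact zero_ne_one hze)
  rw [mem_p1] at he'
  obtain ⟨hU, -⟩ := nd_hyp H (nd_top H) (e := e) (f := e') trivial trivial T.ee h1 h2
  have hfU : f ∈ p2 h ⊤ e e' := mem_p2.2 ⟨trivial, T.fe, H.symm_zero he'.2⟩
  obtain ⟨y, hy, hfy⟩ : ∃ y ∈ p2 h ⊤ e e', h f y ≠ 0 := by
    by_contra hcon
    push Not at hcon
    exact hf0 (hU f hfU hcon)
  obtain ⟨f', hf', h3, h4⟩ := hyp_of H (S := p2 h ⊤ e e') hfU T.ff hy hfy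
  rw [mem_p2] at hf'
  exact ⟨e', f', ⟨T, h1, h3, H.symm_zero hf'.2.2, hf'.2.2, h2, h4, H.symm_zero hf'.2.1, H.symm_zero he'.2,
    UnA.hfe H h2, UnA.hfe H h4, hf'.2.1, he'.2⟩⟩

theorem exists_frame1 {e : V} (hee : h e e = 0) (he0 : e ≠ 0) (B : B4 h) : ∃ f e' f', Fr h e f e' f' := by
  obtain ⟨e', h1, h2⟩ := H6.SUGenB.exists_partner B.H he0 hee
  obtain ⟨hU, hd⟩ := nd_hyp B.H (nd_top B.H) (e := e) (f := e') trivial trivial hee h1 h2
  rw [finrank_top, B.n4] at hd
  obtain ⟨f, hf, hf0, hff⟩ := H95.UPair.exists_iso B.H (U := p2 h ⊤ e e') (by omega)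
  rw [mem_p2] at hf
  have hT : TI h e f := ⟨hee, hff, B.H.symm_zero hf.2.1, hf.2.1⟩
  have hfe : f ∉ Submodule.span F ({e} : Set V) := by
    intro h3
    obtain ⟨c, rfl⟩ := Submodule.mem_span_singleton.1 h3
    have h4 := hf.2.2
    rw [map_smul, LinearMap.smul_apply, h2, smul_eq_mul, mul_one] at h4
    apply hf0
    rw [h4, zero_smul]
  obtain ⟨e'', f', Φ⟩ := exists_frame2 hT he0 hfe B.H
  exact ⟨f, e'', f', Φ⟩

end H41.Uf1
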