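import Mathlib
import Cfsg.Agent.Lib.H41.Uf1

/-! Transitivity on hermitian matrices of the same determinant; the action on a finite set. -/

set_option autoImplicit false
set_option linter.unusedSectionVars false

namespace H41.Uf2

open Module H95.UBasic H95.UPar H95.UPair H57.Polar H41.UnA H41.UnA2 H41.Dual H41.Uf1
open H41.UnB (A0 mem_A0)

variable {F V : Type*} [Field F] [AddCommGroup V] [Module F V] {σ : F →+* F}
variable {h : V →ₗ[F] V →ₛₗ[σ] F} [FiniteDimensional F V] [Finite F]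

theorem exists_tr (H : IsSkew h) : ∃ κ : F, κ + σ κ ≠ 0 := by
  by_contra hcon
  push Not at hcon
  obtain ⟨κ, hκ⟩ := H.ne
  have h1 := hcon 1
  rw [map_one] at h1
  have h2 := hcon κ
  apply hκ
  have h3 : κ + κ = 0 := by
    have : κ * (1 + 1) = 0 := by rw [h1, mul_zero]
    linear_combination this
  linear_combination h2 - h3

theorem exists_tr' (H : IsSkew h) {z : F} (hz : z ≠ 0) : ∃ r : F, z * σ r + σ z * r ≠ 0 := by
  obtain ⟨κ, hκ⟩ := exists_tr H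
  have hσz : σ z ≠ 0 := fun h0 => hz (H.inj h0)
  refine ⟨σ κ / σ z, ?_⟩
  have h1 : z * σ (σ κ / σ z) + σ z * (σ κ / σ z) = κ + σ κ := by
    rw [map_div₀, H.inv, H.inv]
    field_simp
  rwa [h1]

variable {B : B4 h} {e f e' f' : V}

theorem Tp.qf_comp {S T : Tp B e f} (hS : ∀ m, qf (S.τ m) = qf m) (hT : ∀ m, qf (T.τ m) = qf m) (m : M σ) :
    qf ((S.comp T).τ m) = qf m := by
  change qf (S.τ (T.τ m)) = _
  rw [hS, hT]

theorem Tp.qf_symm {S : Tp B e f} (hS : ∀ m, qf (S.τ m) = qf m) (m : M σ) : qf (S.symm.τ m) = qf m := by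
  change qf (S.τ.symm m) = _
  rw [← hS, S.τ.apply_symm_apply]

/-- first normal form -/
theorem nf1 (Φ : Fr h e f e' f') {m : M σ} (hm : m.2.1.1 ≠ 0) :
    ∃ T : Tp B e f, (∀ m, qf (T.τ m) = qf m) ∧ T.τ m = mkM (qf m) 1 0 (qf_fixed B.H.inv m) (map_one σ) := by
  set r := -m.2.2 / m.2.1.1 with hr
  obtain ⟨a, ha⟩ := B.H.norm m.2.1.1 (hy m)
  have ha0 : a ≠ 0 := by
    rintro rfl
    rw [zero_mul] at ha
    exact hm ha.symm
  obtain ⟨S, hS⟩ := exists_T3 (B := B) Φ ha0 (inv_ne_zero ha0) (by rw [mul_inv_cancel₀ ha0, map_one])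
  refine ⟨S.comp (T1 Φ r), ?_, ?_⟩
  · apply Tp.qf_comp
    · intro m
      have hσa : σ a ≠ 0 := fun h0 => ha0 (B.H.inj h0)
      rw [hS, qf_t3, map_inv₀]
      field_simp
    · intro m
      rw [T1_τ, qf_t1]
  · change S.τ ((T1 Φ r).τ m) = _
    rw [hS, T1_τ]
    have h1 : (t1 B.H.inv r m).2.2 = 0 := by
      change m.2.2 + r * m.2.1.1 = 0
      rw [hr, div_mul_cancel₀ _ hm]
      ring
    have h2 : (t1 B.H.inv r m).2.1.1 = m.2.1.1 := rfl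
    have h3 : (t1 B.H.inv r m).1.1 * m.2.1.1 = qf m := by
      rw [← qf_t1 B.H.inv r m, qf, h1, h2]
      ring
    have hσa : σ a ≠ 0 := fun h0 => ha0 (B.H.inj h0)
    apply extM
    · change a * σ a * (t1 B.H.inv r m).1.1 = qf m
      rw [ha, ← h3, mul_comm]
    · change a⁻¹ * σ a⁻¹ * (t1 B.H.inv r m).2.1.1 = 1
      rw [h2, ← ha, map_inv₀]
      field_simp
    · change a * σ a⁻¹ * (t1 B.H.inv r m).2.2 = 0
      rw [h1, mul_zero]

theorem nf2 (Φ : Fr h e f e' f') {m : M σ} (hm : m.1.1 ≠ 0) :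
    ∃ T : Tp B e f, (∀ m, qf (T.τ m) = qf m) ∧ T.τ m = mkM (qf m) 1 0 (qf_fixed B.H.inv m) (map_one σ) := by
  by_cases hy0 : m.2.1.1 = 0
  · have key : ∃ r, (m.2.1.1 + (m.2.2 * r + σ m.2.2 * σ r) + m.1.1 * (r * σ r)) ≠ 0 := by
      by_cases hz : m.2.2 = 0
      · refine ⟨1, ?_⟩
        rw [hy0, hz, map_zero, map_one]
        simpa using hm
      · have hσz : σ m.2.2 ≠ 0 := fun h0 => hz (B.H.inj h0)
        refine ⟨-σ m.2.2 / m.1.1, ?_⟩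
        rw [hy0, map_div₀, map_neg, B.H.inv, hx m]
        have : 0 + (m.2.2 * (-σ m.2.2 / m.1.1) + σ m.2.2 * (-m.2.2 / m.1.1)) + m.1.1 * (-σ m.2.2 / m.1.1 * (-m.2.2 / m.1.1))
          = -(m.2.2 * σ m.2.2) / m.1.1 := by
          field_simp
          ring
        rw [this]
        exact div_ne_zero (neg_ne_zero.2 (mul_ne_zero hz hσz)) hm
    obtain ⟨r, hr⟩ := key
    obtain ⟨S, hS1, hS2⟩ := nf1 (B := B) Φ (m := t2 B.H.inv r m) hr
    refine ⟨S.comp (T2 Φ r), Tp.qf_comp hS1 (fun m => by rw [T2_τ, qf_t2]), ?_⟩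
    change S.τ ((T2 Φ r).τ m) = _
    rw [T2_τ, hS2]
    apply extM
    · exact qf_t2 _ _ _
    · rfl
    · rfl
  · exact nf1 Φ hy0

/-- normal form -/
theorem nf (Φ : Fr h e f e' f') {m : M σ} (hm : m ≠ 0) :
    ∃ T : Tp B e f, (∀ m, qf (T.τ m) = qf m) ∧ T.τ m = mkM (qf m) 1 0 (qf_fixed B.H.inv m) (map_one σ) := by
  by_cases hx0 : m.1.1 = 0
  · by_cases hy0 : m.2.1.1 = 0
    · have hz : m.2.2 ≠ 0 := by
        intro h0
        apply hm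
        exact extM hx0 hy0 h0
      obtain ⟨r, hr⟩ := exists_tr' B.H hz
      obtain ⟨S, hS1, hS2⟩ := nf2 (B := B) Φ (m := t1 B.H.inv r m) (by
        change m.1.1 + (m.2.2 * σ r + σ m.2.2 * r) + m.2.1.1 * (r * σ r) ≠ 0
        rw [hx0, hy0]
        simpa using hr)
      refine ⟨S.comp (T1 Φ r), Tp.qf_comp hS1 (fun m => by rw [T1_τ, qf_t1]), ?_⟩
      change S.τ ((T1 Φ r).τ m) = _
      rw [T1_τ, hS2]
      apply extM
      · exact qf_t1 _ _ _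
      · rfl
      · rfl
    · exact nf1 Φ hy0
  · exact nf2 Φ hx0

/-- transitivity on a class -/
theorem trans_M (Φ : Fr h e f e' f') {m m' : M σ} (hm : m ≠ 0) (hm' : m' ≠ 0) (hq : qf m = qf m') :
    ∃ T : Tp B e f, (∀ m, qf (T.τ m) = qf m) ∧ T.τ m = m' := by
  obtain ⟨S, hS1, hS2⟩ := nf (B := B) Φ hm
  obtain ⟨T, hT1, hT2⟩ := nf (B := B) Φ hm'
  refine ⟨T.symm.comp S, Tp.qf_comp (Tp.qf_symm hT1) hS1, ?_⟩
  change T.τ.symm (S.τ m) = m'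
  rw [hS2]
  apply T.τ.injective
  rw [T.τ.apply_symm_apply, hT2]
  exact extM hq rfl rfl

section action

variable {ψ : AddChar F ℂ}

theorem exists_psi (F : Type*) [Field F] [Finite F] : ∃ ψ : AddChar F ℂ, ψ 1 ≠ 1 := by
  have : Fintype F := Fintype.ofFinite F
  exact AddChar.exists_apply_ne_zero.2 one_ne_zero

def bb (ψ : AddChar F ℂ) (x y : M σ) : ℂ := ψ (bf x y)

theorem bf_nd (H : IsSkew h) {m : M σ} (hm : ∀ m', bf m m' = 0) : m = 0 := by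
  apply extM
  · have := hm (mkM 0 1 0 (map_zero σ) (map_one σ))
    simpa [bf, mkM] using this
  · have := hm (mkM 1 0 0 (map_one σ) (map_zero σ))
    simpa [bf, mkM] using this
  · by_contra hz
    obtain ⟨r, hr⟩ := exists_tr' H hz
    have := hm (mkM 0 0 r (map_zero σ) (map_zero σ))
    simp only [bf, mkM, mul_zero, zero_add, zero_sub, neg_eq_zero] at this
    exact hr this

theorem eq_zero_of_psi (hψ : ψ 1 ≠ 1) (hi : ∀ a, σ (σ a) = a) {m m' : M σ}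
    (h1 : ∀ k : F, ∀ hk : σ k = k, ψ (bf m (sc k hk m')) = 1) : bf m m' = 0 := by
  by_contra h0
  apply hψ
  have hk : σ (bf m m')⁻¹ = (bf m m')⁻¹ := by rw [map_inv₀, bf_fixed hi]
  have h2 := h1 _ hk
  rwa [bf_comm, bf_sc, bf_comm m' m, inv_mul_cancel₀ h0] at h2

theorem pair (B : B4 h) (hψ : ψ 1 ≠ 1) : Pair (bb (σ := σ) ψ) where
  add_left x y z := by rw [bb, bf_add_left, AddChar.map_add_eq_mul]; rfl
  add_right x y z := by rw [bb, bf_add, AddChar.map_add_eq_mul]; rfl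
  zero_left x := by rw [bb, bf_comm, bf_zero, AddChar.map_zero_eq_one]
  zero_right x := by rw [bb, bf_zero, AddChar.map_zero_eq_one]
  nd x h1 := by
    apply bf_nd B.H
    intro m'
    exact eq_zero_of_psi hψ B.H.inv fun k hk => h1 _
  sym x y := by rw [bb, bb, bf_comm]

/-- the set `Ω` with the action of the radical -/
def X (_ : B4 h) {e f : V} (_ : TI h e f) (Ω : Type*) : Type _ := Ω

def toX (B : B4 h) {e f : V} (T : TI h e f) {Ω : Type*} (ω : Ω) : X B T Ω := ω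
def ofX {B : B4 h} {e f : V} {T : TI h e f} {Ω : Type*} (ω : X B T Ω) : Ω := ω

variable {Ω : Type*} [MulAction (SU h) Ω]

instance (T : TI h e f) [Finite Ω] : Finite (X B T Ω) := inferInstanceAs (Finite Ω)

noncomputable instance act (T : TI h e f) : AddAction (⊤ : AddSubgroup (M σ)) (X B T Ω) where
  vadd m ω := toX B T (A B e f m.1 • ofX ω)
  zero_vadd ω := by
    change A B e f 0 • ofX ω = ofX ω
    rw [A_zero T, one_smul]
  add_vadd a b ω := by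
    change A B e f (a.1 + b.1) • ofX ω = A B e f a.1 • A B e f b.1 • ofX ω
    rw [A_add T, mul_smul]

/-- the stabiliser -/
noncomputable def R (B : B4 h) (T : TI h e f) (ω : Ω) : AddSubgroup (M σ) := OrbU.R ⊤ (toX B T ω)

theorem mem_R {T : TI h e f} {ω : Ω} {m : M σ} : m ∈ R B T ω ↔ A B e f m • ω = ω := by
  rw [R, OrbU.mem_R]
  exact ⟨fun ⟨_, h1⟩ => h1, fun h1 => ⟨trivial, h1⟩⟩

/-- the dual of the stabiliser -/
noncomputable def U (hψ : ψ 1 ≠ 1) (B : B4 h) (T : TI h e f) (ω : Ω) : AddSubgroup (M σ) :=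
  OrbU.U (pair B hψ) ⊤ (toX B T ω)

theorem mem_U {hψ : ψ 1 ≠ 1} {T : TI h e f} {ω : Ω} {x : M σ} : x ∈ U hψ B T ω ↔ ∀ w ∈ R B T ω, ψ (bf x w) = 1 := Iff.rfl

theorem finM : Finite (M σ) := inferInstance

theorem mem_R_of {hψ : ψ 1 ≠ 1} {T : TI h e f} {ω : Ω} {w : M σ} (h1 : ∀ x ∈ U hψ B T ω, ψ (bf x w) = 1) :
    w ∈ R B T ω := mem_of_dual (pair B hψ) h1

/-- the orbits -/
abbrev I (B : B4 h) (T : TI h e f) (Ω : Type*) [MulAction (SU h) Ω] := OrbU.I (⊤ : AddSubgroup (M σ)) (X B T Ω)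

/-- the duals -/
noncomputable abbrev Ui (hψ : ψ 1 ≠ 1) {T : TI h e f} (i : I B T Ω) : AddSubgroup (M σ) := OrbU.Ui (pair B hψ) i

noncomputable def mu (hψ : ψ 1 ≠ 1) (B : B4 h) (T : TI h e f) (Ω : Type*) [MulAction (SU h) Ω] (x : M σ) : ℕ :=
  OrbU.m (pair B hψ) ⊤ (X B T Ω) x

theorem sum_card (hψ : ψ 1 ≠ 1) (T : TI h e f) [Finite Ω] [Fintype (I B T Ω)] :
    ∑ i : I B T Ω, Nat.card (Ui hψ i) = Nat.card Ω := by
  have h1 := OrbU.sum_card (pair B hψ) (P := ⊤) (Ω := X B T Ω)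
  have h2 : Nat.card (⊤ : AddSubgroup (M σ)) = Nat.card (M σ) := Nat.card_congr AddSubgroup.topEquiv.toEquiv
  rw [h2, mul_comm] at h1
  exact Nat.eq_of_mul_eq_mul_left Nat.card_pos h1

/-- transport -/
noncomputable def tr (hψ : ψ 1 ≠ 1) (T : TI h e f) (Ω : Type*) [MulAction (SU h) Ω] (S : Tp B e f) (β : M σ ≃+ M σ)
    (hβ : ∀ x w, bf (β x) (S.τ w) = bf x w) : OrbU.Tr (pair B hψ) ⊤ (X B T Ω) where
  σ := MulAction.toPerm (α := SU h) (β := Ω) S.g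
  τ := S.τ
  β := β
  hP := fun _ _ => trivial
  hP' := fun _ _ => trivial
  hσ := by
    intro w _ ω
    change S.g • A B e f w • ofX ω = A B e f (S.τ w) • S.g • ofX ω
    rw [← mul_smul, ← mul_smul, S.conj]
  hβ := by
    intro x w
    change ψ (bf (β x) (S.τ w)) = ψ (bf x w)
    rw [hβ]

theorem tr_β (hψ : ψ 1 ≠ 1) (T : TI h e f) (S : Tp B e f) (β : M σ ≃+ M σ)
    (hβ : ∀ x w, bf (β x) (S.τ w) = bf x w) (x : M σ) : (tr hψ T Ω S β hβ).β x = β x := rfl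

theorem mu_eq {hψ : ψ 1 ≠ 1} (Φ : Fr h e f e' f') {m m' : M σ} (hm : m ≠ 0) (hm' : m' ≠ 0) (hq : qf m = qf m') :
    mu hψ B Φ.toTI Ω m = mu hψ B Φ.toTI Ω m' := by
  obtain ⟨S, hS1, hS2⟩ := trans_M (B := B) Φ hm hm' hq
  have h1 := (tr hψ Φ.toTI Ω S S.τ (bf_of_qf hS1)).m_eq m
  rw [tr_β, hS2] at h1
  exact h1.symm

theorem mu_scale {hψ : ψ 1 ≠ 1} (Φ : Fr h e f e' f') {m m' : M σ} (hm : m ≠ 0) (hm' : m' ≠ 0) {δ : F} (hδ : σ δ = δ)
    (hδ0 : δ ≠ 0) (hq : qf m = δ * δ * qf m') : mu hψ B Φ.toTI Ω m = mu hψ B Φ.toTI Ω m' := by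
  obtain ⟨S, hS⟩ := exists_T3 (B := B) Φ hδ0 one_ne_zero (by rw [mul_one, hδ])
  have hβ : ∀ x w, bf (t3 B.H.inv 1 δ⁻¹ one_ne_zero (inv_ne_zero hδ0) x) (S.τ w) = bf x w := by
    intro x w
    rw [hS]
    change (1 * σ 1 * x.1.1) * (1 * σ 1 * w.2.1.1) + (δ⁻¹ * σ δ⁻¹ * x.2.1.1) * (δ * σ δ * w.1.1)
      - ((1 * σ δ⁻¹ * x.2.2) * σ (δ * σ 1 * w.2.2) + σ (1 * σ δ⁻¹ * x.2.2) * (δ * σ 1 * w.2.2)) = _
    simp only [bf, map_mul, map_one, map_inv₀, hδ]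
    field_simp
  have h1 := (tr hψ Φ.toTI Ω S _ hβ).m_eq m
  rw [tr_β] at h1
  change mu hψ B Φ.toTI Ω _ = mu hψ B Φ.toTI Ω _ at h1
  rw [← h1]
  apply mu_eq Φ _ hm'
  · rw [qf_t3, hq, map_one, map_inv₀, hδ]
    field_simp
  · intro h0
    exact hm ((AddEquiv.map_eq_zero_iff _).1 h0)

theorem Ui_cls (hψ : ψ 1 ≠ 1) (T : TI h e f) (ω : Ω) :
    Ui hψ (OrbU.cls (⊤ : AddSubgroup (M σ)) (toX B T ω)) = U hψ B T ω := OrbU.Ui_cls (pair B hψ) (toX B T ω)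

theorem exists_rep (hψ : ψ 1 ≠ 1) {T : TI h e f} (i : I B T Ω) : ∃ ω : Ω, OrbU.cls (⊤ : AddSubgroup (M σ)) (toX B T ω) = i ∧
    Ui hψ i = U hψ B T ω := ⟨ofX i.out, OrbU.cls_out i, rfl⟩

theorem cls_eq {T : TI h e f} {ω ω' : Ω} : OrbU.cls (⊤ : AddSubgroup (M σ)) (toX B T ω) = OrbU.cls ⊤ (toX B T ω') ↔
    ∃ m, A B e f m • ω' = ω := by
  rw [OrbU.cls_eq]
  exact ⟨fun ⟨p, hp⟩ => ⟨p.1, hp⟩, fun ⟨m, hm⟩ => ⟨⟨m, trivial⟩, hm⟩⟩

end action

end H41.Uf2
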