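import Mathlib
import Cfsg.Agent.Lib.H41.Uf2

/-! Subgroups of hermitian matrices stable under the unipotent elements fixing their nonsingular elements. -/

set_option autoImplicit false
set_option linter.unusedSectionVars false

namespace H41.Uf3

open Module H95.UBasic H95.UPar H95.UPair H57.Polar H41.UnA H41.UnA2 H41.Dual H41.Uf1 H41.Uf2
open H41.UnB (A0 mem_A0)

variable {F V : Type*} [Field F] [AddCommGroup V] [Module F V] {σ : F →+* F}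
variable {h : V →ₗ[F] V →ₛₗ[σ] F} [FiniteDimensional F V] [Finite F]

/-- the vector `(x,0,0)` -/
def vx (x : F) (hx : σ x = x) : M σ := mkM x 0 0 hx (map_zero σ)
def vy (y : F) (hy : σ y = y) : M σ := mkM 0 y 0 (map_zero σ) hy
def vz (z : F) : M σ := mkM 0 0 z (map_zero σ) (map_zero σ)

/-- stability -/
structure St0 (hi : ∀ a, σ (σ a) = a) (U : AddSubgroup (M σ)) : Prop where
  a : ∀ ζ, ζ ≠ 0 → vz ζ ∈ U → ∀ r, ζ * σ r + σ ζ * r = 0 → ∀ u ∈ U, t1 hi r u ∈ U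
  b : ∀ ζ, ζ ≠ 0 → vz ζ ∈ U → ∀ r, ζ * r + σ ζ * σ r = 0 → ∀ u ∈ U, t2 hi r u ∈ U

variable {hi : ∀ a, σ (σ a) = a} {U : AddSubgroup (M σ)}

theorem dec (m : M σ) : m = vx m.1.1 (hx m) + vy m.2.1.1 (hy m) + vz m.2.2 := by
  apply extM
  · change m.1.1 = m.1.1 + 0 + 0
    ring
  · change m.2.1.1 = 0 + m.2.1.1 + 0
    ring
  · change m.2.2 = 0 + 0 + m.2.2
    ring

/-- the first consequence, odd characteristic -/
theorem oddY (S : St0 hi U) (h2 : (2 : F) ≠ 0) {κ ζ : F} (hκ : σ κ = -κ) (hκ0 : κ ≠ 0) (hζ : ζ ≠ 0) (hH : vz ζ ∈ U)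
    {u : M σ} (hu : u ∈ U) (huy : u.2.1.1 ≠ 0) :
    (∀ c (hc : σ c = c), vx c hc ∈ U) ∧ (∀ k, σ k = k → vz (k * (κ * ζ)) ∈ U) := by
  have hσζ : σ ζ ≠ 0 := fun h0 => hζ (by rw [← hi ζ, h0, map_zero])
  set ρ := κ * ζ with hρ
  have hσρ : σ ρ = -κ * σ ζ := by rw [hρ, map_mul, hκ]
  have hD : ∀ k, σ k = k → t1 hi (k * ρ) u - u ∈ U := by
    intro k hk
    refine U.sub_mem (S.a ζ hζ hH _ ?_ u hu) hu
    rw [map_mul, hk, hσρ, hρ]
    ring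
  have hN : σ (ρ * σ ρ) = ρ * σ ρ := by rw [map_mul, hi, mul_comm]
  have hN0 : ρ * σ ρ ≠ 0 := by
    rw [hσρ, hρ]
    exact mul_ne_zero (mul_ne_zero hκ0 hζ) (mul_ne_zero (neg_ne_zero.2 hκ0) hσζ)
  have h3 : ∀ k (hk : σ k = k), vx (-(2 * k * (u.2.1.1 * (ρ * σ ρ)))) (by
      rw [map_neg, map_mul, map_mul, map_mul, hk, hN, hy u, map_ofNat]) ∈ U := by
    intro k hk
    have h4 := U.sub_mem (U.add_mem (hD k hk) (hD 1 (map_one σ))) (hD (k + 1) (by rw [map_add, hk, map_one]))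
    convert h4 using 1
    apply extM
    · change -(2 * k * (u.2.1.1 * (ρ * σ ρ))) =
        (u.1.1 + (u.2.2 * σ (k * ρ) + σ u.2.2 * (k * ρ)) + u.2.1.1 * ((k * ρ) * σ (k * ρ)) - u.1.1) +
        (u.1.1 + (u.2.2 * σ (1 * ρ) + σ u.2.2 * (1 * ρ)) + u.2.1.1 * ((1 * ρ) * σ (1 * ρ)) - u.1.1) -
        (u.1.1 + (u.2.2 * σ ((k + 1) * ρ) + σ u.2.2 * ((k + 1) * ρ)) + u.2.1.1 * (((k + 1) * ρ) * σ ((k + 1) * ρ)) - u.1.1)
      simp only [map_mul, map_add, hk, map_one]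
      ring
    · change (0 : F) = (u.2.1.1 - u.2.1.1) + (u.2.1.1 - u.2.1.1) - (u.2.1.1 - u.2.1.1)
      ring
    · change (0 : F) = (u.2.2 + k * ρ * u.2.1.1 - u.2.2) + (u.2.2 + 1 * ρ * u.2.1.1 - u.2.2)
        - (u.2.2 + (k + 1) * ρ * u.2.1.1 - u.2.2)
      ring
  have h5 : ∀ c (hc : σ c = c), vx c hc ∈ U := by
    intro c hc
    have h6 := h3 (-(c / (2 * (u.2.1.1 * (ρ * σ ρ))))) (by
      rw [map_neg, map_div₀, map_mul, map_mul, hN, hy u, map_ofNat, hc])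
    convert h6 using 1
    apply extM
    · change c = -(2 * (-(c / (2 * (u.2.1.1 * (ρ * σ ρ))))) * (u.2.1.1 * (ρ * σ ρ)))
      generalize ρ * σ ρ = N at hN0 ⊢
      field_simp
    · rfl
    · rfl
  refine ⟨h5, ?_⟩
  intro k hk
  have hk' : σ (k / u.2.1.1) = k / u.2.1.1 := by rw [map_div₀, hk, hy u]
  have h6 := hD (k / u.2.1.1) hk'
  have h7 : σ (u.2.2 * σ (k / u.2.1.1 * ρ) + σ u.2.2 * (k / u.2.1.1 * ρ) +
      u.2.1.1 * ((k / u.2.1.1 * ρ) * σ (k / u.2.1.1 * ρ))) = u.2.2 * σ (k / u.2.1.1 * ρ) + σ u.2.2 * (k / u.2.1.1 * ρ) +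
      u.2.1.1 * ((k / u.2.1.1 * ρ) * σ (k / u.2.1.1 * ρ)) := by
    simp only [map_add, map_mul, hi, hy u]
    ring
  have h8 := U.sub_mem h6 (h5 _ h7)
  convert h8 using 1
  apply extM
  · change (0 : F) = u.1.1 + (u.2.2 * σ (k / u.2.1.1 * ρ) + σ u.2.2 * (k / u.2.1.1 * ρ)) +
      u.2.1.1 * ((k / u.2.1.1 * ρ) * σ (k / u.2.1.1 * ρ)) - u.1.1 - (u.2.2 * σ (k / u.2.1.1 * ρ) + σ u.2.2 * (k / u.2.1.1 * ρ) +
      u.2.1.1 * ((k / u.2.1.1 * ρ) * σ (k / u.2.1.1 * ρ)))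
    ring
  · change (0 : F) = u.2.1.1 - u.2.1.1 - 0
    ring
  · change k * ρ = u.2.2 + k / u.2.1.1 * ρ * u.2.1.1 - u.2.2 - 0
    field_simp
    ring

/-- the swap -/
def sw (m : M σ) : M σ := mkM m.2.1.1 m.1.1 (σ m.2.2) (hy m) (hx m)

theorem oddX (S : St0 hi U) (h2 : (2 : F) ≠ 0) {κ ζ : F} (hκ : σ κ = -κ) (hκ0 : κ ≠ 0) (hζ : ζ ≠ 0) (hH : vz ζ ∈ U)
    {u : M σ} (hu : u ∈ U) (hux : u.1.1 ≠ 0) :
    (∀ c (hc : σ c = c), vy c hc ∈ U) := by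
  have hσζ : σ ζ ≠ 0 := fun h0 => hζ (by rw [← hi ζ, h0, map_zero])
  set ρ := κ * σ ζ with hρ
  have hσρ : σ ρ = -κ * ζ := by rw [hρ, map_mul, hκ, hi]
  have hD : ∀ k, σ k = k → t2 hi (k * ρ) u - u ∈ U := by
    intro k hk
    refine U.sub_mem (S.b ζ hζ hH _ ?_ u hu) hu
    rw [map_mul, hk, hσρ, hρ]
    ring
  have hN : σ (ρ * σ ρ) = ρ * σ ρ := by rw [map_mul, hi, mul_comm]
  have hN0 : ρ * σ ρ ≠ 0 := by
    rw [hσρ, hρ]
    exact mul_ne_zero (mul_ne_zero hκ0 hσζ) (mul_ne_zero (neg_ne_zero.2 hκ0) hζ)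
  have h3 : ∀ k (hk : σ k = k), vy (-(2 * k * (u.1.1 * (ρ * σ ρ)))) (by
      rw [map_neg, map_mul, map_mul, map_mul, hk, hN, hx u, map_ofNat]) ∈ U := by
    intro k hk
    have h4 := U.sub_mem (U.add_mem (hD k hk) (hD 1 (map_one σ))) (hD (k + 1) (by rw [map_add, hk, map_one]))
    convert h4 using 1
    apply extM
    · change (0 : F) = (u.1.1 - u.1.1) + (u.1.1 - u.1.1) - (u.1.1 - u.1.1)
      ring
    · change -(2 * k * (u.1.1 * (ρ * σ ρ))) =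
        (u.2.1.1 + (u.2.2 * (k * ρ) + σ u.2.2 * σ (k * ρ)) + u.1.1 * ((k * ρ) * σ (k * ρ)) - u.2.1.1) +
        (u.2.1.1 + (u.2.2 * (1 * ρ) + σ u.2.2 * σ (1 * ρ)) + u.1.1 * ((1 * ρ) * σ (1 * ρ)) - u.2.1.1) -
        (u.2.1.1 + (u.2.2 * ((k + 1) * ρ) + σ u.2.2 * σ ((k + 1) * ρ)) + u.1.1 * (((k + 1) * ρ) * σ ((k + 1) * ρ)) - u.2.1.1)
      simp only [map_mul, map_add, hk, map_one]
      ring
    · change (0 : F) = (u.2.2 + σ (k * ρ) * u.1.1 - u.2.2) + (u.2.2 + σ (1 * ρ) * u.1.1 - u.2.2)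
        - (u.2.2 + σ ((k + 1) * ρ) * u.1.1 - u.2.2)
      simp only [map_mul, map_add, hk, map_one]
      ring
  intro c hc
  have h6 := h3 (-(c / (2 * (u.1.1 * (ρ * σ ρ))))) (by
    rw [map_neg, map_div₀, map_mul, map_mul, hN, hx u, map_ofNat, hc])
  convert h6 using 1
  apply extM
  · rfl
  · change c = -(2 * (-(c / (2 * (u.1.1 * (ρ * σ ρ))))) * (u.1.1 * (ρ * σ ρ)))
    generalize ρ * σ ρ = N at hN0 ⊢
    field_simp
  · rfl

/-- the conclusion in odd characteristic, first form -/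
theorem odd1 (S : St0 hi U) (h2 : (2 : F) ≠ 0) {κ ζ : F} (hκ : σ κ = -κ) (hκ0 : κ ≠ 0) (hζ : ζ ≠ 0) (hH : vz ζ ∈ U)
    {u : M σ} (hu : u ∈ U) (hun : ∀ k, σ k = k → u ≠ vz (k * ζ)) :
    (∀ c (hc : σ c = c), vx c hc ∈ U) ∧ (∀ c (hc : σ c = c), vy c hc ∈ U) ∧ (∀ k, σ k = k → vz (k * (κ * ζ)) ∈ U) := by
  have hσζ : σ ζ ≠ 0 := fun h0 => hζ (by rw [← hi ζ, h0, map_zero])
  have fromX : ∀ u ∈ U, u.1.1 ≠ 0 → (∀ c (hc : σ c = c), vx c hc ∈ U) ∧ (∀ c (hc : σ c = c), vy c hc ∈ U) ∧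
      (∀ k, σ k = k → vz (k * (κ * ζ)) ∈ U) := by
    intro u hu hux
    have h3 := oddX S h2 hκ hκ0 hζ hH hu hux
    obtain ⟨h4, h5⟩ := oddY S h2 hκ hκ0 hζ hH (h3 1 (map_one σ)) (one_ne_zero)
    exact ⟨h4, h3, h5⟩
  by_cases hux : u.1.1 = 0
  · by_cases huy : u.2.1.1 = 0
    · have h6 : t1 hi (κ * ζ) u - u ∈ U := by
        refine U.sub_mem (S.a ζ hζ hH _ ?_ u hu) hu
        rw [map_mul, hκ]
        ring
      refine fromX _ h6 ?_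
      change u.1.1 + (u.2.2 * σ (κ * ζ) + σ u.2.2 * (κ * ζ)) + u.2.1.1 * ((κ * ζ) * σ (κ * ζ)) - u.1.1 ≠ 0
      rw [hux, huy, map_mul, hκ]
      intro h7
      have h8 : κ * (σ u.2.2 * ζ - u.2.2 * σ ζ) = 0 := by linear_combination h7
      have h9 := (mul_eq_zero.1 h8).resolve_left hκ0
      apply hun (u.2.2 / ζ)
      · rw [map_div₀, div_eq_div_iff hσζ hζ]
        linear_combination h9
      · apply extM
        · exact hux
        · exact huy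
        · change u.2.2 = u.2.2 / ζ * ζ
          rw [div_mul_cancel₀ _ hζ]
    · obtain ⟨h4, h5⟩ := oddY S h2 hκ hκ0 hζ hH hu huy
      exact fromX _ (h4 1 (map_one σ)) one_ne_zero
  · exact fromX u hu hux

/-- the conclusion in odd characteristic -/
theorem odd_full (S : St0 hi U) (h2 : (2 : F) ≠ 0) {κ ζ : F} (hκ : σ κ = -κ) (hκ0 : κ ≠ 0) (hζ : ζ ≠ 0) (hH : vz ζ ∈ U)
    {u : M σ} (hu : u ∈ U) (hun : ∀ k, σ k = k → u ≠ vz (k * ζ)) : U = ⊤ := by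
  obtain ⟨h3, h4, h5⟩ := odd1 S h2 hκ hκ0 hζ hH hu hun
  have h6 : vz (κ * ζ) ∈ U := by
    have := h5 1 (map_one σ)
    rwa [one_mul] at this
  obtain ⟨-, -, h7⟩ := odd1 S h2 hκ hκ0 (mul_ne_zero hκ0 hζ) h6 (h3 1 (map_one σ)) (by
    intro k _ h8
    have h9 := congrArg (fun m : M σ => m.1.1) h8
    exact one_ne_zero h9)
  rw [eq_top_iff]
  intro m _
  rw [dec m]
  refine U.add_mem (U.add_mem (h3 _ _) (h4 _ _)) ?_
  set w := m.2.2 / ζ with hw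
  have hmw : m.2.2 = w * ζ := by rw [hw, div_mul_cancel₀ _ hζ]
  have h8 := h7 ((w + σ w) / (2 * (κ * κ))) (by
    simp only [map_div₀, map_add, map_mul, hi, hκ, map_ofNat]
    ring)
  have h9 := h5 ((w - σ w) / (2 * κ)) (by
    simp only [map_div₀, map_sub, map_mul, hi, hκ, map_ofNat]
    rw [mul_neg, div_neg, ← neg_div, neg_sub])
  have h10 := U.add_mem h8 h9
  convert h10 using 1
  apply extM
  · change (0 : F) = 0 + 0
    ring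
  · change (0 : F) = 0 + 0
    ring
  · change m.2.2 = (w + σ w) / (2 * (κ * κ)) * (κ * (κ * ζ)) + (w - σ w) / (2 * κ) * (κ * ζ)
    rw [hmw]
    field_simp
    ring

end H41.Uf3
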