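import Mathlib
import Cfsg.Agent.Lib.H41.Uf3

/-! Subgroups of hermitian matrices stable under the unipotent elements fixing their nonsingular elements:
characteristic two. -/

set_option autoImplicit false
set_option linter.unusedSectionVars false

namespace H41.Uf4

open Module H95.UBasic H95.UPar H95.UPair H57.Polar H41.UnA H41.UnA2 H41.Dual H41.Uf1 H41.Uf2 H41.Uf3
open H41.UnB (A0 mem_A0)

variable {F V : Type*} [Field F] [AddCommGroup V] [Module F V] {σ : F →+* F}
variable {h : V →ₗ[F] V →ₛₗ[σ] F} [FiniteDimensional F V] [Finite F]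
variable {hi : ∀ a, σ (σ a) = a} {U : AddSubgroup (M σ)}

theorem exists_sqrt (h2 : (2 : F) = 0) {c : F} (hc : σ c = c) : ∃ s, s * s = c ∧ σ s = s := by
  have : Fintype F := Fintype.ofFinite F
  have hr : ringChar F = 2 := by
    have : ringChar F ∣ 2 := ringChar.dvd (by exact_mod_cast h2)
    rcases (Nat.dvd_prime Nat.prime_two).1 this with h3 | h3
    · exfalso
      have := ringChar.spec F 1
      rw [h3] at this
      have h4 := this.2 dvd_rfl
      simp at h4
    · exact h3
  obtain ⟨s, hs⟩ := FiniteField.isSquare_of_char_two hr c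
  refine ⟨s, hs.symm, ?_⟩
  have h3 : σ s * σ s = s * s := by rw [← map_mul, ← hs, hc]
  rcases mul_self_eq_mul_self_iff.1 h3 with h4 | h4
  · exact h4
  · rw [h4]
    linear_combination (-s) * h2

theorem nrm (hi : ∀ a, σ (σ a) = a) (ζ : F) : σ (ζ * σ ζ) = ζ * σ ζ := by rw [map_mul, hi, mul_comm]

theorem evenY (S : St0 hi U) (h2 : (2 : F) = 0) {ζ : F} (hζ : ζ ≠ 0) (hH : vz ζ ∈ U)
    {u : M σ} (hu : u ∈ U) (hper : u.2.2 * σ ζ + σ u.2.2 * ζ = 0) (huy : u.2.1.1 ≠ 0) :
    vx (ζ * σ ζ / u.2.1.1) (by rw [map_div₀, nrm hi, hy u]) ∈ U := by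
  have hs : σ (1 / u.2.1.1) = 1 / u.2.1.1 := by rw [map_div₀, hy u, map_one]
  have h3 := S.a ζ hζ hH (1 / u.2.1.1 * ζ) (by
    rw [map_mul, hs]
    linear_combination (1 / u.2.1.1 * (ζ * σ ζ)) * h2) u hu
  have h4 := U.sub_mem (U.sub_mem h3 hu) hH
  convert h4 using 1
  apply extM
  · change ζ * σ ζ / u.2.1.1 = (u.1.1 + (u.2.2 * σ (1 / u.2.1.1 * ζ) + σ u.2.2 * (1 / u.2.1.1 * ζ)) +
      u.2.1.1 * ((1 / u.2.1.1 * ζ) * σ (1 / u.2.1.1 * ζ))) - u.1.1 - 0
    rw [map_mul, hs]
    field_simp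
    linear_combination -hper
  · change (0 : F) = u.2.1.1 - u.2.1.1 - 0
    ring
  · change (0 : F) = u.2.2 + 1 / u.2.1.1 * ζ * u.2.1.1 - u.2.2 - ζ
    field_simp
    ring

theorem evenX (S : St0 hi U) (h2 : (2 : F) = 0) {ζ : F} (hζ : ζ ≠ 0) (hH : vz ζ ∈ U)
    {u : M σ} (hu : u ∈ U) (hper : u.2.2 * σ ζ + σ u.2.2 * ζ = 0) {s : F} (hs : σ s = s) :
    mkM 0 (u.1.1 * (s * s) * (ζ * σ ζ)) (s * u.1.1 * ζ) (map_zero σ) (by
      rw [map_mul, map_mul, map_mul, nrm hi, hx u, hs]) ∈ U := by
  have h3 := S.b ζ hζ hH (s * σ ζ) (by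
    rw [map_mul, hs, hi]
    linear_combination (s * (ζ * σ ζ)) * h2) u hu
  have h4 := U.sub_mem h3 hu
  convert h4 using 1
  apply extM
  · change (0 : F) = u.1.1 - u.1.1
    ring
  · change u.1.1 * (s * s) * (ζ * σ ζ) = (u.2.1.1 + (u.2.2 * (s * σ ζ) + σ u.2.2 * σ (s * σ ζ)) +
      u.1.1 * ((s * σ ζ) * σ (s * σ ζ))) - u.2.1.1
    rw [map_mul, hs, hi]
    linear_combination (-s) * hper
  · change s * u.1.1 * ζ = u.2.2 + σ (s * σ ζ) * u.1.1 - u.2.2
    rw [map_mul, hs, hi]
    ring

/-- elements orthogonal to `H` -/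
theorem even2 (S : St0 hi U) (h2 : (2 : F) = 0) {ζ : F} (hζ : ζ ≠ 0) (hH : vz ζ ∈ U)
    {u : M σ} (hu : u ∈ U) (hper : u.2.2 * σ ζ + σ u.2.2 * ζ = 0) (hne : u.1.1 ≠ 0 ∨ u.2.1.1 ≠ 0) :
    (∀ c (hc : σ c = c), vx c hc ∈ U) ∧ (∀ c (hc : σ c = c), vy c hc ∈ U) ∧ (∀ k, σ k = k → vz (k * ζ) ∈ U) := by
  have hσζ : σ ζ ≠ 0 := fun h0 => hζ (by rw [← hi ζ, h0, map_zero])
  have hN0 : ζ * σ ζ ≠ 0 := mul_ne_zero hζ hσζ
  have hpz : ∀ k, σ k = k → k * ζ * σ ζ + σ (k * ζ) * ζ = 0 := by
    intro k hk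
    rw [map_mul, hk]
    linear_combination (k * (ζ * σ ζ)) * h2
  obtain ⟨a, ha, ha0, haU⟩ : ∃ a, ∃ ha : σ a = a, a ≠ 0 ∧ vx a ha ∈ U := by
    have fromY : ∀ u ∈ U, u.2.2 * σ ζ + σ u.2.2 * ζ = 0 → u.2.1.1 ≠ 0 → ∃ a, ∃ ha : σ a = a, a ≠ 0 ∧ vx a ha ∈ U := by
      intro u hu hper huy
      exact ⟨_, _, div_ne_zero hN0 huy, evenY S h2 hζ hH hu hper huy⟩
    rcases hne with h3 | h3
    · have h4 := evenX S h2 hζ hH hu hper (map_one σ)
      refine fromY _ h4 ?_ ?_
      · exact hpz _ (by rw [one_mul, hx u])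
      · change u.1.1 * (1 * 1) * (ζ * σ ζ) ≠ 0
        rw [one_mul, mul_one]
        exact mul_ne_zero h3 hN0
    · exact fromY u hu hper h3
  have hX : ∀ c (hc : σ c = c), vx c hc ∈ U := by
    intro c hc
    by_cases hc0 : c = 0
    · subst hc0
      have : (vx (0 : F) hc : M σ) = 0 := rfl
      rw [this]
      exact U.zero_mem
    · obtain ⟨s, hs1, hs2⟩ := exists_sqrt (σ := σ) h2 (c := 1 / (a * c)) (by
        rw [map_div₀, map_one, map_mul, ha, hc])
      have h4 := evenX S h2 hζ hH haU (by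
        change (0 : F) * σ ζ + σ 0 * ζ = 0
        rw [map_zero]; ring) hs2
      have hval : (vx a ha : M σ).1.1 = a := rfl
      have h5 := evenY S h2 hζ hH h4 (hpz _ (by rw [map_mul, hs2, hval, ha])) (by
        change a * (s * s) * (ζ * σ ζ) ≠ 0
        rw [hs1]
        refine mul_ne_zero (mul_ne_zero ha0 ?_) hN0
        exact one_div_ne_zero (mul_ne_zero ha0 hc0))
      convert h5 using 1
      apply extM
      · change c = ζ * σ ζ / (a * (s * s) * (ζ * σ ζ))
        rw [hs1]
        generalize ζ * σ ζ = N at hN0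
        field_simp
      · rfl
      · rfl
  have hY : ∀ c (hc : σ c = c), vy c hc ∈ U := by
    intro c hc
    by_cases hc0 : c = 0
    · subst hc0
      have : (vy (0 : F) hc : M σ) = 0 := rfl
      rw [this]
      exact U.zero_mem
    · have hc1 : σ (ζ * σ ζ / c) = ζ * σ ζ / c := by rw [map_div₀, nrm hi, hc]
      have hc2 : σ (c / (ζ * σ ζ)) = c / (ζ * σ ζ) := by rw [map_div₀, nrm hi, hc]
      have h4 := evenX S h2 hζ hH (hX _ hc1) (by
        change (0 : F) * σ ζ + σ 0 * ζ = 0
        rw [map_zero]; ring) hc2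
      have h5 := U.sub_mem h4 hH
      convert h5 using 1
      apply extM
      · change (0 : F) = 0 - 0
        ring
      · change c = (ζ * σ ζ / c) * (c / (ζ * σ ζ) * (c / (ζ * σ ζ))) * (ζ * σ ζ) - 0
        generalize ζ * σ ζ = N at hN0
        field_simp
        ring
      · change (0 : F) = c / (ζ * σ ζ) * (ζ * σ ζ / c) * ζ - ζ
        generalize ζ * σ ζ = N at hN0
        field_simp
        ring
  refine ⟨hX, hY, ?_⟩
  intro k hk
  have h4 := evenX S h2 hζ hH (hX k hk) (by
    change (0 : F) * σ ζ + σ 0 * ζ = 0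
    rw [map_zero]; ring) (map_one σ)
  have h5 := U.sub_mem h4 (hY (k * (ζ * σ ζ)) (by rw [map_mul, hk, nrm hi]))
  convert h5 using 1
  apply extM
  · change (0 : F) = 0 - 0
    ring
  · change (0 : F) = k * (1 * 1) * (ζ * σ ζ) - k * (ζ * σ ζ)
    ring
  · change k * ζ = 1 * k * ζ - 0
    ring

/-- the conclusion in characteristic two -/
theorem even_full (H : IsSkew h) (S : St0 H.inv U) (hT : ∀ r, St0 H.inv (U.map (t1 H.inv r).toAddMonoidHom)) (h2 : (2 : F) = 0)
    {ζ : F} (hζ : ζ ≠ 0) (hH : vz ζ ∈ U) {u : M σ} (hu : u ∈ U) (hun : ∀ k, σ k = k → u ≠ vz (k * ζ)) :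
    U = ⊤ ∨ (Nat.card (A0 σ) = 2 ∧ (∀ x ∈ U, qf x ≠ 0 → x = vz ζ) ∧ 4 ≤ Nat.card U) := by
  classical
  have hσζ : σ ζ ≠ 0 := fun h0 => hζ (H.inj h0)
  have hN0 : ζ * σ ζ ≠ 0 := mul_ne_zero hζ hσζ
  have hspan : ∀ z : F, z * σ ζ + σ z * ζ = 0 → ∃ k, σ k = k ∧ z = k * ζ := by
    intro z hz
    refine ⟨z / ζ, ?_, by rw [div_mul_cancel₀ _ hζ]⟩
    rw [map_div₀, div_eq_div_iff hσζ hζ]
    linear_combination (-1 : F) * hz + (σ z * ζ) * h2
  by_cases hex : ∃ u ∈ U, (u.2.2 * σ ζ + σ u.2.2 * ζ = 0) ∧ (u.1.1 ≠ 0 ∨ u.2.1.1 ≠ 0)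
  · left
    obtain ⟨u, hu, hper, hne⟩ := hex
    obtain ⟨hX, hY, hZ⟩ := even2 S h2 hζ hH hu hper hne
    obtain ⟨r0, hr0⟩ := exists_tr' H hζ
    set t := ζ * σ r0 + σ ζ * r0 with ht
    have hσt : σ t = t := by rw [ht, map_add, map_mul, map_mul, H.inv, H.inv]; ring
    set r := r0 / t with hr
    have hrt : ζ * σ r + σ ζ * r = 1 := by
      rw [hr, map_div₀, hσt]
      have : ζ * (σ r0 / t) + σ ζ * (r0 / t) = t / t := by rw [ht]; ring
      rw [this, div_self hr0]
    have hS' := hT r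
    have hmap : ∀ m ∈ U, t1 H.inv r m ∈ U.map (t1 H.inv r).toAddMonoidHom := fun m hm => ⟨m, hm, rfl⟩
    have hH' : vz ζ ∈ U.map (t1 H.inv r).toAddMonoidHom := by
      have h4 := hmap _ (U.add_mem (hX 1 (map_one σ)) hH)
      convert h4 using 1
      apply extM
      · change (0 : F) = (1 + 0) + ((0 + ζ) * σ r + σ (0 + ζ) * r) + (0 + 0) * (r * σ r)
        rw [zero_add, hrt]
        linear_combination (-1 : F) * h2
      · change (0 : F) = 0 + 0
        ring
      · change ζ = (0 + ζ) + r * (0 + 0)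
        ring
    have hX' : vx 1 (map_one σ) ∈ U.map (t1 H.inv r).toAddMonoidHom := by
      have h4 := hmap _ (hX 1 (map_one σ))
      convert h4 using 1
      apply extM
      · change (1 : F) = 1 + (0 * σ r + σ 0 * r) + 0 * (r * σ r)
        rw [map_zero]
        ring
      · rfl
      · change (0 : F) = 0 + r * 0
        ring
    obtain ⟨-, hY', -⟩ := even2 hS' h2 hζ hH' hX' (by
      change (0 : F) * σ ζ + σ 0 * ζ = 0
      rw [map_zero]; ring) (Or.inl one_ne_zero)
    have hZ' : ∀ k, σ k = k → vz (k * r) ∈ U := by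
      intro k hk
      obtain ⟨m, hm, hmv⟩ := hY' k hk
      have e1 : m.2.1.1 = k := congrArg (fun m : M σ => m.2.1.1) hmv
      have e2 : m.2.2 + r * m.2.1.1 = 0 := congrArg (fun m : M σ => m.2.2) hmv
      have h4 := U.sub_mem (U.sub_mem hm (hX m.1.1 (hx m))) (hY m.2.1.1 (hy m))
      convert h4 using 1
      apply extM
      · change (0 : F) = m.1.1 - m.1.1 - 0
        ring
      · change (0 : F) = m.2.1.1 - 0 - m.2.1.1
        ring
      · change k * r = m.2.2 - 0 - 0
        rw [← e1]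
        linear_combination (-1 : F) * e2 + (r * m.2.1.1) * h2
    rw [eq_top_iff]
    intro m _
    rw [dec m]
    refine U.add_mem (U.add_mem (hX _ _) (hY _ _)) ?_
    set b := m.2.2 * σ ζ + σ m.2.2 * ζ with hb
    have hσb : σ b = b := by rw [hb, map_add, map_mul, map_mul, H.inv, H.inv]; ring
    obtain ⟨k, hk, hkz⟩ := hspan (m.2.2 - b * r) (by
      rw [map_sub, map_mul, hσb]
      linear_combination (-b) * hrt)
    have h4 := U.add_mem (hZ k hk) (hZ' b hσb)
    convert h4 using 1
    apply extM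
    · change (0 : F) = 0 + 0
      ring
    · change (0 : F) = 0 + 0
      ring
    · change m.2.2 = k * ζ + b * r
      rw [← hkz]
      ring
  · right
    push Not at hex
    -- all elements outside of the span
    have hD1 : ∀ u ∈ U, ∀ s, σ s = s → s * (u.2.2 * σ ζ + σ u.2.2 * ζ) + u.2.1.1 * (s * s) * (ζ * σ ζ) = 0 := by
      intro u hu s hs
      have h3 := U.sub_mem (S.a ζ hζ hH (s * ζ) (by
        rw [map_mul, hs]
        linear_combination (s * (ζ * σ ζ)) * h2) u hu) hu
      have h4 := (hex _ h3 (by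
        change (u.2.2 + s * ζ * u.2.1.1 - u.2.2) * σ ζ + σ (u.2.2 + s * ζ * u.2.1.1 - u.2.2) * ζ = 0
        simp only [map_sub, map_add, map_mul, hs, hy u]
        linear_combination (s * u.2.1.1 * (ζ * σ ζ)) * h2)).1
      change u.1.1 + (u.2.2 * σ (s * ζ) + σ u.2.2 * (s * ζ)) + u.2.1.1 * ((s * ζ) * σ (s * ζ)) - u.1.1 = 0 at h4
      rw [map_mul, hs] at h4
      linear_combination h4
    have hD2 : ∀ u ∈ U, ∀ s, σ s = s → s * (u.2.2 * σ ζ + σ u.2.2 * ζ) + u.1.1 * (s * s) * (ζ * σ ζ) = 0 := by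
      intro u hu s hs
      have h3 := U.sub_mem (S.b ζ hζ hH (s * σ ζ) (by
        rw [map_mul, hs, H.inv]
        linear_combination (s * (ζ * σ ζ)) * h2) u hu) hu
      have h4 := (hex _ h3 (by
        change (u.2.2 + σ (s * σ ζ) * u.1.1 - u.2.2) * σ ζ + σ (u.2.2 + σ (s * σ ζ) * u.1.1 - u.2.2) * ζ = 0
        simp only [map_sub, map_add, map_mul, hs, hx u, H.inv]
        linear_combination (s * u.1.1 * (ζ * σ ζ)) * h2)).2
      change u.2.1.1 + (u.2.2 * (s * σ ζ) + σ u.2.2 * σ (s * σ ζ)) + u.1.1 * ((s * σ ζ) * σ (s * σ ζ)) - u.2.1.1 = 0 at h4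
      rw [map_mul, hs, H.inv] at h4
      linear_combination h4
    have hT0 : u.2.2 * σ ζ + σ u.2.2 * ζ ≠ 0 := by
      intro h0
      have h3 := hex u hu h0
      obtain ⟨k, hk, hkz⟩ := hspan _ h0
      exact hun k hk (extM h3.1 h3.2 hkz)
    have hy0 : u.2.1.1 ≠ 0 := by
      intro h0
      have h3 := hD1 u hu 1 (map_one σ)
      rw [h0] at h3
      apply hT0
      linear_combination h3
    have hK : ∀ s, σ s = s → s ≠ 0 → s = 1 := by
      intro s hs hs0
      have h3 := hD1 u hu 1 (map_one σ)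
      have h4 := hD1 u hu s hs
      have h5 : u.2.1.1 * (ζ * σ ζ) * (s * (s - 1)) = 0 := by linear_combination h4 - s * h3
      rcases mul_eq_zero.1 h5 with h6 | h6
      · exact absurd h6 (mul_ne_zero hy0 hN0)
      · exact sub_eq_zero.1 ((mul_eq_zero.1 h6).resolve_left hs0)
    have hN1 : ζ * σ ζ = 1 := hK _ (nrm H.inv ζ) hN0
    have hout : ∀ u ∈ U, u.2.2 * σ ζ + σ u.2.2 * ζ ≠ 0 → u.1.1 = 1 ∧ u.2.1.1 = 1 := by
      intro u hu hu0
      constructor
      · apply hK _ (hx u)
        intro h0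
        have h3 := hD2 u hu 1 (map_one σ)
        rw [h0] at h3
        apply hu0
        linear_combination h3
      · apply hK _ (hy u)
        intro h0
        have h3 := hD1 u hu 1 (map_one σ)
        rw [h0] at h3
        apply hu0
        linear_combination h3
    have hin : ∀ u ∈ U, u.2.2 * σ ζ + σ u.2.2 * ζ = 0 → u = 0 ∨ u = vz ζ := by
      intro u hu hu0
      have h3 := hex u hu hu0
      obtain ⟨k, hk, hkz⟩ := hspan _ hu0
      by_cases hk0 : k = 0
      · left
        refine extM h3.1 h3.2 ?_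
        rw [hkz, hk0, zero_mul]
        rfl
      · right
        refine extM h3.1 h3.2 ?_
        rw [hkz, hK k hk hk0, one_mul]
        rfl
    refine ⟨?_, ?_, ?_⟩
    · have : ∀ a : A0 σ, a = 0 ∨ a = ⟨1, map_one σ⟩ := by
        intro a
        by_cases h0 : a.1 = 0
        · exact Or.inl (Subtype.ext h0)
        · exact Or.inr (Subtype.ext (hK _ a.2 h0))
      have e : A0 σ ≃ Bool :=
        { toFun := fun a => open Classical in decide (a = 0)
          invFun := fun b => if b then 0 else ⟨1, map_one σ⟩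
          left_inv := by
            intro a
            rcases this a with h3 | h3
            · simp [h3]
            · have h4 : a ≠ 0 := by
                rw [h3]
                intro h5
                exact one_ne_zero (congrArg Subtype.val h5)
              simp only [h4, decide_false]
              exact h3.symm
          right_inv := by
            intro b
            cases b
            · have h4 : (⟨1, map_one σ⟩ : A0 σ) ≠ 0 := by
                intro h5
                exact one_ne_zero (congrArg Subtype.val h5)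
              simp [h4]
            · simp }
      rw [Nat.card_congr e]
      simp
    · intro x hx' hqx
      by_cases h0 : x.2.2 * σ ζ + σ x.2.2 * ζ = 0
      · rcases hin x hx' h0 with h3 | h3
        · rw [h3] at hqx
          exact absurd qf_zero hqx
        · exact h3
      · exfalso
        obtain ⟨h3, h4⟩ := hout x hx' h0
        apply hqx
        have hz0 : x.2.2 ≠ 0 := by
          intro h5
          apply h0
          rw [h5, map_zero]
          ring
        have hN2 : x.2.2 * σ x.2.2 = 1 := hK _ (nrm H.inv _) (mul_ne_zero hz0 (fun h5 => hz0 (H.inj h5)))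
        rw [qf, h3, h4, hN2]
        ring
    · -- four elements
      have : Finite (M σ) := finM
      have h4 : ({0, vz ζ, u, u + vz ζ} : Finset (M σ)).card = 4 := by
        have e1 : (0 : M σ) ≠ vz ζ := fun h5 => hζ (congrArg (fun m : M σ => m.2.2) h5).symm
        have e2 : (0 : M σ) ≠ u := by
          rintro rfl
          exact hy0 rfl
        have e3 : (0 : M σ) ≠ u + vz ζ := by
          intro h5
          have h6 : (0 : F) = u.2.1.1 + 0 := congrArg (fun m : M σ => m.2.1.1) h5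
          exact hy0 (by rw [add_zero] at h6; exact h6.symm)
        have e4 : vz ζ ≠ u := by
          rintro rfl
          exact hy0 rfl
        have e5 : vz ζ ≠ u + vz ζ := by
          intro h5
          have h6 : (0 : F) = u.2.1.1 + 0 := congrArg (fun m : M σ => m.2.1.1) h5
          exact hy0 (by rw [add_zero] at h6; exact h6.symm)
        have e6 : u ≠ u + vz ζ := by
          intro h5
          exact e1 (left_eq_add.1 h5).symm
        rw [Finset.card_insert_of_notMem, Finset.card_insert_of_notMem, Finset.card_insert_of_notMem,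
          Finset.card_singleton]
        · simpa using e6
        · simp only [Finset.mem_insert, Finset.mem_singleton, not_or]
          exact ⟨e4, e5⟩
        · simp only [Finset.mem_insert, Finset.mem_singleton, not_or]
          exact ⟨e1, e2, e3⟩
      rw [← h4, ← Set.ncard_coe_finset]
      have h5 : Nat.card U = (U : Set (M σ)).ncard := rfl
      rw [h5]
      apply Set.ncard_le_ncard _ (Set.toFinite _)
      intro m hm
      simp only [Finset.coe_insert, Finset.coe_singleton, Set.mem_insert_iff, Set.mem_singleton_iff] at hm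
      rcases hm with rfl | rfl | rfl | rfl
      · exact U.zero_mem
      · exact hH
      · exact hu
      · exact U.add_mem hu hH

end H41.Uf4
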