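import Mathlib
import Cfsg.Agent.Lib.H41.Uf4
import Cfsg.Agent.Lib.H7.QuadExt

/-! Counting hermitian matrices; the basic inequality; multiplicities of nonsingular matrices. -/

set_option autoImplicit false
set_option linter.unusedSectionVars false

namespace H41.Uf5

open Module H95.UBasic H95.UPar H95.UPair H57.Polar H41.UnA H41.UnA2 H41.Dual H41.Uf1 H41.Uf2 H41.Uf3
open H41.UnB (A0 mem_A0)

variable {F V : Type*} [Field F] [AddCommGroup V] [Module F V] {σ : F →+* F}
variable {h : V →ₗ[F] V →ₛₗ[σ] F} [FiniteDimensional F V] [Finite F]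

/-- numerical hypotheses -/
structure N4 (σ : F →+* F) (q : ℕ) : Prop where
  q2 : 2 ≤ q
  hq : Nat.card (A0 σ) = q
  hF : Nat.card F = q ^ 2
  hσ : ∀ a, σ a = a ^ q

variable {q : ℕ}

theorem card_ne (N : N4 σ q) : Nat.card {y : A0 σ // y.1 ≠ 0} = q - 1 := by
  classical
  have : Fintype (A0 σ) := Fintype.ofFinite _
  have h1 : Nat.card {y : A0 σ // y.1 ≠ 0} = Nat.card {y : A0 σ // y ≠ 0} := by
    apply Nat.card_congr
    apply Equiv.subtypeEquivRight
    intro y
    rw [ne_eq, ne_eq, not_iff_not]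
    exact ⟨fun h => Subtype.ext h, fun h => congrArg Subtype.val h⟩
  rw [h1, Nat.card_eq_fintype_card, Fintype.card_subtype_compl, Fintype.card_subtype_eq, ← Nat.card_eq_fintype_card, N.hq]

theorem card_norm (N : N4 σ q) {d : F} (hd : σ d = d) (hd0 : d ≠ 0) : Nat.card {z : F // z * σ z = d} = q + 1 := by
  have : Fintype F := Fintype.ofFinite F
  have hK : Fintype.card F = q ^ 2 := by rw [← Nat.card_eq_fintype_card, N.hF]
  rw [← H7.QuadExt.card_norm_eq hK (c := d) (by rw [← N.hσ]; exact hd) hd0]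
  apply Nat.card_congr
  apply Equiv.subtypeEquivRight
  intro z
  rw [pow_succ', N.hσ]

/-- lower bound for a class of nonsingular matrices -/
theorem card_cls (H : IsSkew h) (N : N4 σ q) {c : F} (hc : σ c = c) (hc0 : c ≠ 0) :
    q * (q ^ 2 + 1) ≤ Nat.card {m : M σ // qf m = c} := by
  let f : ({y : A0 σ // y.1 ≠ 0} × F) ⊕ ({z : F // z * σ z = -c} × A0 σ) → {m : M σ // qf m = c} :=
    Sum.elim (fun p => ⟨mkM ((c + p.2 * σ p.2) / p.1.1.1) p.1.1.1 p.2 (by
        rw [map_div₀, map_add, hc, map_mul, H.inv, p.1.1.2, mul_comm (σ p.2)]) p.1.1.2, by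
        change (c + p.2 * σ p.2) / p.1.1.1 * p.1.1.1 - p.2 * σ p.2 = c
        rw [div_mul_cancel₀ _ p.1.2]
        ring⟩)
      (fun p => ⟨mkM p.2.1 0 p.1.1 p.2.2 (map_zero σ), by
        change p.2.1 * 0 - p.1.1 * σ p.1.1 = c
        rw [p.1.2]
        ring⟩)
  have hf : Function.Injective f := by
    rintro (⟨y, z⟩ | ⟨z, x⟩) (⟨y', z'⟩ | ⟨z', x'⟩) hff
    · have h1 : y.1.1 = y'.1.1 := congrArg (fun m : {m : M σ // qf m = c} => m.1.2.1.1) hff
      have h2 : z = z' := congrArg (fun m : {m : M σ // qf m = c} => m.1.2.2) hff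
      have h3 : y = y' := Subtype.ext (Subtype.ext h1)
      rw [h2, h3]
    · exfalso
      have h1 : y.1.1 = 0 := congrArg (fun m : {m : M σ // qf m = c} => m.1.2.1.1) hff
      exact y.2 h1
    · exfalso
      have h1 : 0 = y'.1.1 := congrArg (fun m : {m : M σ // qf m = c} => m.1.2.1.1) hff
      exact y'.2 h1.symm
    · have h1 : x.1 = x'.1 := congrArg (fun m : {m : M σ // qf m = c} => m.1.1.1) hff
      have h2 : z.1 = z'.1 := congrArg (fun m : {m : M σ // qf m = c} => m.1.2.2) hff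
      rw [Subtype.ext h1, Subtype.ext h2]
  have h1 := Nat.card_le_card_of_injective f hf
  rw [Nat.card_sum, Nat.card_prod, Nat.card_prod, card_ne N, N.hF, N.hq,
    card_norm N (by rw [map_neg, hc]) (neg_ne_zero.2 hc0)] at h1
  refine le_trans (le_of_eq ?_) h1
  obtain ⟨s, rfl⟩ : ∃ s, q = s + 1 := ⟨q - 1, by have := N.q2; omega⟩
  rw [Nat.add_sub_cancel]
  ring

/-- lower bound for the class of singular matrices -/
theorem card_sing (H : IsSkew h) (N : N4 σ q) :
    (q ^ 2 + 1) * (q - 1) ≤ Nat.card {m : M σ // m ≠ 0 ∧ qf m = 0} := by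
  let f : ({y : A0 σ // y.1 ≠ 0} × F) ⊕ {x : A0 σ // x.1 ≠ 0} → {m : M σ // m ≠ 0 ∧ qf m = 0} :=
    Sum.elim (fun p => ⟨mkM ((p.2 * σ p.2) / p.1.1.1) p.1.1.1 p.2 (by
        rw [map_div₀, map_mul, H.inv, p.1.1.2, mul_comm (σ p.2)]) p.1.1.2, by
        intro h0
        exact p.1.2 (congrArg (fun m : M σ => m.2.1.1) h0), by
        change (p.2 * σ p.2) / p.1.1.1 * p.1.1.1 - p.2 * σ p.2 = 0
        rw [div_mul_cancel₀ _ p.1.2]
        ring⟩)
      (fun p => ⟨mkM p.1.1 0 0 p.1.2 (map_zero σ), by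
        intro h0
        exact p.2 (congrArg (fun m : M σ => m.1.1) h0), by
        change p.1.1 * 0 - 0 * σ 0 = 0
        ring⟩)
  have hf : Function.Injective f := by
    rintro (⟨y, z⟩ | x) (⟨y', z'⟩ | x') hff
    · have h1 : y.1.1 = y'.1.1 := congrArg (fun m : {m : M σ // m ≠ 0 ∧ qf m = 0} => m.1.2.1.1) hff
      have h2 : z = z' := congrArg (fun m : {m : M σ // m ≠ 0 ∧ qf m = 0} => m.1.2.2) hff
      have h3 : y = y' := Subtype.ext (Subtype.ext h1)
      rw [h2, h3]
    · exfalso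
      have h1 : y.1.1 = 0 := congrArg (fun m : {m : M σ // m ≠ 0 ∧ qf m = 0} => m.1.2.1.1) hff
      exact y.2 h1
    · exfalso
      have h1 : 0 = y'.1.1 := congrArg (fun m : {m : M σ // m ≠ 0 ∧ qf m = 0} => m.1.2.1.1) hff
      exact y'.2 h1.symm
    · have h1 : x.1.1 = x'.1.1 := congrArg (fun m : {m : M σ // m ≠ 0 ∧ qf m = 0} => m.1.1.1) hff
      rw [Subtype.ext (Subtype.ext h1)]
  have h1 := Nat.card_le_card_of_injective f hf
  rw [Nat.card_sum, Nat.card_prod, card_ne N, N.hF] at h1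
  refine le_trans (le_of_eq ?_) h1
  ring

theorem card_M (N : N4 σ q) : Nat.card (M σ) = q ^ 4 := by
  rw [Nat.card_prod, Nat.card_prod, N.hq, N.hF]
  ring

section total

variable {ψ : AddChar F ℂ} {B : B4 h} {e f e' f' : V} {Ω : Type*} [MulAction (SU h) Ω] [Finite Ω]

open Classical in
/-- the basic inequality -/
theorem total (hψ : ψ 1 ≠ 1) (T : TI h e f) (C : Finset (M σ)) (h0 : (0 : M σ) ∉ C) (k : M σ → ℕ)
    (hk : ∀ x ∈ C, k x ≤ mu hψ B T Ω x) : ∑ x ∈ C, k x + Nat.card (I B T Ω) ≤ Nat.card Ω := by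
  have : Fintype (I B T Ω) := Fintype.ofFinite _
  have : Fintype (M σ) := Fintype.ofFinite _
  have hsum := sum_card (B := B) (Ω := Ω) hψ T
  refine le_trans ?_ (le_of_eq hsum)
  have h1 : ∀ i : I B T Ω, (C.filter (fun x => x ∈ Ui hψ i)).card + 1 ≤ Nat.card (Ui hψ i) := by
    intro i
    have e1 : Nat.card (Ui hψ i) = (Finset.univ.filter (fun x => x ∈ Ui hψ i)).card := by
      rw [Nat.card_eq_fintype_card, Fintype.card_subtype]
    rw [e1, ← Finset.card_insert_of_notMem (a := (0 : M σ))]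
    · apply Finset.card_le_card
      intro x hx
      rw [Finset.mem_insert, Finset.mem_filter] at hx
      rw [Finset.mem_filter]
      refine ⟨Finset.mem_univ _, ?_⟩
      rcases hx with rfl | hx
      · exact AddSubgroup.zero_mem _
      · exact hx.2
    · rw [Finset.mem_filter]
      exact fun h => h0 h.1
  calc ∑ x ∈ C, k x + Nat.card (I B T Ω) = ∑ x ∈ C, k x + ∑ i : I B T Ω, 1 := by
        rw [Finset.sum_const, Finset.card_univ, smul_eq_mul, mul_one, Nat.card_eq_fintype_card]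
    _ ≤ ∑ x ∈ C, (Finset.univ.filter (fun i : I B T Ω => x ∈ Ui hψ i)).card + ∑ i : I B T Ω, 1 := by
        apply Nat.add_le_add_right
        apply Finset.sum_le_sum
        intro x hx
        rw [← OrbU.m_eq]
        exact hk x hx
    _ = ∑ i : I B T Ω, ((C.filter (fun x => x ∈ Ui hψ i)).card + 1) := by
        rw [OrbU.sum_filter (pair B hψ) Finset.univ C, Finset.sum_add_distrib]
    _ ≤ _ := Finset.sum_le_sum fun i _ => h1 i

/-- one value -/
theorem total1 (N : N4 σ q) (hψ : ψ 1 ≠ 1) (Φ : Fr h e f e' f') {H : M σ} (hH : qf H ≠ 0) :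
    mu hψ B Φ.toTI Ω H * (q * (q ^ 2 + 1)) + Nat.card (I B Φ.toTI Ω) ≤ Nat.card Ω := by
  classical
  have : Fintype (M σ) := Fintype.ofFinite _
  have h1 := total (B := B) (Ω := Ω) hψ Φ.toTI (Finset.univ.filter (fun m : M σ => qf m = qf H)) (by
    rw [Finset.mem_filter, qf_zero]
    exact fun h => hH h.2.symm) (fun _ => mu hψ B Φ.toTI Ω H) (by
    intro x hx
    rw [Finset.mem_filter] at hx
    refine le_of_eq (mu_eq Φ ?_ ?_ hx.2.symm)
    · rintro rfl
      exact hH qf_zero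
    · rintro rfl
      exact hH (by rw [← hx.2, qf_zero]))
  rw [Finset.sum_const, smul_eq_mul, mul_comm] at h1
  refine le_trans (Nat.add_le_add_right (Nat.mul_le_mul_left _ ?_) _) h1
  have h2 := card_cls B.H N (qf_fixed B.H.inv H) hH
  rwa [Nat.card_eq_fintype_card, Fintype.card_subtype] at h2

/-- one nonsingular value and the singular class -/
theorem total2 (N : N4 σ q) (hψ : ψ 1 ≠ 1) (Φ : Fr h e f e' f') {H z : M σ} (hH : qf H ≠ 0) (hz0 : z ≠ 0) (hz : qf z = 0) :
    mu hψ B Φ.toTI Ω H * (q * (q ^ 2 + 1)) + mu hψ B Φ.toTI Ω z * ((q ^ 2 + 1) * (q - 1)) + Nat.card (I B Φ.toTI Ω)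
      ≤ Nat.card Ω := by
  classical
  have : Fintype (M σ) := Fintype.ofFinite _
  have hd : Disjoint (Finset.univ.filter (fun m : M σ => qf m = qf H)) (Finset.univ.filter (fun m : M σ => m ≠ 0 ∧ qf m = 0)) := by
    rw [Finset.disjoint_left]
    intro x hx hx'
    rw [Finset.mem_filter] at hx hx'
    exact hH (by rw [← hx.2, hx'.2.2])
  have h1 := total (B := B) (Ω := Ω) hψ Φ.toTI (Finset.univ.filter (fun m : M σ => qf m = qf H) ∪
    Finset.univ.filter (fun m : M σ => m ≠ 0 ∧ qf m = 0)) (by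
    rw [Finset.mem_union, Finset.mem_filter, Finset.mem_filter, qf_zero]
    rintro (h | h)
    · exact hH h.2.symm
    · exact h.2.1 rfl) (fun x => if qf x = 0 then mu hψ B Φ.toTI Ω z else mu hψ B Φ.toTI Ω H) (by
    intro x hx
    rw [Finset.mem_union, Finset.mem_filter, Finset.mem_filter] at hx
    rcases hx with hx | hx
    · rw [if_neg (by rw [hx.2]; exact hH)]
      refine le_of_eq (mu_eq Φ ?_ ?_ hx.2.symm)
      · rintro rfl
        exact hH qf_zero
      · rintro rfl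
        exact hH (by rw [← hx.2, qf_zero])
    · rw [if_pos hx.2.2]
      exact le_of_eq (mu_eq Φ hz0 hx.2.1 (by rw [hz, hx.2.2])))
  rw [Finset.sum_union hd] at h1
  have e1 : ∑ x ∈ Finset.univ.filter (fun m : M σ => qf m = qf H), (if qf x = 0 then mu hψ B Φ.toTI Ω z else mu hψ B Φ.toTI Ω H)
      = mu hψ B Φ.toTI Ω H * (Finset.univ.filter (fun m : M σ => qf m = qf H)).card := by
    rw [Finset.sum_congr rfl (g := fun _ => mu hψ B Φ.toTI Ω H), Finset.sum_const, smul_eq_mul, mul_comm]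
    intro x hx
    rw [Finset.mem_filter] at hx
    rw [if_neg (by rw [hx.2]; exact hH)]
  have e2 : ∑ x ∈ Finset.univ.filter (fun m : M σ => m ≠ 0 ∧ qf m = 0), (if qf x = 0 then mu hψ B Φ.toTI Ω z else mu hψ B Φ.toTI Ω H)
      = mu hψ B Φ.toTI Ω z * (Finset.univ.filter (fun m : M σ => m ≠ 0 ∧ qf m = 0)).card := by
    rw [Finset.sum_congr rfl (g := fun _ => mu hψ B Φ.toTI Ω z), Finset.sum_const, smul_eq_mul, mul_comm]
    intro x hx
    rw [Finset.mem_filter] at hx
    rw [if_pos hx.2.2]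
  rw [e1, e2] at h1
  refine le_trans (Nat.add_le_add_right (Nat.add_le_add (Nat.mul_le_mul_left _ ?_) (Nat.mul_le_mul_left _ ?_)) _) h1
  · have h2 := card_cls B.H N (qf_fixed B.H.inv H) hH
    rwa [Nat.card_eq_fintype_card, Fintype.card_subtype] at h2
  · have h2 := card_sing B.H N
    rwa [Nat.card_eq_fintype_card, Fintype.card_subtype] at h2

/-- two nonsingular values -/
theorem total3 (N : N4 σ q) (hψ : ψ 1 ≠ 1) (Φ : Fr h e f e' f') {H H' : M σ} (hH : qf H ≠ 0) (hH' : qf H' ≠ 0)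
    (hne : qf H ≠ qf H') :
    mu hψ B Φ.toTI Ω H * (q * (q ^ 2 + 1)) + mu hψ B Φ.toTI Ω H' * (q * (q ^ 2 + 1)) + Nat.card (I B Φ.toTI Ω)
      ≤ Nat.card Ω := by
  classical
  have : Fintype (M σ) := Fintype.ofFinite _
  have hd : Disjoint (Finset.univ.filter (fun m : M σ => qf m = qf H)) (Finset.univ.filter (fun m : M σ => qf m = qf H')) := by
    rw [Finset.disjoint_left]
    intro x hx hx'
    rw [Finset.mem_filter] at hx hx'
    exact hne (by rw [← hx.2, hx'.2])
  have h1 := total (B := B) (Ω := Ω) hψ Φ.toTI (Finset.univ.filter (fun m : M σ => qf m = qf H) ∪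
    Finset.univ.filter (fun m : M σ => qf m = qf H')) (by
    rw [Finset.mem_union, Finset.mem_filter, Finset.mem_filter, qf_zero]
    rintro (h | h)
    · exact hH h.2.symm
    · exact hH' h.2.symm) (fun x => if qf x = qf H then mu hψ B Φ.toTI Ω H else mu hψ B Φ.toTI Ω H') (by
    intro x hx
    rw [Finset.mem_union, Finset.mem_filter, Finset.mem_filter] at hx
    rcases hx with hx | hx
    · rw [if_pos hx.2]
      refine le_of_eq (mu_eq Φ ?_ ?_ hx.2.symm)
      · rintro rfl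
        exact hH qf_zero
      · rintro rfl
        exact hH (by rw [← hx.2, qf_zero])
    · rw [if_neg (by rw [hx.2]; exact hne.symm)]
      refine le_of_eq (mu_eq Φ ?_ ?_ hx.2.symm)
      · rintro rfl
        exact hH' qf_zero
      · rintro rfl
        exact hH' (by rw [← hx.2, qf_zero]))
  rw [Finset.sum_union hd] at h1
  have e1 : ∑ x ∈ Finset.univ.filter (fun m : M σ => qf m = qf H), (if qf x = qf H then mu hψ B Φ.toTI Ω H else mu hψ B Φ.toTI Ω H')
      = mu hψ B Φ.toTI Ω H * (Finset.univ.filter (fun m : M σ => qf m = qf H)).card := by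
    rw [Finset.sum_congr rfl (g := fun _ => mu hψ B Φ.toTI Ω H), Finset.sum_const, smul_eq_mul, mul_comm]
    intro x hx
    rw [Finset.mem_filter] at hx
    rw [if_pos hx.2]
  have e2 : ∑ x ∈ Finset.univ.filter (fun m : M σ => qf m = qf H'), (if qf x = qf H then mu hψ B Φ.toTI Ω H else mu hψ B Φ.toTI Ω H')
      = mu hψ B Φ.toTI Ω H' * (Finset.univ.filter (fun m : M σ => qf m = qf H')).card := by
    rw [Finset.sum_congr rfl (g := fun _ => mu hψ B Φ.toTI Ω H'), Finset.sum_const, smul_eq_mul, mul_comm]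
    intro x hx
    rw [Finset.mem_filter] at hx
    rw [if_neg (by rw [hx.2]; exact hne.symm)]
  rw [e1, e2] at h1
  refine le_trans (Nat.add_le_add_right (Nat.add_le_add (Nat.mul_le_mul_left _ ?_) (Nat.mul_le_mul_left _ ?_)) _) h1
  · have h2 := card_cls B.H N (qf_fixed B.H.inv H) hH
    rwa [Nat.card_eq_fintype_card, Fintype.card_subtype] at h2
  · have h2 := card_cls B.H N (qf_fixed B.H.inv H') hH'
    rwa [Nat.card_eq_fintype_card, Fintype.card_subtype] at h2

/-- a square class -/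
theorem total_sq (N : N4 σ q) (hψ : ψ 1 ≠ 1) (Φ : Fr h e f e' f') {H : M σ} (hH : qf H ≠ 0) (S : Finset F)
    (hS : ∀ c ∈ S, ∃ δ, σ δ = δ ∧ δ ≠ 0 ∧ c = δ * δ * qf H) :
    mu hψ B Φ.toTI Ω H * (S.card * (q * (q ^ 2 + 1))) ≤ Nat.card Ω := by
  classical
  have : Fintype (M σ) := Fintype.ofFinite _
  have h1 := total (B := B) (Ω := Ω) hψ Φ.toTI (S.biUnion (fun c => Finset.univ.filter (fun m : M σ => qf m = c))) (by
    rw [Finset.mem_biUnion]
    rintro ⟨c, hc, hc'⟩
    rw [Finset.mem_filter, qf_zero] at hc'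
    obtain ⟨δ, -, hδ0, hcδ⟩ := hS c hc
    rw [← hc'.2] at hcδ
    exact mul_ne_zero (mul_ne_zero hδ0 hδ0) hH hcδ.symm) (fun _ => mu hψ B Φ.toTI Ω H) (by
    intro x hx
    rw [Finset.mem_biUnion] at hx
    obtain ⟨c, hc, hc'⟩ := hx
    rw [Finset.mem_filter] at hc'
    obtain ⟨δ, hδ, hδ0, hcδ⟩ := hS c hc
    refine le_of_eq (mu_scale Φ ?_ ?_ hδ hδ0 (by rw [hc'.2, hcδ])).symm
    · rintro rfl
      rw [qf_zero, hcδ] at hc'
      exact mul_ne_zero (mul_ne_zero hδ0 hδ0) hH hc'.2.symm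
    · rintro rfl
      exact hH qf_zero)
  rw [Finset.sum_const, smul_eq_mul, mul_comm] at h1
  refine le_trans (Nat.mul_le_mul_left _ ?_) ((Nat.le_add_right _ _).trans h1)
  rw [Finset.card_biUnion (by
    intro c _ c' _ hcc
    rw [Function.onFun, Finset.disjoint_left]
    intro x hx hx'
    rw [Finset.mem_filter] at hx hx'
    exact hcc (hx.2.symm.trans hx'.2))]
  rw [← smul_eq_mul, ← Finset.sum_const]
  apply Finset.sum_le_sum
  intro c hc
  obtain ⟨δ, hδ, hδ0, hcδ⟩ := hS c hc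
  have h2 := card_cls B.H N (c := c) (by rw [hcδ, map_mul, map_mul, hδ, qf_fixed B.H.inv]) (by
    rw [hcδ]
    exact mul_ne_zero (mul_ne_zero hδ0 hδ0) hH)
  rwa [Nat.card_eq_fintype_card, Fintype.card_subtype] at h2

end total

end H41.Uf5
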