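import Mathlib
import Cfsg.Agent.Lib.H41.Uf5

/-! Multiplicities of nonsingular hermitian matrices are smaller than the characteristic. -/

set_option autoImplicit false
set_option linter.unusedSectionVars false

namespace H41.Uf6

open Module H95.UBasic H95.UPar H95.UPair H57.Polar H41.UnA H41.UnA2 H41.Dual H41.Uf1 H41.Uf2 H41.Uf3 H41.Uf5
open H41.UnB (A0 mem_A0)

variable {F V : Type*} [Field F] [AddCommGroup V] [Module F V] {σ : F →+* F}
variable {h : V →ₗ[F] V →ₛₗ[σ] F} [FiniteDimensional F V] [Finite F]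
variable {q : ℕ}

theorem p_dvd (N : N4 σ q) {p : ℕ} (hp : p.Prime) (hpF : (p : F) = 0) : p ∣ q := by
  rw [← N.hq]
  have h1 : addOrderOf (⟨1, map_one σ⟩ : A0 σ) = p := by
    have := Fact.mk hp
    apply addOrderOf_eq_prime
    · apply Subtype.ext
      change p • (1 : F) = 0
      rw [nsmul_eq_mul, hpF, zero_mul]
    · intro h0
      exact one_ne_zero (congrArg Subtype.val h0)
  rw [← h1]
  exact addOrderOf_dvd_natCard _

theorem two_of (N : N4 σ q) {p : ℕ} (hp : p.Prime) (hpF : (p : F) = 0) (h2 : (2 : F) = 0) : p = 2 := by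
  have h1 : ringChar F ∣ 2 := ringChar.dvd (by exact_mod_cast h2)
  have h3 : ringChar F ∣ p := ringChar.dvd hpF
  have h4 : ringChar F ≠ 1 := by
    intro h5
    have := ringChar.spec F 1
    rw [h5] at this
    have h6 := this.2 dvd_rfl
    simp at h6
  rcases (Nat.dvd_prime Nat.prime_two).1 h1 with h5 | h5
  · exact absurd h5 h4
  · rw [h5] at h3
    exact ((Nat.prime_dvd_prime_iff_eq Nat.prime_two hp).1 h3).symm

section sq

variable {ψ : AddChar F ℂ} {B : B4 h} {e f e' f' : V} {Ω : Type*} [MulAction (SU h) Ω] [Finite Ω]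

open Classical in
/-- the square class of a value -/
theorem exists_S (N : N4 σ q) {c : F} (hc : c ≠ 0) : ∃ S : Finset F, (∀ d ∈ S, ∃ δ, σ δ = δ ∧ δ ≠ 0 ∧ d = δ * δ * c) ∧
    q - 1 ≤ 2 * S.card ∧ ((2 : F) = 0 → q - 1 ≤ S.card) := by
  have : Fintype F := Fintype.ofFinite F
  let T : Finset F := Finset.univ.filter (fun δ => σ δ = δ ∧ δ ≠ 0)
  have hT : T.card = q - 1 := by
    rw [← card_ne N, ← Fintype.card_subtype, ← Nat.card_eq_fintype_card]
    apply Nat.card_congr
    exact
      { toFun := fun x => ⟨⟨x.1, x.2.1⟩, x.2.2⟩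
        invFun := fun x => ⟨x.1.1, x.1.2, x.2⟩
        left_inv := fun x => rfl
        right_inv := fun x => rfl }
  refine ⟨T.image (fun δ => δ * δ * c), ?_, ?_, ?_⟩
  · intro d hd
    obtain ⟨δ, hδ, rfl⟩ := Finset.mem_image.1 hd
    have := (Finset.mem_filter.1 hδ).2
    exact ⟨δ, this.1, this.2, rfl⟩
  · rw [← hT]
    apply Finset.card_le_mul_card_image
    intro a ha
    obtain ⟨δ, hδ, rfl⟩ := Finset.mem_image.1 ha
    refine le_trans (Finset.card_le_card (t := {δ, -δ}) ?_) Finset.card_le_two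
    intro x hx
    rw [Finset.mem_filter] at hx
    have h1 : x * x = δ * δ := mul_right_cancel₀ hc hx.2
    rw [Finset.mem_insert, Finset.mem_singleton]
    exact mul_self_eq_mul_self_iff.1 h1
  · intro h2
    rw [← hT, Finset.card_image_of_injective]
    intro x y hxy
    have h1 : x * x = y * y := mul_right_cancel₀ hc hxy
    rcases mul_self_eq_mul_self_iff.1 h1 with h3 | h3
    · exact h3
    · rw [h3]
      linear_combination (-y) * h2

/-- large fields -/
theorem mu_lt_large (N : N4 σ q) (hq4 : 4 ≤ q) {p : ℕ} (hp : p.Prime) (hpF : (p : F) = 0) (hψ : ψ 1 ≠ 1)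
    (Φ : Fr h e f e' f') (hΩ : Nat.card Ω ≤ q ^ 4 + q ^ 3 + q) {H : M σ} (hH : qf H ≠ 0) :
    mu hψ B Φ.toTI Ω H < p := by
  by_contra hcon
  push Not at hcon
  obtain ⟨S, hS, h1, h2⟩ := exists_S N hH
  have h3 := (total_sq (B := B) (Ω := Ω) N hψ Φ hH S hS).trans hΩ
  by_cases h20 : (2 : F) = 0
  · have hp2 := two_of N hp hpF h20
    subst hp2
    have h4 := h2 h20
    have h5 : 2 * ((q - 1) * (q * (q ^ 2 + 1))) ≤ q ^ 4 + q ^ 3 + q :=
      le_trans (Nat.mul_le_mul hcon (Nat.mul_le_mul_right _ h4)) h3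
    obtain ⟨s, rfl⟩ : ∃ s, q = s + 4 := ⟨q - 4, by omega⟩
    have e1 : s + 4 - 1 = s + 3 := by omega
    rw [e1] at h5
    nlinarith
  · have hp2 : p ≠ 2 := by
      rintro rfl
      exact h20 (by exact_mod_cast hpF)
    have hp3 : 3 ≤ p := by
      have := hp.two_le
      omega
    have hpq := p_dvd N hp hpF
    have hq5 : 5 ≤ q := by
      rcases Nat.eq_or_lt_of_le hq4 with h5 | h5
      · exfalso
        rw [← h5] at hpq
        have h6 : p ∣ 2 ^ 2 := hpq
        have h7 := hp.dvd_of_dvd_pow h6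
        exact hp2 ((Nat.prime_dvd_prime_iff_eq hp Nat.prime_two).1 h7)
      · exact h5
    have h5 : 3 * (S.card * (q * (q ^ 2 + 1))) ≤ q ^ 4 + q ^ 3 + q :=
      le_trans (Nat.mul_le_mul_right _ (hp3.trans hcon)) h3
    have h6 : (q - 1) * (q * (q ^ 2 + 1)) ≤ 2 * (S.card * (q * (q ^ 2 + 1))) := by
      rw [← mul_assoc 2]
      exact Nat.mul_le_mul_right _ h1
    obtain ⟨s, rfl⟩ : ∃ s, q = s + 5 := ⟨q - 5, by omega⟩
    have e1 : s + 5 - 1 = s + 4 := by omega
    rw [e1] at h6
    nlinarith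

/-- multiplicity as the number of orbits -/
theorem mu_le_I (hψ : ψ 1 ≠ 1) (T : TI h e f) (x : M σ) : mu hψ B T Ω x ≤ Nat.card (I B T Ω) := by
  rw [mu, OrbU.m]
  exact Nat.card_le_card_of_injective Subtype.val Subtype.val_injective

theorem mu_zero_iff {hψ : ψ 1 ≠ 1} {T : TI h e f} {x : M σ} (h0 : mu hψ B T Ω x = 0) (i : I B T Ω) : x ∉ Ui hψ i := by
  intro hx
  rw [mu, OrbU.m] at h0
  have h1 := Nat.card_eq_zero.1 h0
  rcases h1 with h1 | h1
  · exact h1.false ⟨i, hx⟩
  · exact h1.not_finite inferInstance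

open Classical in
/-- the sum, when all duals are small -/
theorem sum_le (hψ : ψ 1 ≠ 1) (T : TI h e f) {k : ℕ} (hk : ∀ i : I B T Ω, Nat.card (Ui hψ i) ≤ k) :
    Nat.card Ω ≤ k * Nat.card (I B T Ω) := by
  have : Fintype (I B T Ω) := Fintype.ofFinite _
  have hsum := sum_card (B := B) (Ω := Ω) hψ T
  rw [← hsum, Nat.card_eq_fintype_card, mul_comm, ← smul_eq_mul, ← Finset.card_univ, ← Finset.sum_const]
  exact Finset.sum_le_sum fun i _ => hk i

/-- `q = 3` -/
theorem mu_lt_three (N : N4 σ 3) (h3F : (3 : F) = 0) (hψ : ψ 1 ≠ 1)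
    (Φ : Fr h e f e' f') (hΩ : Nat.card Ω ≤ 3 ^ 4 + 3 ^ 3 + 3) {H : M σ} (hH : qf H ≠ 0) :
    mu hψ B Φ.toTI Ω H < 3 := by
  classical
  by_contra hcon
  push Not at hcon
  have h2 : (2 : F) ≠ 0 := by
    intro h0
    apply one_ne_zero (α := F)
    linear_combination h3F - h0
  have hI := mu_le_I (B := B) (Ω := Ω) hψ Φ.toTI H
  have hs : ∀ i : I B Φ.toTI Ω, ∀ x ∈ Ui hψ i, x ≠ 0 → qf x = qf H := by
    intro i x hx hx0
    by_contra hne
    by_cases hz : qf x = 0
    · have h1 := (total2 (Ω := Ω) (B := B) N hψ Φ hH hx0 hz).trans hΩ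
      have h4 : mu hψ B Φ.toTI Ω x = 0 := by omega
      exact mu_zero_iff h4 i hx
    · have h1 := (total3 (Ω := Ω) (B := B) N hψ Φ hH hz (Ne.symm hne)).trans hΩ
      have h4 : mu hψ B Φ.toTI Ω x = 0 := by omega
      exact mu_zero_iff h4 i hx
  have hcard : ∀ i : I B Φ.toTI Ω, Nat.card (Ui hψ i) ≤ 3 := by
    intro i
    by_cases h0 : ∃ x ∈ Ui hψ i, x ≠ 0
    · obtain ⟨x, hx, hx0⟩ := h0
      have hsub : ((Ui hψ i : AddSubgroup (M σ)) : Set (M σ)) ⊆ (({0, x, -x} : Finset (M σ)) : Set (M σ)) := by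
        intro y hy
        rw [Finset.mem_coe, Finset.mem_insert, Finset.mem_insert, Finset.mem_singleton]
        by_contra hne
        push Not at hne
        have a1 := hs i x hx hx0
        have a2 := hs i y hy hne.1
        have a3 := hs i (x + y) ((Ui hψ i).add_mem hx hy) (by
          intro h5
          exact hne.2.2 (eq_neg_of_add_eq_zero_right h5))
        have a4 := hs i (x + -y) ((Ui hψ i).add_mem hx ((Ui hψ i).neg_mem hy)) (by
          intro h5
          exact hne.2.1 (add_neg_eq_zero.1 h5).symm)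
        rw [qf_add] at a3 a4
        have e1 : qf (-y) = qf y := by
          change (-y.1.1) * (-y.2.1.1) - (-y.2.2) * σ (-y.2.2) = _
          rw [map_neg, qf]
          ring
        have e2 : bf x (-y) = - bf x y := by
          have := bf_add x y (-y)
          rw [add_neg_cancel, bf_zero] at this
          linear_combination -this
        rw [e1, e2] at a4
        apply hH
        have : (2 : F) * qf H = 0 := by linear_combination a3 + a4 - 2 * a1 - 2 * a2
        exact (mul_eq_zero.1 this).resolve_left h2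
      have h5 := Nat.card_mono (Finset.finite_toSet _) hsub
      refine h5.trans ?_
      rw [Nat.card_eq_card_toFinset, Finset.toFinset_coe]
      exact Finset.card_le_three
    · push Not at h0
      have : Nat.card (Ui hψ i) ≤ 1 := by
        have hsub : Subsingleton (Ui hψ i) := ⟨fun a b => Subtype.ext ((h0 _ a.2).trans (h0 _ b.2).symm)⟩
        exact Finite.card_le_one_iff_subsingleton.2 hsub
      omega
  have h6 := sum_le hψ Φ.toTI hcard
  have h7 := (total1 (Ω := Ω) (B := B) N hψ Φ hH)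
  omega

/-- `q = 2` -/
theorem mu_lt_two (N : N4 σ 2) (h2F : (2 : F) = 0) (hψ : ψ 1 ≠ 1)
    (Φ : Fr h e f e' f') (hΩ : Nat.card Ω ≤ 2 ^ 4 + 2 ^ 3 + 2) {H : M σ} (hH : qf H ≠ 0) :
    mu hψ B Φ.toTI Ω H < 2 := by
  classical
  by_contra hcon
  push Not at hcon
  have hI := mu_le_I (B := B) (Ω := Ω) hψ Φ.toTI H
  have h01 : ∀ c : F, σ c = c → c ≠ 0 → c = 1 := by
    intro c hc hc0
    by_contra hc1
    have h1 : Nat.card (Fin 3) ≤ Nat.card (A0 σ) := by
      apply Nat.card_le_card_of_injective (f := (![⟨0, map_zero σ⟩, ⟨1, map_one σ⟩, ⟨c, hc⟩] : Fin 3 → A0 σ))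
      intro i j hij
      fin_cases i <;> fin_cases j <;> simp_all [Subtype.ext_iff]
    rw [N.hq, Nat.card_eq_fintype_card, Fintype.card_fin] at h1
    omega
  have hs : ∀ i : I B Φ.toTI Ω, ∀ x ∈ Ui hψ i, x ≠ 0 → qf x = 1 := by
    intro i x hx hx0
    by_cases hz : qf x = 0
    · exfalso
      have h1 := (total2 (Ω := Ω) (B := B) N hψ Φ hH hx0 hz).trans hΩ
      have h4 : mu hψ B Φ.toTI Ω x = 0 := by omega
      exact mu_zero_iff h4 i hx
    · exact h01 _ (qf_fixed B.H.inv x) hz
  have hcard : ∀ i : I B Φ.toTI Ω, Nat.card (Ui hψ i) ≤ 4 := by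
    intro i
    by_cases h0 : ∃ x ∈ Ui hψ i, ∃ y ∈ Ui hψ i, x ≠ 0 ∧ y ≠ 0 ∧ x ≠ y
    · obtain ⟨x, hx, y, hy, hx0, hy0, hxy⟩ := h0
      have hneg : ∀ m : M σ, m + m = 0 := by
        intro m
        apply extM
        · change m.1.1 + m.1.1 = 0
          linear_combination m.1.1 * h2F
        · change m.2.1.1 + m.2.1.1 = 0
          linear_combination m.2.1.1 * h2F
        · change m.2.2 + m.2.2 = 0
          linear_combination m.2.2 * h2F
      have heq : ∀ a b : M σ, a + b = 0 → a = b := by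
        intro a b hab
        have h5 := hneg b
        rw [← hab] at h5
        exact (add_right_cancel h5).symm
      have hbf : ∀ a ∈ Ui hψ i, ∀ b ∈ Ui hψ i, a ≠ 0 → b ≠ 0 → a ≠ b → bf a b = 1 := by
        intro a ha b hb ha0 hb0 hab
        have h5 := hs i (a + b) ((Ui hψ i).add_mem ha hb) (fun h => hab (heq _ _ h))
        rw [qf_add, hs i a ha ha0, hs i b hb hb0] at h5
        linear_combination h5 - h2F
      have hsub : ((Ui hψ i : AddSubgroup (M σ)) : Set (M σ)) ⊆ (({0, x, y, x + y} : Finset (M σ)) : Set (M σ)) := by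
        intro z hz
        rw [Finset.mem_coe, Finset.mem_insert, Finset.mem_insert, Finset.mem_insert, Finset.mem_singleton]
        by_contra hne
        push Not at hne
        have h5 := hbf (x + y) ((Ui hψ i).add_mem hx hy) z hz (fun h => hxy (heq _ _ h)) hne.1 (Ne.symm hne.2.2.2)
        rw [bf_add_left, hbf x hx z hz hx0 hne.1 (Ne.symm hne.2.1), hbf y hy z hz hy0 hne.1 (Ne.symm hne.2.2.1)] at h5
        apply one_ne_zero (α := F)
        linear_combination h5
      have h5 := Nat.card_mono (Finset.finite_toSet _) hsub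
      refine h5.trans ?_
      rw [Nat.card_eq_card_toFinset, Finset.toFinset_coe]
      exact Finset.card_le_four
    · push Not at h0
      have : Nat.card (Ui hψ i) ≤ 2 := by
        by_cases h6 : ∃ x ∈ Ui hψ i, x ≠ 0
        · obtain ⟨x, hx, hx0⟩ := h6
          have hsub : ((Ui hψ i : AddSubgroup (M σ)) : Set (M σ)) ⊆ (({0, x} : Finset (M σ)) : Set (M σ)) := by
            intro z hz
            rw [Finset.mem_coe, Finset.mem_insert, Finset.mem_singleton]
            by_contra hne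
            push Not at hne
            exact hne.2 (h0 x hx z hz hx0 hne.1).symm
          have h5 := Nat.card_mono (Finset.finite_toSet _) hsub
          refine h5.trans ?_
          rw [Nat.card_eq_card_toFinset, Finset.toFinset_coe]
          exact Finset.card_le_two
        · push Not at h6
          have hsub : Subsingleton (Ui hψ i) := ⟨fun a b => Subtype.ext ((h6 _ a.2).trans (h6 _ b.2).symm)⟩
          have := Finite.card_le_one_iff_subsingleton.2 hsub
          omega
      omega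
  have h6 := sum_le hψ Φ.toTI hcard
  have h7 := (total1 (Ω := Ω) (B := B) N hψ Φ hH)
  omega

/-- all cases -/
theorem mu_lt (N : N4 σ q) {p : ℕ} (hp : p.Prime) (hpF : (p : F) = 0) (hψ : ψ 1 ≠ 1)
    (Φ : Fr h e f e' f') (hΩ : Nat.card Ω ≤ q ^ 4 + q ^ 3 + q) {H : M σ} (hH : qf H ≠ 0) :
    mu hψ B Φ.toTI Ω H < p := by
  have hq2 := N.q2
  have hpq := p_dvd N hp hpF
  rcases Nat.lt_or_ge q 4 with h4 | h4
  · have h5 : q = 2 ∨ q = 3 := by omega
    rcases h5 with rfl | rfl
    · have h6 := (Nat.prime_dvd_prime_iff_eq hp Nat.prime_two).1 hpq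
      subst h6
      exact mu_lt_two N (by exact_mod_cast hpF) hψ Φ hΩ hH
    · have h6 := (Nat.prime_dvd_prime_iff_eq hp Nat.prime_three).1 hpq
      subst h6
      exact mu_lt_three N (by exact_mod_cast hpF) hψ Φ hΩ hH
  · exact mu_lt_large N h4 hp hpF hψ Φ hΩ hH

end sq

end H41.Uf6
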