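import Mathlib
import Cfsg.Agent.Lib.H41.Uf6
import Cfsg.Agent.Lib.H41.Uf4

/-! The duals of the stabilisers: everything, or contained in a line. -/

set_option autoImplicit false
set_option linter.unusedSectionVars false

namespace H41.Uf7

open Module H95.UBasic H95.UPar H95.UPair H57.Polar H41.UnA H41.UnA2 H41.Dual H41.Uf1 H41.Uf2 H41.Uf3 H41.Uf4 H41.Uf5
  H41.Uf6
open H41.UnB (A0 mem_A0)

variable {F V : Type*} [Field F] [AddCommGroup V] [Module F V] {σ : F →+* F}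
variable {h : V →ₗ[F] V →ₛₗ[σ] F} [FiniteDimensional F V] [Finite F]
variable {q p : ℕ} {ψ : AddChar F ℂ} {B : B4 h} {Ω : Type*} [MulAction (SU h) Ω] [Finite Ω]

/-- standing hypotheses -/
structure Cx (B : B4 h) (q p : ℕ) (ψ : AddChar F ℂ) (Ω : Type*) : Prop where
  N : N4 σ q
  hp : p.Prime
  hpF : (p : F) = 0
  hψ : ψ 1 ≠ 1
  hΩ : Nat.card Ω ≤ q ^ 4 + q ^ 3 + q

theorem Cx.mu_lt (C : Cx B q p ψ Ω) {e f e' f' : V} (Φ : Fr h e f e' f') {H : M σ} (hH : qf H ≠ 0) :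
    mu C.hψ B Φ.toTI Ω H < p := Uf6.mu_lt C.N C.hp C.hpF C.hψ Φ C.hΩ hH

variable {e f e' f' : V}

theorem perm_pow_eq {g : SU h} {k : ℕ} (hg : g ^ k = 1) : (MulAction.toPerm (α := SU h) (β := Ω) g) ^ k = 1 := by
  change (MulAction.toPermHom (SU h) Ω g) ^ k = 1
  rw [← map_pow, hg, map_one]

theorem stab1 (C : Cx B q p ψ Ω) (Φ : Fr h e f e' f') {i : I B Φ.toTI Ω} {x : M σ} (hx : x ∈ Ui C.hψ i)
    (hxq : qf x ≠ 0) {r : F} (ht : t1 B.H.inv r x = x) {u : M σ} (hu : u ∈ Ui C.hψ i) : t1 B.H.inv r u ∈ Ui C.hψ i := by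
  let T := tr (B := B) C.hψ Φ.toTI Ω (T1 Φ r) (t1 B.H.inv r) (bf_of_qf (qf_t1 B.H.inv r))
  have h1 : (T1 (B := B) Φ r).g ^ p = 1 := by
    rw [T1_g, E_pow B Φ.ee (by rw [map_smulₛₗ, Φ.ef', smul_zero]) (by simp [Φ.f'f']), C.hpF, zero_smul, E_zero]
  have h2 : T.perm i = i := T.perm_eq C.hp (perm_pow_eq h1) ht (C.mu_lt Φ hxq) hx
  exact (T.mem_of_perm_eq h2).2 hu

theorem stab2 (C : Cx B q p ψ Ω) (Φ : Fr h e f e' f') {i : I B Φ.toTI Ω} {x : M σ} (hx : x ∈ Ui C.hψ i)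
    (hxq : qf x ≠ 0) {r : F} (ht : t2 B.H.inv r x = x) {u : M σ} (hu : u ∈ Ui C.hψ i) : t2 B.H.inv r u ∈ Ui C.hψ i := by
  let T := tr (B := B) C.hψ Φ.toTI Ω (T2 Φ r) (t2 B.H.inv r) (bf_of_qf (qf_t2 B.H.inv r))
  have h1 : (T2 (B := B) Φ r).g ^ p = 1 := by
    rw [T2_g, E_pow B Φ.ff (by rw [map_smulₛₗ, Φ.fe', smul_zero]) (by simp [Φ.e'e']), C.hpF, zero_smul, E_zero]
  have h2 : T.perm i = i := T.perm_eq C.hp (perm_pow_eq h1) ht (C.mu_lt Φ hxq) hx
  exact (T.mem_of_perm_eq h2).2 hu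

theorem qf_vz (ζ : F) : qf (vz ζ : M σ) = -(ζ * σ ζ) := by
  change 0 * 0 - ζ * σ ζ = _
  ring

theorem qf_vz_ne (H : IsSkew h) {ζ : F} (hζ : ζ ≠ 0) : qf (vz ζ : M σ) ≠ 0 := by
  rw [qf_vz]
  exact neg_ne_zero.2 (mul_ne_zero hζ (fun h0 => hζ (H.inj h0)))

theorem St0_of (C : Cx B q p ψ Ω) (Φ : Fr h e f e' f') (i : I B Φ.toTI Ω) : St0 B.H.inv (Ui C.hψ i) where
  a ζ hζ hz r hr u hu := by
    refine stab1 C Φ hz (qf_vz_ne B.H hζ) ?_ hu
    apply extM
    · change 0 + (ζ * σ r + σ ζ * r) + 0 * (r * σ r) = 0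
      rw [hr]; ring
    · rfl
    · change ζ + r * 0 = ζ
      ring
  b ζ hζ hz r hr u hu := by
    refine stab2 C Φ hz (qf_vz_ne B.H hζ) ?_ hu
    apply extM
    · rfl
    · change 0 + (ζ * r + σ ζ * σ r) + 0 * (r * σ r) = 0
      rw [hr]; ring
    · change ζ + σ r * 0 = ζ
      ring

/-- the transported orbit -/
theorem exists_map (C : Cx B q p ψ Ω) (T : TI h e f) (S : Tp B e f) (hS : ∀ m, qf (S.τ m) = qf m) (i : I B T Ω) :
    ∃ j : I B T Ω, ∀ x, S.τ x ∈ Ui C.hψ j ↔ x ∈ Ui C.hψ i := by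
  let T' := tr (B := B) C.hψ T Ω S S.τ (bf_of_qf hS)
  exact ⟨T'.perm i, fun x => T'.mem_Ui_iff⟩

theorem map_eq (C : Cx B q p ψ Ω) {T : TI h e f} {S : Tp B e f} {i j : I B T Ω}
    (hj : ∀ x, S.τ x ∈ Ui C.hψ j ↔ x ∈ Ui C.hψ i) : (Ui C.hψ i).map S.τ.toAddMonoidHom = Ui C.hψ j := by
  ext x
  rw [AddSubgroup.mem_map]
  constructor
  · rintro ⟨y, hy, rfl⟩
    exact (hj y).2 hy
  · intro hx
    refine ⟨S.τ.symm x, (hj _).1 ?_, S.τ.apply_symm_apply x⟩
    rwa [S.τ.apply_symm_apply]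

theorem sc_back (H : IsSkew h) {S : Tp B e f} (hS : ∀ m, qf (S.τ m) = qf m) {x u : M σ} {k : F} {hk : σ k = k}
    (hu : S.τ u = sc k hk (S.τ x)) : u = sc k hk x := by
  have h1 : u - sc k hk x = 0 := by
    apply bf_nd H
    intro m'
    have e1 : bf (u - sc k hk x) m' = bf u m' - bf (sc k hk x) m' := by
      have h2 := bf_add_left (u - sc k hk x) (sc k hk x) m'
      rw [sub_add_cancel] at h2
      linear_combination -h2
    rw [e1, bf_sc, ← bf_of_qf hS u m', ← bf_of_qf hS x m', hu, bf_sc]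
    ring
  exact sub_eq_zero.1 h1

theorem vz_sc {k ζ : F} (hk : σ k = k) : (vz (k * ζ) : M σ) = sc k hk (vz ζ) := by
  apply extM
  · change (0 : F) = k * 0
    ring
  · change (0 : F) = k * 0
    ring
  · rfl

/-- the case where all elements are singular -/
theorem line_sing (C : Cx B q p ψ Ω) (Φ : Fr h e f e' f') (i : I B Φ.toTI Ω) (hs : ∀ u ∈ Ui C.hψ i, qf u = 0) :
    ∃ H : M σ, ∀ u ∈ Ui C.hψ i, ∃ k, ∃ hk : σ k = k, u = sc k hk H := by
  by_cases h0 : ∃ x ∈ Ui C.hψ i, x ≠ 0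
  · obtain ⟨x, hx, hx0⟩ := h0
    refine ⟨x, fun u hu => ?_⟩
    have hv : (vx 1 (map_one σ) : M σ) ≠ 0 := fun h1 => one_ne_zero (congrArg (fun m : M σ => m.1.1) h1)
    obtain ⟨S, hS1, hS2⟩ := trans_M (B := B) Φ hx0 hv (by
      rw [hs x hx]
      change 0 = 1 * 0 - 0 * σ 0
      ring)
    have h1 : bf x u = 0 := by
      have h2 := hs (x + u) ((Ui C.hψ i).add_mem hx hu)
      rw [qf_add, hs x hx, hs u hu] at h2
      linear_combination h2
    rw [← bf_of_qf hS1, hS2] at h1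
    have h2 : (S.τ u).2.1.1 = 0 := by
      change 1 * (S.τ u).2.1.1 + 0 * (S.τ u).1.1 - (0 * σ (S.τ u).2.2 + σ 0 * (S.τ u).2.2) = 0 at h1
      rw [map_zero] at h1
      linear_combination h1
    have h3 : (S.τ u).2.2 = 0 := by
      have h4 := hs u hu
      rw [← hS1, qf, h2, mul_zero, zero_sub, neg_eq_zero] at h4
      rcases mul_eq_zero.1 h4 with h5 | h5
      · exact h5
      · exact B.H.inj h5
    refine ⟨(S.τ u).1.1, Uf1.hx _, sc_back B.H hS1 ?_⟩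
    rw [hS2]
    apply extM
    · change (S.τ u).1.1 = (S.τ u).1.1 * 1
      ring
    · change (S.τ u).2.1.1 = (S.τ u).1.1 * 0
      rw [h2, mul_zero]
    · change (S.τ u).2.2 = (S.τ u).1.1 * 0
      rw [h3, mul_zero]
  · push Not at h0
    refine ⟨0, fun u hu => ⟨1, map_one σ, ?_⟩⟩
    rw [h0 u hu]
    apply extM
    · change (0 : F) = 1 * 0
      ring
    · change (0 : F) = 1 * 0
      ring
    · change (0 : F) = 1 * 0
      ring

/-- the special case for two elements cannot occur -/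
theorem no_special (C : Cx B q p ψ Ω) (Φ : Fr h e f e' f') (i : I B Φ.toTI Ω) {ζ : F} (hζ : ζ ≠ 0) (hc : Nat.card (A0 σ) = 2)
    (h1 : ∀ x ∈ Ui C.hψ i, qf x ≠ 0 → x = vz ζ) (hm : vz ζ ∈ Ui C.hψ i) (h4 : 4 ≤ Nat.card (Ui C.hψ i)) : False := by
  classical
  have : Fintype (I B Φ.toTI Ω) := Fintype.ofFinite _
  have : Fintype (M σ) := Fintype.ofFinite _
  set c := qf (vz ζ : M σ) with hcd
  have hc0 : c ≠ 0 := qf_vz_ne B.H hζ
  have key : ∀ m : {m : M σ // qf m = c}, ∃ j : I B Φ.toTI Ω, m.1 ∈ Ui C.hψ j ∧ (∀ x ∈ Ui C.hψ j, qf x ≠ 0 → x = m.1) ∧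
      4 ≤ Nat.card (Ui C.hψ j) := by
    intro m
    have hm0 : m.1 ≠ 0 := by
      intro h0
      have := m.2
      rw [h0, qf_zero] at this
      exact hc0 this.symm
    have hv0 : (vz ζ : M σ) ≠ 0 := by
      intro h0
      apply hc0
      rw [hcd, h0, qf_zero]
    obtain ⟨S, hS1, hS2⟩ := trans_M (B := B) Φ hv0 hm0 m.2.symm
    obtain ⟨j, hj⟩ := exists_map C Φ.toTI S hS1 i
    refine ⟨j, ?_, ?_, ?_⟩
    · rw [← hS2]
      exact (hj _).2 hm
    · intro x hx hxq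
      rw [← S.τ.apply_symm_apply x] at hx hxq ⊢
      rw [hS1] at hxq
      rw [h1 _ ((hj _).1 hx) hxq, hS2]
    · refine h4.trans (le_of_eq ?_)
      apply Nat.card_congr
      exact
        { toFun := fun x => ⟨S.τ x.1, (hj _).2 x.2⟩
          invFun := fun x => ⟨S.τ.symm x.1, (hj _).1 (by rw [S.τ.apply_symm_apply]; exact x.2)⟩
          left_inv := fun x => Subtype.ext (S.τ.symm_apply_apply x.1)
          right_inv := fun x => Subtype.ext (S.τ.apply_symm_apply x.1) }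
  choose j j1 j2 j3 using key
  have hinj : Function.Injective j := by
    intro m m' hmm
    have h5 := j1 m
    rw [hmm] at h5
    exact Subtype.ext (j2 m' _ h5 (by rw [m.2]; exact hc0))
  have hq : q = 2 := by rw [← C.N.hq, hc]
  have h5 := card_cls B.H C.N (qf_fixed B.H.inv (vz ζ)) hc0
  have hsum := sum_card (B := B) (Ω := Ω) C.hψ Φ.toTI
  have h6 : 4 * Nat.card {m : M σ // qf m = c} ≤ Nat.card Ω := by
    rw [← hsum]
    calc 4 * Nat.card {m : M σ // qf m = c} = ∑ i ∈ Finset.univ.image j, 4 := by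
          rw [Finset.sum_const, Finset.card_image_of_injective _ hinj, Finset.card_univ, Nat.card_eq_fintype_card,
            smul_eq_mul, mul_comm]
      _ ≤ ∑ i ∈ Finset.univ.image j, Nat.card (Ui C.hψ i) := by
          apply Finset.sum_le_sum
          intro i hi
          obtain ⟨m, -, rfl⟩ := Finset.mem_image.1 hi
          exact j3 m
      _ ≤ _ := Finset.sum_le_sum_of_subset (Finset.subset_univ _)
  have h7 := C.hΩ
  rw [← hcd] at h5
  subst hq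
  omega

/-- the alternative -/
theorem dich (C : Cx B q p ψ Ω) (Φ : Fr h e f e' f') (i : I B Φ.toTI Ω) :
    Ui C.hψ i = ⊤ ∨ ∃ H : M σ, ∀ u ∈ Ui C.hψ i, ∃ k, ∃ hk : σ k = k, u = sc k hk H := by
  by_cases hs : ∀ u ∈ Ui C.hψ i, qf u = 0
  · exact Or.inr (line_sing C Φ i hs)
  · push Not at hs
    obtain ⟨H, hH, hHq⟩ := hs
    obtain ⟨ζ, hζ⟩ := B.H.norm (-qf H) (by rw [map_neg, qf_fixed B.H.inv])
    have hζ0 : ζ ≠ 0 := by
      rintro rfl
      rw [zero_mul, zero_eq_neg] at hζ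
      exact hHq hζ
    have hqe : qf H = qf (vz ζ : M σ) := by
      rw [qf_vz, hζ, neg_neg]
    have hH0 : H ≠ 0 := by
      rintro rfl
      exact hHq qf_zero
    have hv0 : (vz ζ : M σ) ≠ 0 := by
      intro h0
      exact qf_vz_ne B.H hζ0 (by rw [h0, qf_zero])
    obtain ⟨S, hS1, hS2⟩ := trans_M (B := B) Φ hH0 hv0 hqe
    obtain ⟨j, hj⟩ := exists_map C Φ.toTI S hS1 i
    have hmem : vz ζ ∈ Ui C.hψ j := by
      rw [← hS2]
      exact (hj _).2 hH
    by_cases hl : ∀ u ∈ Ui C.hψ j, ∃ k, σ k = k ∧ u = vz (k * ζ)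
    · right
      refine ⟨H, fun u hu => ?_⟩
      obtain ⟨k, hk, hu'⟩ := hl _ ((hj u).2 hu)
      refine ⟨k, hk, sc_back B.H hS1 ?_⟩
      rw [hu', hS2, vz_sc hk]
    · left
      push Not at hl
      obtain ⟨u, hu, hun⟩ := hl
      have htop : Ui C.hψ j = ⊤ := by
        by_cases h2 : (2 : F) = 0
        · rcases even_full B.H (St0_of C Φ j) (fun r => by
            obtain ⟨j', hj'⟩ := exists_map C Φ.toTI (T1 Φ r) (fun m => by rw [T1_τ, qf_t1]) j
            have h3 := map_eq C hj'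
            rw [T1_τ] at h3
            rw [h3]
            exact St0_of C Φ j') h2 hζ0 hmem hu (fun k hk => hun k hk) with h3 | ⟨h3, h4, h5⟩
          · exact h3
          · exact (no_special C Φ j hζ0 h3 h4 hmem h5).elim
        · obtain ⟨a, ha⟩ := B.H.ne
          exact odd_full (St0_of C Φ j) h2 (κ := a - σ a) (by rw [map_sub, B.H.inv]; ring)
            (fun h0 => ha (sub_eq_zero.1 h0).symm) hζ0 hmem hu (fun k hk => hun k hk)
      rw [eq_top_iff]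
      intro x _
      rw [← hj, htop]
      trivial

end H41.Uf7
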