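import Mathlib
import Cfsg.Agent.Lib.H41.Uf7

/-! Points: regular or with a large stabiliser; the case without regular orbits. -/

set_option autoImplicit false
set_option linter.unusedSectionVars false

namespace H41.Uf8

open Module H95.UBasic H95.UPar H95.UPair H57.Polar H41.UnA H41.UnA2 H41.Dual H41.Uf1 H41.Uf2 H41.Uf3 H41.Uf4 H41.Uf5
  H41.Uf6 H41.Uf7 MulAction
open H41.UnB (A0 mem_A0)

variable {F V : Type*} [Field F] [AddCommGroup V] [Module F V] {σ : F →+* F}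
variable {h : V →ₗ[F] V →ₛₗ[σ] F} [FiniteDimensional F V] [Finite F]
variable {q p : ℕ} {ψ : AddChar F ℂ} {B : B4 h} {Ω : Type*} [MulAction (SU h) Ω]
variable {e f e' f' : V}

theorem rf_eq {v : V} (hv : h v v = 0) {c : F} (hc : σ c = c) : rf h v c = sieg h v 0 c := by
  ext x
  rw [rf_apply (tr_good hv hc), sieg_apply (good_tr hv hc)]
  simp

/-- a point fixed by all the transvections is fixed by everything -/
theorem fix_all {ω : Ω} (hω : ∀ v, h v v = 0 → ∀ c, σ c = c → E B v 0 c • ω = ω) (g : SU h) : g • ω = ω := by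
  have hM : SU h ≤ (stabilizer (SU h) ω).map (SU h).subtype := by
    refine H6.SUGenB.SU_le_of_tr B.H (by rw [B.n4]; norm_num) (Or.inl (by rw [B.n4])) _ ?_
    intro v hv c hc
    exact ⟨E B v 0 c, hω v hv c hc, (rf_eq hv hc).symm⟩
  obtain ⟨g', hg', h1⟩ := hM g.2
  have h2 : g' = g := Subtype.ext h1
  rw [← h2]
  exact hg'

theorem TI.symm (T : TI h e f) : TI h f e := ⟨T.ff, T.ee, T.fe, T.ef⟩

/-- transvections in the radical -/
theorem E_rank1 (T : TI h e f) (a b : F) {c : F} (hc : σ c = c) :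
    E B (a • e + b • f) 0 c = A B e f (mkM (c * (a * σ a)) (c * (b * σ b)) (c * (a * σ b))
      (by rw [map_mul, hc, nrm B.H.inv]) (by rw [map_mul, hc, nrm B.H.inv])) := by
  have hv : h (a • e + b • f) (a • e + b • f) = 0 := by
    simp only [map_add, LinearMap.add_apply, map_smul, LinearMap.smul_apply, map_smulₛₗ, smul_eq_mul, T.ee, T.ff, T.ef,
      T.fe, mul_zero, add_zero]
  apply ext_su
  intro u
  rw [E_apply B (good_tr hv hc), A_apply T]
  simp only [mkM, map_add, map_smulₛₗ, smul_eq_mul, map_mul, B.H.inv, hc, map_zero, smul_zero, zero_smul, add_zero]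
  module

theorem E_vx (T : TI h e f) {c : F} (hc : σ c = c) : E B e 0 c = A B e f (vx c hc) := by
  have h1 := E_rank1 (B := B) T 1 0 hc
  rw [one_smul, zero_smul, add_zero] at h1
  rw [h1]
  congr 1
  apply extM
  · change c * (1 * σ 1) = c
    rw [map_one]; ring
  · change c * (0 * σ 0) = 0
    ring
  · change c * (1 * σ 0) = 0
    rw [map_zero]; ring

theorem E_vy (T : TI h e f) {c : F} (hc : σ c = c) : E B f 0 c = A B e f (vy c hc) := by
  have h1 := E_rank1 (B := B) T 0 1 hc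
  rw [one_smul, zero_smul, zero_add] at h1
  rw [h1]
  congr 1
  apply extM
  · change c * (0 * σ 0) = 0
    ring
  · change c * (1 * σ 1) = c
    rw [map_one]; ring
  · change c * (0 * σ 1) = 0
    ring

/-- regular points -/
def Reg (B : B4 h) (e f : V) (ω : Ω) : Prop := ∀ m, A B e f m • ω = ω → m = 0

/-- points whose stabiliser contains a hyperplane -/
def Lin (B : B4 h) (e f : V) (ω : Ω) : Prop := ∃ H : M σ, ∀ w, bf H w = 0 → A B e f w • ω = ω

theorem U_top {hψ : ψ 1 ≠ 1} {T : TI h e f} {ω : Ω} : U hψ B T ω = ⊤ ↔ Reg B e f ω := by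
  constructor
  · intro h1 m hm
    apply (pair B hψ).nd
    intro y
    have h2 : y ∈ U hψ B T ω := by rw [h1]; trivial
    have h3 := h2 m (mem_R.2 hm)
    rwa [(pair B hψ).sym]
  · intro h1
    rw [eq_top_iff]
    intro x _
    rw [mem_U]
    intro w hw
    rw [h1 w (mem_R.1 hw), bf_zero, AddChar.map_zero_eq_one]

theorem lin_of {hψ : ψ 1 ≠ 1} {T : TI h e f} {ω : Ω} {H : M σ}
    (hH : ∀ u ∈ U hψ B T ω, ∃ k, ∃ hk : σ k = k, u = sc k hk H) : ∀ w, bf H w = 0 → A B e f w • ω = ω := by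
  intro w hw
  apply (mem_R (T := T)).1
  apply mem_R_of (hψ := hψ)
  intro x hx
  obtain ⟨k, hk, rfl⟩ := hH x hx
  rw [bf_sc, hw, mul_zero, AddChar.map_zero_eq_one]

theorem dichP [Finite Ω] (C : Cx B q p ψ Ω) (Φ : Fr h e f e' f') (ω : Ω) : Reg B e f ω ∨ Lin B e f ω := by
  rcases dich C Φ (OrbU.cls (⊤ : AddSubgroup (M σ)) (toX B Φ.toTI ω)) with h1 | ⟨H, h1⟩
  · rw [Ui_cls] at h1
    exact Or.inl (U_top.1 h1)
  · rw [Ui_cls] at h1
    exact Or.inr ⟨H, lin_of h1⟩

theorem Fr.swap2 (Φ : Fr h e f e' f') : Fr h e f' e' (-f) where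
  ee := Φ.ee
  ff := Φ.f'f'
  ef := Φ.ef'
  fe := Φ.f'e
  e'e' := Φ.e'e'
  f'f' := by simp [Φ.ff]
  e'f' := by simp [Φ.e'f]
  f'e' := by simp [Φ.fe']
  ee' := Φ.ee'
  ff' := by simp [Φ.f'f]
  ef' := by simp [Φ.ef]
  fe' := Φ.f'e'
  e'e := Φ.e'e
  f'f := by simp [Φ.ff']
  f'e := by simp [Φ.fe]
  e'f := Φ.e'f'

theorem E_zero_vec (c : F) : E B (0 : V) 0 c = 1 := by
  by_cases hc : σ c = c
  · apply ext_su
    intro u
    rw [E_apply B (good_tr (by simp) hc)]
    simp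
  · apply Subtype.ext
    exact sieg_of_not fun hg => hc (by
      have h1 := hg.2.2.2
      simp only [map_zero] at h1
      exact (sub_eq_zero.1 h1).symm)

/-- no regular points: all the transvections fix everything -/
theorem caseA (hA : ∀ e f e' f' : V, Fr h e f e' f' → ∀ ω : Ω, Lin B e f ω) {e : V} (hee : h e e = 0) {c₀ : F}
    (hc₀ : σ c₀ = c₀) (ω : Ω) : E B e 0 c₀ • ω = ω := by
  by_cases he0 : e = 0
  · rw [he0, E_zero_vec, one_smul]
  by_contra hne
  obtain ⟨f, e', f', Φ⟩ := exists_frame1 hee he0 B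
  obtain ⟨H, hH⟩ := hA e f e' f' Φ ω
  obtain ⟨H', hH'⟩ := hA e f' e' (-f) (Fr.swap2 Φ) ω
  have Ψ := Fr.swap2 Φ
  have hHy : H.2.1.1 ≠ 0 := by
    intro h0
    apply hne
    rw [E_vx Φ.toTI hc₀]
    apply hH
    change H.1.1 * 0 + H.2.1.1 * c₀ - (H.2.2 * σ 0 + σ H.2.2 * 0) = 0
    rw [h0, map_zero]
    ring
  have hHy' : H'.2.1.1 ≠ 0 := by
    intro h0
    apply hne
    rw [E_vx Ψ.toTI hc₀]
    apply hH'
    change H'.1.1 * 0 + H'.2.1.1 * c₀ - (H'.2.2 * σ 0 + σ H'.2.2 * 0) = 0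
    rw [h0, map_zero]
    ring
  -- a transvection in the stabiliser
  obtain ⟨a, ha⟩ : ∃ a : F, H'.1.1 + H'.2.1.1 * (a * σ a) - (H'.2.2 * σ a + σ H'.2.2 * a) = 0 := by
    obtain ⟨a₀, ha₀⟩ := B.H.norm (H'.2.2 * σ H'.2.2 / (H'.2.1.1 * H'.2.1.1) - H'.1.1 / H'.2.1.1) (by
      rw [map_sub, map_div₀, map_div₀, nrm B.H.inv, map_mul, Uf1.hx, Uf1.hy])
    refine ⟨a₀ + H'.2.2 / H'.2.1.1, ?_⟩
    rw [map_add, map_div₀, Uf1.hy]
    have h1 : a₀ * σ a₀ * (H'.2.1.1 * H'.2.1.1) = H'.2.2 * σ H'.2.2 - H'.1.1 * H'.2.1.1 := by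
      rw [ha₀]
      field_simp
    field_simp
    linear_combination h1
  have hst : ∀ c : F, σ c = c → E B (a • e + f') 0 c • ω = ω := by
    intro c hc
    have h1 := E_rank1 (B := B) Ψ.toTI a 1 hc
    rw [one_smul] at h1
    rw [h1]
    apply hH'
    change H'.1.1 * (c * (1 * σ 1)) + H'.2.1.1 * (c * (a * σ a)) - (H'.2.2 * σ (c * (a * σ 1)) + σ H'.2.2 * (c * (a * σ 1))) = 0
    rw [map_mul, map_mul, map_one, map_one, hc]
    linear_combination c * ha
  -- moving it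
  have hg : ∀ b : F, ∀ c : F, σ c = c → E B (b • e + f') 0 c • ω = ω := by
    intro b c hc
    set z := a - b with hz
    have hx : σ ((H.2.2 * σ z + σ H.2.2 * z) / H.2.1.1) = (H.2.2 * σ z + σ H.2.2 * z) / H.2.1.1 := by
      rw [map_div₀, map_add, map_mul, map_mul, B.H.inv, B.H.inv, Uf1.hy]
      congr 1
      ring
    set g := A B e f (mkM ((H.2.2 * σ z + σ H.2.2 * z) / H.2.1.1) 0 z hx (map_zero σ)) with hgd
    have h1 : g • ω = ω := by
      apply hH
      change H.1.1 * 0 + H.2.1.1 * ((H.2.2 * σ z + σ H.2.2 * z) / H.2.1.1) - (H.2.2 * σ z + σ H.2.2 * z) = 0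
      field_simp
      ring
    have h2 : (g : V ≃ₗ[F] V) (a • e + f') = b • e + f' := by
      rw [hgd, A_apply Φ.toTI]
      have e1 : h (a • e + f') e = 0 := by
        simp only [map_add, LinearMap.add_apply, map_smul, LinearMap.smul_apply, smul_eq_mul, Φ.ee, Φ.f'e]
        ring
      have e2 : h (a • e + f') f = -1 := by
        simp only [map_add, LinearMap.add_apply, map_smul, LinearMap.smul_apply, smul_eq_mul, Φ.ef, Φ.f'f]
        ring
      rw [e1, e2]
      simp only [mkM]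
      rw [hz]
      module
    have h3 := E_conj B g (a • e + f') 0 c
    rw [h2, map_zero] at h3
    rw [← h3, mul_smul, mul_smul, ← eq_inv_smul_iff.2 h1, hst c hc, h1]
  -- conclusion
  apply hne
  obtain ⟨κ, hκ⟩ := exists_tr B.H
  have ht : σ (κ + σ κ) = κ + σ κ := by rw [map_add, B.H.inv, add_comm]
  set b := κ * c₀ / (κ + σ κ) with hb
  have hbc : b + σ b = c₀ := by
    rw [hb, map_div₀, map_mul, ht, hc₀]
    field_simp
  have hm : ∀ b : F, A B e f' (mkM (b * σ b) 1 b (nrm B.H.inv b) (map_one σ)) • ω = ω := by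
    intro b
    have h1 := E_rank1 (B := B) Ψ.toTI b 1 (map_one σ)
    rw [one_smul] at h1
    have h2 := hg b 1 (map_one σ)
    rw [h1] at h2
    convert h2 using 3
    apply extM
    · change b * σ b = 1 * (b * σ b)
      ring
    · change 1 = 1 * (1 * σ 1)
      rw [map_one]; ring
    · change b = 1 * (b * σ 1)
      rw [map_one]; ring
  rw [E_vx Ψ.toTI hc₀]
  have hR : ∀ b, mkM (b * σ b) 1 b (nrm B.H.inv b) (map_one σ) ∈ R B Ψ.toTI ω := fun b => mem_R.2 (hm b)
  apply (mem_R (T := Ψ.toTI)).1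
  have h4 := (R B Ψ.toTI ω).add_mem ((R B Ψ.toTI ω).sub_mem ((R B Ψ.toTI ω).sub_mem (hR (b + 1)) (hR b)) (hR 1)) (hR 0)
  convert h4 using 1
  apply extM
  · change c₀ = (b + 1) * σ (b + 1) - b * σ b - 1 * σ 1 + 0 * σ 0
    rw [map_add, map_one]
    linear_combination -hbc
  · change (0 : F) = 1 - 1 - 1 + 1
    ring
  · change (0 : F) = b + 1 - b - 1 + 0
    ring

/-- no regular points: a trivial action -/
theorem caseA' [IsPretransitive (SU h) Ω] (hA : ∀ e f e' f' : V, Fr h e f e' f' → ∀ ω : Ω, Lin B e f ω) :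
    Subsingleton Ω := by
  constructor
  intro ω ω'
  obtain ⟨g, hg⟩ := exists_smul_eq (SU h) ω ω'
  rw [← hg]
  exact (fix_all (fun v hv c hc => caseA hA hv hc ω) g).symm

end H41.Uf8
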