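import Mathlib
import Cfsg.Agent.Lib.H41.Uf8

/-! Transitivity on pairs; regular points. -/

set_option autoImplicit false
set_option linter.unusedSectionVars false

namespace H41.Uf9

open Module H95.UBasic H95.UPar H95.UPair H57.Polar H41.UnA H41.UnA2 H41.Dual H41.Uf1 H41.Uf2 H41.Uf3 H41.Uf4 H41.Uf5
  H41.Uf6 H41.Uf7 H41.Uf8 MulAction
open H41.UnB (A0 mem_A0)

variable {F V : Type*} [Field F] [AddCommGroup V] [Module F V] {σ : F →+* F}
variable {h : V →ₗ[F] V →ₛₗ[σ] F} [FiniteDimensional F V] [Finite F]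
variable {q p : ℕ} {ψ : AddChar F ℂ} {B : B4 h} {Ω : Type*} [MulAction (SU h) Ω]
variable {e f e' f' e₁ f₁ e₁' f₁' : V}

/-- decomposition in a frame -/
theorem Fr.decomp (B : B4 h) (Φ : Fr h e f e' f') (u : V) :
    u = h u e' • e - h u e • e' + h u f' • f - h u f • f' := by
  obtain ⟨hU, hd⟩ := nd_hyp B.H (nd_top B.H) (e := e) (f := e') trivial trivial Φ.ee Φ.e'e' Φ.ee'
  obtain ⟨hU2, hd2⟩ := nd_hyp B.H hU (e := f) (f := f') (mem_p2.2 ⟨trivial, Φ.fe, Φ.fe'⟩) (mem_p2.2 ⟨trivial, Φ.f'e, Φ.f'e'⟩)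
    Φ.ff Φ.f'f' Φ.ff'
  rw [finrank_top, B.n4] at hd
  have h0 : finrank F (p2 h (p2 h ⊤ e e') f f') = 0 := by omega
  have h1 : p2 h (p2 h ⊤ e e') f f' = ⊥ := Submodule.finrank_eq_zero.1 h0
  have h2 : u - (h u e' • e - h u e • e' + h u f' • f - h u f • f') ∈ p2 h (p2 h ⊤ e e') f f' := by
    rw [mem_p2, mem_p2]
    refine ⟨⟨trivial, ?_, ?_⟩, ?_, ?_⟩ <;>
    · simp only [map_sub, map_add, LinearMap.sub_apply, LinearMap.add_apply, map_smul, LinearMap.smul_apply, smul_eq_mul,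
        Φ.ee, Φ.ff, Φ.ef, Φ.fe, Φ.e'e', Φ.f'f', Φ.e'f', Φ.f'e', Φ.ee', Φ.ff', Φ.ef', Φ.fe', Φ.e'e, Φ.f'f, Φ.f'e, Φ.e'f]
      ring
  rw [h1, Submodule.mem_bot, sub_eq_zero] at h2
  exact h2

/-- the second vector -/
theorem move2 (B : B4 h) (Φ : Fr h e f e' f') {w : V} (hw : h w w = 0) (hwe : h w e = 0)
    (hn : w ∉ Submodule.span F ({e} : Set V)) :
    ∃ g : SU h, (g : V ≃ₗ[F] V) e = e ∧ ∃ b : F, b ≠ 0 ∧ (g : V ≃ₗ[F] V) w = b • f := by
  have hdec := Fr.decomp B Φ w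
  rw [hwe, zero_smul, sub_zero] at hdec
  set c := h w e'
  set α := h w f'
  set β := h w f
  have key : ∀ w' : V, (∃ c b : F, b ≠ 0 ∧ w' = c • e + b • f) →
      ∃ g : SU h, (g : V ≃ₗ[F] V) e = e ∧ ∃ b : F, b ≠ 0 ∧ (g : V ≃ₗ[F] V) w' = b • f := by
    rintro w' ⟨c, b, hb, rfl⟩
    refine ⟨E B e (σ (-c / b) • f') 0, ?_, b, hb, ?_⟩
    · rw [E_apply B (isoE Φ.ee Φ.ef' Φ.f'e Φ.f'f')]
      simp [Φ.ee, Φ.ef']
    · rw [E_apply B (isoE Φ.ee Φ.ef' Φ.f'e Φ.f'f')]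
      simp only [map_add, LinearMap.add_apply, map_smul, LinearMap.smul_apply, smul_eq_mul, map_smulₛₗ, B.H.inv,
        Φ.ee, Φ.fe, Φ.ef', Φ.ff']
      have e1 : -c / b * (b * 1) = -c := by field_simp
      simp only [mul_zero, zero_add, zero_smul, add_zero, smul_zero, zero_mul]
      rw [e1]
      module
  by_cases hβ : β = 0
  · apply key
    refine ⟨c, α, ?_, ?_⟩
    · intro hα
      apply hn
      rw [hdec, hβ, hα, zero_smul, zero_smul, add_zero, sub_zero]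
      exact Submodule.smul_mem _ _ (Submodule.mem_span_singleton_self e)
    · rw [hβ, zero_smul, sub_zero] at hdec
      exact hdec
  · -- the quotient is fixed
    have hσβ : σ β ≠ 0 := fun h0 => hβ (B.H.inj h0)
    have hww : α * σ β - β * σ α = 0 := by
      have h1 : h w w = α * σ (-β) * h f f' + (-β) * σ α * h f' f := by
        conv_lhs => rw [hdec]
        simp only [map_sub, map_add, LinearMap.sub_apply, LinearMap.add_apply, map_smul, LinearMap.smul_apply, smul_eq_mul,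
          map_smulₛₗ, Φ.ee, Φ.ff, Φ.ef, Φ.fe, Φ.f'f', Φ.ef', Φ.f'e, map_neg]
        ring
      rw [hw, Φ.ff', Φ.f'f, map_neg] at h1
      linear_combination h1
    have hk : σ (α / β) = α / β := by
      rw [map_div₀, div_eq_div_iff hσβ hβ]
      linear_combination -hww
    -- here the coefficient of `f'` is `-β`
    set k := -(α / β) with hkd
    have hkσ : σ k = k := by rw [hkd, map_neg, hk]
    have e1 : ((E B f 0 (k - 1) : SU h) : V ≃ₗ[F] V) w = c • e - β • f - β • f' := by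
      rw [E_apply B (good_tr Φ.ff (by rw [map_sub, hkσ, map_one]))]
      conv_lhs => rw [hdec]
      simp only [map_sub, map_add, LinearMap.sub_apply, LinearMap.add_apply, map_smul, LinearMap.smul_apply, smul_eq_mul,
        Φ.ef, Φ.ff, Φ.f'f, map_zero, smul_zero, zero_smul, add_zero]
      have e2 : (k - 1) * (c * 0 + α * 0 - β * -1) = -α - β := by
        rw [hkd]
        field_simp
        ring
      rw [e2]
      module
    have e3 : ((E B f' 0 (-1) : SU h) : V ≃ₗ[F] V) (c • e - β • f - β • f') = c • e + (-β) • f := by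
      rw [E_apply B (good_tr Φ.f'f' (by rw [map_neg, map_one]))]
      simp only [map_sub, map_add, LinearMap.sub_apply, LinearMap.add_apply, map_smul, LinearMap.smul_apply, smul_eq_mul,
        Φ.ef', Φ.ff', Φ.f'f', map_zero, smul_zero, zero_smul, add_zero]
      module
    obtain ⟨g, hg1, b, hb, hg2⟩ := key _ ⟨c, -β, neg_ne_zero.2 hβ, e3⟩
    have e4 : ((E B f 0 (k - 1) : SU h) : V ≃ₗ[F] V) e = e := by
      rw [E_apply B (good_tr Φ.ff (by rw [map_sub, hkσ, map_one]))]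
      simp [Φ.ef]
    have e5 : ((E B f' 0 (-1) : SU h) : V ≃ₗ[F] V) e = e := by
      rw [E_apply B (good_tr Φ.f'f' (by rw [map_neg, map_one]))]
      simp [Φ.ef']
    refine ⟨g * (E B f' 0 (-1) * E B f 0 (k - 1)), ?_, b, hb, ?_⟩
    · change (g : V ≃ₗ[F] V) (((E B f' 0 (-1) : SU h) : V ≃ₗ[F] V) (((E B f 0 (k - 1) : SU h) : V ≃ₗ[F] V) e)) = e
      rw [e4, e5, hg1]
    · change (g : V ≃ₗ[F] V) (((E B f' 0 (-1) : SU h) : V ≃ₗ[F] V) (((E B f 0 (k - 1) : SU h) : V ≃ₗ[F] V) w)) = b • f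
      rw [e1, hg2]

/-- good pairs -/
structure Gp (h : V →ₗ[F] V →ₛₗ[σ] F) (e f : V) : Prop extends TI h e f where
  e0 : e ≠ 0
  nf : f ∉ Submodule.span F ({e} : Set V)

theorem Fr.gp (Φ : Fr h e f e' f') : Gp h e f where
  toTI := Φ.toTI
  e0 := by
    rintro rfl
    have h1 := Φ.ee'
    rw [map_zero, LinearMap.zero_apply] at h1
    exact zero_ne_one h1
  nf := by
    intro h0
    obtain ⟨c, rfl⟩ := Submodule.mem_span_singleton.1 h0
    have h1 := Φ.ff'
    rw [map_smul, LinearMap.smul_apply, Φ.ef', smul_zero] at h1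
    exact zero_ne_one h1

theorem Gp.frame (B : B4 h) (G : Gp h e f) : ∃ e' f', Fr h e f e' f' := exists_frame2 G.toTI G.e0 G.nf B.H

theorem Gp.map (G : Gp h e f) (g : SU h) : Gp h ((g : V ≃ₗ[F] V) e) ((g : V ≃ₗ[F] V) f) where
  ee := by rw [SU_le h g.2]; exact G.ee
  ff := by rw [SU_le h g.2]; exact G.ff
  ef := by rw [SU_le h g.2]; exact G.ef
  fe := by rw [SU_le h g.2]; exact G.fe
  e0 := (LinearEquiv.map_ne_zero_iff _).2 G.e0
  nf := by
    intro h0
    obtain ⟨c, hc⟩ := Submodule.mem_span_singleton.1 h0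
    rw [← map_smul] at hc
    apply G.nf
    rw [← (g : V ≃ₗ[F] V).injective hc]
    exact Submodule.smul_mem _ _ (Submodule.mem_span_singleton_self e)

/-- transitivity on pairs -/
theorem trans_pair (B : B4 h) (G : Gp h e f) (G₁ : Gp h e₁ f₁) :
    ∃ g : SU h, (g : V ≃ₗ[F] V) e = e₁ ∧ ∃ b : F, b ≠ 0 ∧ (g : V ≃ₗ[F] V) f = b • f₁ := by
  obtain ⟨e₁', f₁', Φ₁⟩ := Gp.frame B G₁
  obtain ⟨g1, hg1, h1⟩ := H6.SUGenB.trans_iso B.H (by rw [B.n4]; norm_num) G.e0 G.ee G₁.e0 G₁.ee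
  have hg1' : g1 ∈ SU h := TU_le_SU B.H ⊤ hg1
  have G2 := Gp.map G ⟨g1, hg1'⟩
  change Gp h (g1 e) (g1 f) at G2
  rw [h1] at G2
  obtain ⟨g2, h2, b, hb, h3⟩ := move2 B Φ₁ G2.ff G2.fe G2.nf
  refine ⟨g2 * ⟨g1, hg1'⟩, ?_, b, hb, ?_⟩
  · change (g2 : V ≃ₗ[F] V) (g1 e) = e₁
    rw [h1, h2]
  · change (g2 : V ≃ₗ[F] V) (g1 f) = b • f₁
    rw [h3]

/-- transport of regularity -/
theorem Reg.map {ω : Ω} (hr : Reg B e f ω) (g : SU h) : Reg B ((g : V ≃ₗ[F] V) e) ((g : V ≃ₗ[F] V) f) (g • ω) := by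
  intro m hm
  apply hr
  rw [← mul_smul, ← A_conj, mul_smul] at hm
  exact smul_left_cancel g hm

theorem Reg.scale {ω : Ω} (T : TI h e f) {b : F} (hb : b ≠ 0) (hr : Reg B e (b • f) ω) : Reg B e f ω := by
  intro m hm
  have h1 := A_basis3 (B := B) T 1 b one_ne_zero hb ((t3 B.H.inv 1 b one_ne_zero hb).symm m)
  rw [one_smul, AddEquiv.apply_symm_apply] at h1
  have h2 := hr _ (by rw [h1]; exact hm)
  exact (AddEquiv.map_eq_zero_iff _).1 h2

/-- regular points for one pair give regular points for all pairs -/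
theorem exists_reg (G : Gp h e f) (G₁ : Gp h e₁ f₁) {ω : Ω} (hr : Reg B e f ω) : ∃ ω₁ : Ω, Reg B e₁ f₁ ω₁ := by
  obtain ⟨g, h1, b, hb, h2⟩ := trans_pair B G G₁
  have h3 := Reg.map hr g
  rw [h1, h2] at h3
  exact ⟨_, Reg.scale G₁.toTI hb h3⟩

section count

variable [Finite Ω]

theorem card_top (N : N4 σ q) {U : AddSubgroup (M σ)} (hU : U = ⊤) : Nat.card U = q ^ 4 := by
  rw [hU, ← card_M N]
  exact Nat.card_congr AddSubgroup.topEquiv.toEquiv

/-- at most one regular orbit -/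
theorem reg_unique (C : Cx B q p ψ Ω) {T : TI h e f} {i j : I B T Ω} (hi : Ui C.hψ i = ⊤) (hj : Ui C.hψ j = ⊤) :
    i = j := by
  classical
  by_contra hne
  have : Fintype (I B T Ω) := Fintype.ofFinite _
  have hsum := sum_card (B := B) (Ω := Ω) C.hψ T
  have h1 : ∑ k ∈ ({i, j} : Finset (I B T Ω)), Nat.card (Ui C.hψ k) ≤ Nat.card Ω := by
    rw [← hsum]
    exact Finset.sum_le_sum_of_subset (Finset.subset_univ _)
  rw [Finset.sum_pair hne, card_top C.N hi, card_top C.N hj] at h1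
  have h2 := C.hΩ
  have h3 := C.N.q2
  have h4 : q ^ 3 + q < q ^ 4 := by
    have e1 : q ^ 4 = q * q ^ 3 := by ring
    have e2 : 2 * q ^ 3 ≤ q * q ^ 3 := Nat.mul_le_mul_right _ h3
    have e3 : q < q ^ 3 := by
      calc q = q ^ 1 := (pow_one q).symm
        _ < q ^ 3 := Nat.pow_lt_pow_right (by omega) (by norm_num)
    omega
  omega

/-- the number of regular points -/
theorem card_reg (C : Cx B q p ψ Ω) (T : TI h e f) {ω₀ : Ω} (h0 : Reg B e f ω₀) :
    Nat.card {ω : Ω // Reg B e f ω} = q ^ 4 := by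
  rw [← card_M C.N]
  symm
  have hmem : ∀ m : M σ, Reg B e f (A B e f m • ω₀) := by
    intro m m' hm'
    apply h0
    rw [← mul_smul, ← A_add T, add_comm, A_add T, mul_smul] at hm'
    exact smul_left_cancel _ hm'
  apply Nat.card_congr
  refine Equiv.ofBijective (fun m => ⟨A B e f m • ω₀, hmem m⟩) ⟨?_, ?_⟩
  · intro m m' hmm
    have h1 : A B e f m • ω₀ = A B e f m' • ω₀ := congrArg Subtype.val hmm
    have h2 : A B e f (-m' + m) • ω₀ = ω₀ := by
      rw [A_add T, mul_smul, h1, ← mul_smul, ← A_add T, neg_add_cancel, A_zero T, one_smul]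
    have h3 := h0 _ h2
    have h4 := congrArg (fun x => m' + x) h3
    simpa using h4
  · rintro ⟨ω, hω⟩
    have h1 : OrbU.cls (⊤ : AddSubgroup (M σ)) (toX B T ω) = OrbU.cls ⊤ (toX B T ω₀) := by
      apply reg_unique C
      · rw [Ui_cls]
        exact U_top.2 hω
      · rw [Ui_cls]
        exact U_top.2 h0
    obtain ⟨m, hm⟩ := cls_eq.1 h1
    exact ⟨m, Subtype.ext hm⟩

end count

end H41.Uf9
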