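import Mathlib
import Cfsg.Agent.Lib.H41.UnB

/-! The pairing on `V`, duals of stabilisers, transport of structure, multiplicities. -/

set_option autoImplicit false
set_option linter.unusedSectionVars false

namespace H41.UnC

open Module H95.UBasic H57.Polar H41.UnA H41.UnA2 H41.Dual H41.UnB

variable {F V : Type*} [Field F] [AddCommGroup V] [Module F V] {σ : F →+* F}

theorem exists_trace {h : V →ₗ[F] V →ₛₗ[σ] F} (H : IsSkew h) (a : F) (ha : σ a = a) : ∃ b, b + σ b = a := by
  obtain ⟨θ, hθ⟩ : ∃ θ : F, θ + σ θ ≠ 0 := by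
    by_contra hcon
    push Not at hcon
    obtain ⟨l, hl⟩ := H.ne
    apply hl
    have h1 := hcon 1
    rw [map_one] at h1
    have h2 := hcon l
    have h3 : l + l = 0 := by
      have : l + l = l * (1 + 1) := by ring
      rw [this, h1, mul_zero]
    linear_combination h2 - h3
  refine ⟨a * (θ + σ θ)⁻¹ * θ, ?_⟩
  have h1 : σ (θ + σ θ) = θ + σ θ := by rw [map_add, H.inv]; ring
  rw [map_mul, map_mul, map_inv₀, h1, ha]
  field_simp

variable {h : V →ₗ[F] V →ₛₗ[σ] F} [FiniteDimensional F V] [Finite F] (B : Bas h)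

/-- the trace -/
def tr0 (B : Bas h) : F →+ A0 σ where
  toFun a := ⟨a + σ a, by rw [mem_A0, map_add, B.H.inv, add_comm]⟩
  map_zero' := Subtype.ext (by simp)
  map_add' a b := Subtype.ext (by simp; ring)

theorem coe_tr0 (a : F) : ((tr0 B a : A0 σ) : F) = a + σ a := rfl

theorem tr0_surj (a : A0 σ) : ∃ b, tr0 B b = a := by
  obtain ⟨b, hb⟩ := exists_trace B.H a.1 a.2
  exact ⟨b, Subtype.ext hb⟩

/-- the pairing -/
def bb (B : Bas h) (lam : AddChar (A0 σ) ℂ) (x y : V) : ℂ := lam (tr0 B (h x y))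

variable {lam : AddChar (A0 σ) ℂ}

theorem bb_apply (x y : V) : bb B lam x y = lam (tr0 B (h x y)) := rfl

/-- nontriviality of a character -/
theorem lam_exists (hl : lam ≠ 1) : ∃ c : A0 σ, lam c ≠ 1 := by
  by_contra h1
  push Not at h1
  exact hl (by ext c; rw [h1 c]; rfl)

theorem eq_zero_of_lam (hl : lam ≠ 1) {a : F} (ha : ∀ c : F, lam (tr0 B (c * a)) = 1) : a = 0 := by
  by_contra h0
  obtain ⟨c, hc⟩ := lam_exists hl
  obtain ⟨b, rfl⟩ := tr0_surj B c
  apply hc
  have h1 := ha (b * a⁻¹)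
  rwa [mul_assoc, inv_mul_cancel₀ h0, mul_one] at h1

theorem pair (hl : lam ≠ 1) : Pair (bb B lam) where
  add_left x y z := by rw [bb_apply, map_add, LinearMap.add_apply, map_add, AddChar.map_add_eq_mul]; rfl
  add_right x y z := by rw [bb_apply, map_add, map_add, AddChar.map_add_eq_mul]; rfl
  zero_left x := by rw [bb_apply, map_zero, LinearMap.zero_apply, map_zero, AddChar.map_zero_eq_one]
  zero_right x := by rw [bb_apply, map_zero, map_zero, AddChar.map_zero_eq_one]
  nd x hx := by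
    apply B.H.nd x
    intro y
    apply eq_zero_of_lam B hl
    intro c
    have h1 := hx (σ c • y)
    rwa [bb_apply, map_smulₛₗ, B.H.inv, smul_eq_mul] at h1
  sym x y := by
    have h1 : tr0 B (h y x) = - tr0 B (h x y) := by
      apply Subtype.ext
      rw [coe_tr0, B.H.skew x y]
      change _ = -(h x y + σ (h x y))
      rw [map_neg, B.H.inv]
      ring
    rw [bb_apply, bb_apply, h1, AddChar.map_neg_eq_inv, inv_eq_one]

/-- the condition on stabilisers for the `lam`-part -/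
def Cl (lam : AddChar (A0 σ) ℂ) (S : AddSubgroup (A0 σ)) : Prop := ∀ x ∈ S, lam x = 1

/-- the condition on stabilisers for the fixed points -/
def Ct (S : AddSubgroup (A0 σ)) : Prop := S = ⊤

variable {Ω : Type*} [MulAction (SU h) Ω]

/-- the orbits of `v^⊥` -/
abbrev I (v : V) (Ω : Type*) [MulAction (SU h) Ω] (C : AddSubgroup (A0 σ) → Prop) := OrbU.I (P h v) (XC B v Ω C)

/-- the dual groups -/
noncomputable abbrev Ui (hl : lam ≠ 1) {v : V} {C : AddSubgroup (A0 σ) → Prop} (i : I B v Ω C) : AddSubgroup V :=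
  OrbU.Ui (pair B hl) i

/-- the multiplicity -/
noncomputable def m (hl : lam ≠ 1) (Ω : Type*) [MulAction (SU h) Ω] (C : AddSubgroup (A0 σ) → Prop) (v x : V) : ℕ :=
  OrbU.m (pair B hl) (P h v) (XC B v Ω C) x

section

variable {B} (hl : lam ≠ 1) {C : AddSubgroup (A0 σ) → Prop}

/-- every class is the class of a point of `Ω` -/
theorem cls_surj {v : V} (i : I B v Ω C) : ∃ ω, ∃ hω : C (T B v ω), OrbU.cls (P h v) (mkC B ω hω) = i := by
  obtain ⟨ω, hω, h1⟩ := mkC_surj B i.out
  refine ⟨ω, hω, ?_⟩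
  rw [h1, OrbU.cls_out]

theorem mem_Ui {v : V} (hv : h v v = 0) {ω : Ω} {hω : C (T B v ω)} {x : V} :
    x ∈ Ui B hl (OrbU.cls (P h v) (mkC B ω hω)) ↔
      ∀ w a, h v w = 0 → a - σ a = h w w → E B v w a • ω = ω → lam (tr0 B (h x w)) = 1 := by
  rw [Ui, OrbU.Ui_cls, OrbU.mem_U]
  constructor
  · intro h1 w a hw ha hE
    exact h1 w ((mem_R B hv).2 ⟨hw, a, ha, hE⟩)
  · intro h1 w hw
    obtain ⟨hw, a, ha, hE⟩ := (mem_R B hv).1 hw
    exact h1 w a hw ha hE

/-- `v` is in all the duals -/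
theorem smul_mem_Ui {v : V} (hv : h v v = 0) (i : I B v Ω C) (c : F) : c • v ∈ Ui B hl i := by
  obtain ⟨ω, hω, rfl⟩ := cls_surj i
  rw [mem_Ui hl hv]
  intro w a hw ha hE
  rw [map_smul, LinearMap.smul_apply, hw, smul_zero, map_zero, AddChar.map_zero_eq_one]

/-- multiples of `v` are in the stabilisers (up to `Z_v`) -/
theorem Ui_le {v : V} (hv : h v v = 0) (i : I B v Ω C) {x : V} (hx : x ∈ Ui B hl i) : h v x = 0 := by
  obtain ⟨ω, hω, rfl⟩ := cls_surj i
  apply B.H.symm_zero
  apply eq_zero_of_lam B hl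
  intro c
  rw [mem_Ui hl hv] at hx
  -- choose `a` with `E (c v) a` trivial
  have h1 := hx (σ c • v) (-(σ c + c)) (by rw [map_smulₛₗ, hv, smul_zero]) (by
    rw [map_neg, map_add, B.H.inv]
    simp only [map_smul, LinearMap.smul_apply, map_smulₛₗ, hv, smul_zero]
    ring) (by
    rw [E_shift0 B hv (by rw [map_neg, map_add, B.H.inv]; ring) (σ c), B.H.inv, neg_add_cancel, E_zero, one_smul])
  rwa [map_smulₛₗ, B.H.inv, smul_eq_mul] at h1

theorem card_P (B : Bas h) {v : V} (hv0 : v ≠ 0) : Nat.card (P h v) * Nat.card F = Nat.card V := by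
  let f : V →+ F := (h v).toAddMonoidHom
  have hsurj : Function.Surjective f := by
    obtain ⟨y, hy⟩ : ∃ y, h v y ≠ 0 := by
      by_contra hcon
      push Not at hcon
      exact hv0 (B.H.nd v hcon)
    intro c
    refine ⟨σ (c * (h v y)⁻¹) • y, ?_⟩
    change h v _ = c
    rw [map_smulₛₗ, B.H.inv, smul_eq_mul, mul_assoc, inv_mul_cancel₀ hy, mul_one]
  have h1 : P h v = f.ker := by
    ext w
    rfl
  have h2 := AddSubgroup.card_mul_index f.ker
  rw [AddSubgroup.index_ker, AddMonoidHom.range_eq_top.2 hsurj] at h2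
  rw [h1, ← h2]
  congr 1
  exact (Nat.card_congr AddSubgroup.topEquiv.toEquiv).symm

theorem finV (B : Bas h) : Finite V := Module.finite_of_finite F

/-- the sum of the orders of the `U_i` -/
theorem sum_card [Finite Ω] {v : V} (hv0 : v ≠ 0) [Fintype (I B v Ω C)] :
    ∑ i : I B v Ω C, Nat.card (Ui B hl i) = Nat.card F * Nat.card (XC B v Ω C) := by
  have : Finite V := finV B
  have h1 := OrbU.sum_card (pair B hl) (P := P h v) (Ω := XC B v Ω C)
  have h2 := card_P B hv0
  have hpos : 0 < Nat.card (P h v) := Nat.card_pos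
  apply Nat.eq_of_mul_eq_mul_right hpos
  rw [h1, ← h2]
  ring

/-- the stabiliser of a class in the `lam`-part is contained in its dual -/
theorem R_le_U {v : V} (hv : h v v = 0) {ω : Ω} (hω : Cl lam (T B v ω)) {w : V} {a : F} (hw : h v w = 0)
    (ha : a - σ a = h w w) (hE : E B v w a • ω = ω) : w ∈ Ui B hl (OrbU.cls (P h v) (mkC B (C := Cl lam) ω hω)) := by
  rw [mem_Ui hl hv]
  intro w' a' hw' ha' hE'
  -- the commutator
  have h1 : E B v (w + w') (a + a' + h w' w) • ω = ω := by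
    rw [← E_mul B hv hw hw' ha ha', mul_smul, hE', hE]
  have h2 : E B v (w' + w) (a' + a + h w w') • ω = ω := by
    rw [← E_mul B hv hw' hw ha' ha, mul_smul, hE, hE']
  have g2 := (Good.add B.sk ⟨hv, hw', B.H.symm_zero hw', ha'⟩ ⟨hv, hw, B.H.symm_zero hw, ha⟩).2.2.2
  have hb : σ (h w' w - h w w') = h w' w - h w w' := by
    rw [map_sub, B.H.skew w w', map_neg, B.H.inv]
    rw [B.H.skew w' w]
    have := B.H.inv (h w' w)
    simp only [map_neg, this]
    ring
  have h3 : E B v 0 (h w' w - h w w') • ω = ω := by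
    have h4 : E B v 0 (h w' w - h w w') * E B v (w' + w) (a' + a + h w w') = E B v (w + w') (a + a' + h w' w) := by
      rw [E_mul0 B hv (by rw [map_add, hw, hw', add_zero]) g2 hb, add_comm w' w]
      congr 1
      ring
    have h5 := congrArg (fun g => g • ω) h4
    simp only [mul_smul] at h5
    rw [h1, h2] at h5
    exact h5
  have h4 := hω ⟨h w' w - h w w', hb⟩ ((mem_T B).2 h3)
  have h5 : tr0 B (h w w') = - ⟨h w' w - h w w', hb⟩ := by
    apply Subtype.ext
    rw [coe_tr0]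
    change _ = -(h w' w - h w w')
    rw [B.H.skew w w']
    ring
  rw [h5, AddChar.map_neg_eq_inv, h4, inv_one]

/-- the dual groups in the `lam`-part are large -/
theorem card_Ui_ge [Finite Ω] {v : V} (hv : h v v = 0) (i : I B v Ω (Cl lam)) :
    Nat.card V ≤ Nat.card (Ui B hl i) * Nat.card (Ui B hl i) := by
  have : Finite V := finV B
  obtain ⟨ω, hω, rfl⟩ := cls_surj i
  have h1 : OrbU.R (P h v) (mkC B (C := Cl lam) ω hω) ≤ Ui B hl (OrbU.cls (P h v) (mkC B ω hω)) := by
    intro w hw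
    obtain ⟨hw, a, ha, hE⟩ := (mem_R B hv).1 hw
    exact R_le_U hl hv hω hw ha hE
  have h2 := Dual.card_dual (pair B hl) (OrbU.R (P h v) (mkC B (C := Cl lam) ω hω))
  have h3 : Nat.card (OrbU.R (P h v) (mkC B (C := Cl lam) ω hω)) ≤ Nat.card (Ui B hl (OrbU.cls (P h v) (mkC B ω hω))) :=
    Nat.card_mono (Set.toFinite _) h1
  rw [← h2]
  have h4 : Ui B hl (OrbU.cls (P h v) (mkC B ω hω)) = Dual.dual (pair B hl) (OrbU.R (P h v) (mkC B (C := Cl lam) ω hω)) := by
    rw [Ui, OrbU.Ui_cls]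
    rfl
  rw [← h4]
  exact Nat.mul_le_mul_left _ h3

end

end H41.UnC
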