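import Mathlib
import Cfsg.Agent.Lib.H41.UnC

/-! Transport of the data by elements normalising `Z_v`. -/

set_option autoImplicit false
set_option linter.unusedSectionVars false

namespace H41.UnD

open Module H95.UBasic H57.Polar H41.UnA H41.UnA2 H41.Dual H41.UnB H41.UnC

variable {F V : Type*} [Field F] [AddCommGroup V] [Module F V] {σ : F →+* F}
variable {h : V →ₗ[F] V →ₛₗ[σ] F} [FiniteDimensional F V] [Finite F] {B : Bas h}
variable {lam : AddChar (A0 σ) ℂ} (hl : lam ≠ 1)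
variable {Ω : Type*} [MulAction (SU h) Ω] {C : AddSubgroup (A0 σ) → Prop}

theorem iso (g : SU h) (x y : V) : h ((g : V ≃ₗ[F] V) x) ((g : V ≃ₗ[F] V) y) = h x y := SU_le h g.2 x y

theorem perp_g {v : V} {g : SU h} {c : F} (hc : c ≠ 0) (hg : (g : V ≃ₗ[F] V) v = c • v) {w : V} :
    h v ((g : V ≃ₗ[F] V) w) = 0 ↔ h v w = 0 := by
  have h1 := iso g v w
  rw [hg, map_smul, LinearMap.smul_apply, smul_eq_mul] at h1
  rw [← h1, mul_eq_zero, or_iff_right hc]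

theorem E_scale {v : V} (hv : h v v = 0) {g : SU h} {c : F} (hc : c ≠ 0) (hg : (g : V ≃ₗ[F] V) v = c • v) {w : V}
    {a : F} (hw : h v w = 0) (ha : a - σ a = h w w) :
    g * E B v w a = E B v (σ c • (g : V ≃ₗ[F] V) w) (a * (c * σ c)) * g := by
  rw [E_conj', hg, E_smul B c hv ((perp_g hc hg).2 hw) (by rw [iso]; exact ha)]

theorem E_scale0 {v : V} (hv : h v v = 0) {g : SU h} {c : F} (hc : c ≠ 0) (hg : (g : V ≃ₗ[F] V) v = c • v) {a : F}
    (ha : σ a = a) : g * E B v 0 a = E B v 0 (a * (c * σ c)) * g := by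
  rw [E_scale hv hc hg (map_zero _) (by rw [ha]; simp), map_zero, smul_zero]

theorem norm_fix (B : Bas h) (c : F) : σ (c * σ c) = c * σ c := by rw [map_mul, B.H.inv, mul_comm]

theorem norm_ne {c : F} (hc : c ≠ 0) : c * σ c ≠ 0 := by
  refine mul_ne_zero hc ?_
  exact (map_ne_zero σ).2 hc

/-- the stabiliser in `Z_v` of a transported point -/
theorem T_g {v : V} (hv : h v v = 0) {g : SU h} {c : F} (hc : c ≠ 0) (hg : (g : V ≃ₗ[F] V) v = c • v) {ω : Ω}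
    {a : F} (ha : σ a = a) : E B v 0 (a * (c * σ c)) • g • ω = g • ω ↔ E B v 0 a • ω = ω := by
  rw [← mul_smul, ← E_scale0 hv hc hg ha, mul_smul]
  exact ⟨fun h1 => MulAction.injective g h1, fun h1 => by rw [h1]⟩

theorem T_g1 {v : V} (hv : h v v = 0) {g : SU h} {c : F} (hc : c * σ c = 1) (hg : (g : V ≃ₗ[F] V) v = c • v) (ω : Ω) :
    T B v (g • ω) = T B v ω := by
  have hc0 : c ≠ 0 := by
    rintro rfl
    rw [zero_mul] at hc
    exact zero_ne_one hc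
  ext a
  rw [mem_T, mem_T]
  have h1 := T_g (B := B) hv hc0 hg (ω := ω) a.2
  rwa [hc, mul_one] at h1

theorem T_gt {v : V} (hv : h v v = 0) {g : SU h} {c : F} (hc : c ≠ 0) (hg : (g : V ≃ₗ[F] V) v = c • v) (ω : Ω) :
    Ct (T B v (g • ω)) ↔ Ct (T B v ω) := by
  rw [Ct, Ct, AddSubgroup.eq_top_iff', AddSubgroup.eq_top_iff']
  constructor
  · intro h1 a
    have h2 := h1 ⟨a.1 * (c * σ c), by rw [mem_A0, map_mul, norm_fix B, show σ a.1 = a.1 from a.2]⟩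
    rw [mem_T] at h2 ⊢
    exact (T_g hv hc hg a.2).1 h2
  · intro h1 a
    have hn := norm_ne (σ := σ) hc
    have ha : σ (a.1 * (c * σ c)⁻¹) = a.1 * (c * σ c)⁻¹ := by
      rw [map_mul, map_inv₀, norm_fix B, show σ a.1 = a.1 from a.2]
    have h2 := h1 ⟨a.1 * (c * σ c)⁻¹, ha⟩
    rw [mem_T] at h2 ⊢
    have h3 := (T_g hv hc hg ha).2 h2
    rwa [mul_assoc, inv_mul_cancel₀ hn, mul_one] at h3

theorem mkX_g {v : V} (hv : h v v = 0) {g : SU h} {c : F} (hc : c ≠ 0) (hg : (g : V ≃ₗ[F] V) v = c • v) {ω ω' : Ω} :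
    mkX B v (g • ω) = mkX B v (g • ω') ↔ mkX B v ω = mkX B v ω' := by
  have hn := norm_ne (σ := σ) hc
  rw [mkX_eq, mkX_eq]
  constructor
  · rintro ⟨b, hb, h1⟩
    have hb' : σ (b * (c * σ c)⁻¹) = b * (c * σ c)⁻¹ := by rw [map_mul, map_inv₀, norm_fix B, hb]
    refine ⟨b * (c * σ c)⁻¹, hb', ?_⟩
    apply MulAction.injective g
    change g • E B v 0 (b * (c * σ c)⁻¹) • ω' = g • ω
    rw [← mul_smul, E_scale0 hv hc hg hb', mul_assoc b, inv_mul_cancel₀ hn, mul_one, mul_smul]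
    exact h1
  · rintro ⟨b, hb, rfl⟩
    refine ⟨b * (c * σ c), by rw [map_mul, norm_fix B, hb], ?_⟩
    rw [← mul_smul, ← mul_smul, E_scale0 hv hc hg hb]

/-- the permutation of the orbits of `Z_v` -/
noncomputable def permX {v : V} (B : Bas h) (Ω : Type*) [MulAction (SU h) Ω] (hv : h v v = 0) {g : SU h} {c : F}
    (hc : c ≠ 0) (hg : (g : V ≃ₗ[F] V) v = c • v) : Equiv.Perm (X B v Ω) :=
  Quotient.congr (MulAction.toPerm (α := SU h) (β := Ω) g) (by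
    intro ω ω'
    have h1 : mkX B v (g • ofY ω) = mkX B v (g • ofY ω') ↔ mkX B v (ofY ω) = mkX B v (ofY ω') := mkX_g hv hc hg
    constructor
    · intro h2
      exact Quotient.exact' (h1.2 (Quotient.sound' h2))
    · intro h2
      exact Quotient.exact' (h1.1 (Quotient.sound' h2)))

theorem permX_mk {v : V} (hv : h v v = 0) {g : SU h} {c : F} (hc : c ≠ 0) (hg : (g : V ≃ₗ[F] V) v = c • v) (ω : Ω) :
    permX B Ω hv hc hg (mkX B v ω) = mkX B v (g • ω) := rfl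

/-- the permutation of `XC` -/
noncomputable def permC {v : V} (B : Bas h) (Ω : Type*) [MulAction (SU h) Ω] (hv : h v v = 0) {g : SU h} {c : F}
    (hc : c ≠ 0) (hg : (g : V ≃ₗ[F] V) v = c • v) (C : AddSubgroup (A0 σ) → Prop)
    (hC : ∀ ω : Ω, C (T B v (g • ω)) ↔ C (T B v ω)) : Equiv.Perm (XC B v Ω C) :=
  (permX B Ω hv hc hg).subtypeEquiv (by
    intro ξ
    obtain ⟨ω, rfl⟩ := mkX_surj B ξ
    rw [permX_mk, TX_mk, TX_mk, hC])

theorem permC_mk {v : V} (hv : h v v = 0) {g : SU h} {c : F} (hc : c ≠ 0) (hg : (g : V ≃ₗ[F] V) v = c • v)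
    (hC : ∀ ω : Ω, C (T B v (g • ω)) ↔ C (T B v ω)) (ω : Ω) (hω : C (T B v ω)) :
    permC B Ω hv hc hg C hC (mkC B ω hω) = mkC B (g • ω) ((hC ω).2 hω) := rfl

/-- transport of structure -/
noncomputable def tr (hl : lam ≠ 1) (Ω : Type*) [MulAction (SU h) Ω] {v : V} (hv : h v v = 0) {g : SU h} {c : F}
    (hc : c ≠ 0) (hg : (g : V ≃ₗ[F] V) v = c • v) (hC : ∀ ω : Ω, C (T B v (g • ω)) ↔ C (T B v ω)) :
    OrbU.Tr (pair B hl) (P h v) (XC B v Ω C) where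
  σ := permC B Ω hv hc hg C hC
  τ := ((g : V ≃ₗ[F] V).trans (LinearEquiv.smulOfNeZero F V (σ c) ((map_ne_zero σ).2 hc))).toAddEquiv
  β := ((g : V ≃ₗ[F] V).trans (LinearEquiv.smulOfNeZero F V c⁻¹ (inv_ne_zero hc))).toAddEquiv
  hP := by
    intro w hw
    change h v (σ c • (g : V ≃ₗ[F] V) w) = 0
    rw [map_smulₛₗ, (perp_g hc hg).2 hw, smul_zero]
  hP' := by
    intro w hw
    change h v ((g : V ≃ₗ[F] V).symm ((σ c)⁻¹ • w)) = 0
    rw [← perp_g hc hg, LinearEquiv.apply_symm_apply, map_smulₛₗ, mem_P.1 hw, smul_zero]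
  hσ := by
    intro w hw ξ
    obtain ⟨ω, hω, rfl⟩ := mkC_surj B ξ
    apply Subtype.ext
    change permX B Ω hv hc hg ((⟨w, hw⟩ : P h v) +ᵥ mkX B v ω) = (⟨σ c • (g : V ≃ₗ[F] V) w, _⟩ : P h v) +ᵥ mkX B v (g • ω)
    rw [vadd_mkX B _ (ca_spec B w), permX_mk, vadd_mkX B (a := ca B w * (c * σ c)), ← mul_smul, ← mul_smul,
      E_scale hv hc hg hw (ca_spec B w)]
    have h1 := ca_spec B w
    simp only [map_smul, LinearMap.smul_apply, map_smulₛₗ, smul_eq_mul, map_mul, B.H.inv, iso]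
    rw [← h1]
    ring
  hβ := by
    intro x w
    change bb B lam (c⁻¹ • (g : V ≃ₗ[F] V) x) (σ c • (g : V ≃ₗ[F] V) w) = bb B lam x w
    rw [bb_apply, bb_apply]
    simp only [map_smul, LinearMap.smul_apply, map_smulₛₗ, smul_eq_mul, B.H.inv, iso]
    rw [← mul_assoc, mul_comm c, inv_mul_cancel₀ hc, one_mul]

theorem tr_β {v : V} (hv : h v v = 0) {g : SU h} {c : F}
    (hc : c ≠ 0) (hg : (g : V ≃ₗ[F] V) v = c • v) (hC : ∀ ω : Ω, C (T B v (g • ω)) ↔ C (T B v ω)) (x : V) :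
    (tr hl Ω hv hc hg hC).β x = c⁻¹ • (g : V ≃ₗ[F] V) x := rfl

theorem tr_σ {v : V} (hv : h v v = 0) {g : SU h} {c : F}
    (hc : c ≠ 0) (hg : (g : V ≃ₗ[F] V) v = c • v) (hC : ∀ ω : Ω, C (T B v (g • ω)) ↔ C (T B v ω)) :
    (tr hl Ω hv hc hg hC).σ = permC B Ω hv hc hg C hC := rfl

/-- transport by an element fixing `v` -/
noncomputable def tr1 (hl : lam ≠ 1) (Ω : Type*) [MulAction (SU h) Ω] (C : AddSubgroup (A0 σ) → Prop) {v : V}
    (hv : h v v = 0) {g : SU h} (hg : (g : V ≃ₗ[F] V) v = v) : OrbU.Tr (pair B hl) (P h v) (XC B v Ω C) :=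
  tr hl Ω hv one_ne_zero (hg.trans (one_smul F v).symm)
    (fun ω => by rw [T_g1 hv (c := 1) (by simp) (hg.trans (one_smul F v).symm)])

theorem tr1_β {v : V} (hv : h v v = 0) {g : SU h} (hg : (g : V ≃ₗ[F] V) v = v) (x : V) :
    (tr1 (B := B) hl Ω C hv hg).β x = (g : V ≃ₗ[F] V) x := by
  rw [tr1, tr_β, inv_one, one_smul]

/-- multiplicities only depend on the norm -/
theorem m_eq {v : V} (hv : h v v = 0) (hv0 : v ≠ 0) {x y : V} (hxy : h x x = h y y) (hvx : h v x = 0) (hvy : h v y = 0)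
    (hxn : x ∉ Submodule.span F ({v} : Set V)) (hyn : y ∉ Submodule.span F ({v} : Set V)) :
    m B hl Ω C v x = m B hl Ω C v y := by
  obtain ⟨g, hg, hgv, hgx⟩ := trans_perp B.H B.n5 (G := SU h) (fun v w a _ => (E B v w a).2) (SU_le h) hv0 hv hxy
    hvx hvy hxn hyn
  have h1 := (tr1 (B := B) hl Ω C hv (g := ⟨g, hg⟩) hgv).m_eq x
  rw [tr1_β] at h1
  change OrbU.m (pair B hl) (P h v) (XC B v Ω C) (g x) = _ at h1
  rw [hgx] at h1
  exact h1.symm

end H41.UnD
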