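import Mathlib
import Cfsg.Agent.Lib.H41.UnD

/-! Counting: the parts of `Ω` for the characters of `Z_v`; double counting of the dual groups. -/

set_option autoImplicit false
set_option linter.unusedSectionVars false

namespace H41.UnE

open Module H95.UBasic H57.Polar H41.UnA H41.UnA2 H41.Dual H41.UnB H41.UnC H41.UnD

variable {F V : Type*} [Field F] [AddCommGroup V] [Module F V] {σ : F →+* F}
variable {h : V →ₗ[F] V →ₛₗ[σ] F} [FiniteDimensional F V] [Finite F] {B : Bas h}
variable {lam : AddChar (A0 σ) ℂ} (hl : lam ≠ 1)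
variable {Ω : Type*} [MulAction (SU h) Ω] {C : AddSubgroup (A0 σ) → Prop}

/-- multiplication by a fixed element -/
def mulA (σ : F →+* F) (c : F) (hc : σ c = c) : A0 σ →+ A0 σ where
  toFun a := ⟨c * a.1, by rw [mem_A0, map_mul, hc, show σ a.1 = a.1 from a.2]⟩
  map_zero' := Subtype.ext (mul_zero _)
  map_add' a b := Subtype.ext (mul_add _ _ _)

theorem coe_mulA (c : F) (hc : σ c = c) (a : A0 σ) : ((mulA σ c hc a : A0 σ) : F) = c * a.1 := rfl

/-- multiplication by a nonzero fixed element as an equivalence -/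
def mulE (σ : F →+* F) (c : F) (hc : σ c = c) (hc0 : c ≠ 0) : A0 σ ≃ A0 σ where
  toFun := mulA σ c hc
  invFun := mulA σ c⁻¹ (by rw [map_inv₀, hc])
  left_inv a := Subtype.ext (by rw [coe_mulA, coe_mulA, ← mul_assoc, inv_mul_cancel₀ hc0, one_mul])
  right_inv a := Subtype.ext (by rw [coe_mulA, coe_mulA, ← mul_assoc, mul_inv_cancel₀ hc0, one_mul])

/-- two nontrivial characters differ by a scalar -/
theorem char_scale {lam lam' : AddChar (A0 σ) ℂ} (hl : lam ≠ 1) (hl' : lam' ≠ 1) :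
    ∃ c : F, ∃ hc : σ c = c, c ≠ 0 ∧ ∀ a, lam' a = lam (mulA σ c hc a) := by
  let f : A0 σ → AddChar (A0 σ) ℂ := fun c => lam.compAddMonoidHom (mulA σ c.1 c.2)
  have hf : Function.Injective f := by
    intro c c' h1
    by_contra hne
    have hcc : c.1 - c'.1 ≠ 0 := fun h0 => hne (Subtype.ext (sub_eq_zero.1 h0))
    have hfix : σ (c.1 - c'.1) = c.1 - c'.1 := (c - c').2
    apply hl
    ext a
    have h2 := DFunLike.congr_fun h1 (mulA σ (c.1 - c'.1)⁻¹ (by rw [map_inv₀, hfix]) a)
    change lam (mulA σ c.1 c.2 _) = lam (mulA σ c'.1 c'.2 _) at h2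
    set b := mulA σ (c.1 - c'.1)⁻¹ (by rw [map_inv₀, hfix]) a with hb
    have h3 : mulA σ c.1 c.2 b = mulA σ c'.1 c'.2 b + a := by
      apply Subtype.ext
      change c.1 * b.1 = c'.1 * b.1 + a.1
      have h4 : (c.1 - c'.1) * b.1 = a.1 := by
        rw [hb, coe_mulA, ← mul_assoc, mul_inv_cancel₀ hcc, one_mul]
      linear_combination h4
    rw [h3, AddChar.map_add_eq_mul] at h2
    have h5 : lam (mulA σ c'.1 c'.2 b) ≠ 0 := by
      intro h0
      have h6 := AddChar.map_add_eq_mul lam (mulA σ c'.1 c'.2 b) (-(mulA σ c'.1 c'.2 b))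
      rw [add_neg_cancel, AddChar.map_zero_eq_one, h0, zero_mul] at h6
      exact one_ne_zero h6
    have h6 : lam a = 1 := mul_left_cancel₀ h5 (h2.trans (mul_one _).symm)
    rw [h6]
    rfl
  have : Fintype (A0 σ) := Fintype.ofFinite _
  have hb : Function.Bijective f := by
    refine (Nat.bijective_iff_injective_and_card _).mpr ⟨hf, ?_⟩
    rw [Nat.card_eq_fintype_card (α := AddChar (A0 σ) ℂ), AddChar.card_eq, Nat.card_eq_fintype_card]
  obtain ⟨c, hc⟩ := hb.2 lam'
  refine ⟨c.1, c.2, ?_, ?_⟩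
  · intro h0
    apply hl'
    rw [← hc]
    ext a
    change lam (mulA σ c.1 c.2 a) = 1
    have : mulA σ c.1 c.2 a = 0 := Subtype.ext (by change c.1 * a.1 = 0; rw [h0, zero_mul])
    rw [this, AddChar.map_zero_eq_one]
  · intro a
    rw [← hc]
    rfl

theorem card_chars (A : Type*) [AddCommGroup A] [Finite A] : Nat.card (AddChar A ℂ) = Nat.card A := by
  have : Fintype A := Fintype.ofFinite A
  rw [Nat.card_eq_fintype_card, AddChar.card_eq, Nat.card_eq_fintype_card]

/-- an action of the fixed field normalised by the scalars is trivial if the set is small -/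
theorem triv_of_scaling {Y : Type*} [Finite Y] [AddAction (A0 σ) Y] (hY : Nat.card Y < Nat.card (A0 σ))
    (hs : ∀ (c : F) (hc : σ c = c), c ≠ 0 → ∃ φ : Equiv.Perm Y, ∀ (a : A0 σ) (y : Y), φ (a +ᵥ y) = mulA σ c hc a +ᵥ φ y)
    (a : A0 σ) (y : Y) : a +ᵥ y = y := by
  classical
  have : Fintype (A0 σ) := Fintype.ofFinite _
  have : Fintype (AddChar (A0 σ) ℂ) := Fintype.ofFinite _
  by_contra hne
  set S := AddAction.stabilizer (A0 σ) y with hS
  have haS : a ∉ S := hne
  -- a nontrivial character, trivial on the stabiliser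
  obtain ⟨χ, hχ1, hχ⟩ : ∃ χ : AddChar (A0 σ) ℂ, χ ≠ 1 ∧ ∀ x ∈ S, χ x = 1 := by
    by_contra hcon
    push Not at hcon
    have h1 := OrbChar.card_ann S
    have h2 : Nat.card {χ : AddChar (A0 σ) ℂ // ∀ x ∈ S, χ x = 1} ≤ 1 := by
      have : Subsingleton {χ : AddChar (A0 σ) ℂ // ∀ x ∈ S, χ x = 1} := by
        constructor
        rintro ⟨χ, h3⟩ ⟨χ', h4⟩
        apply Subtype.ext
        have e1 : χ = 1 := by
          by_contra h5
          obtain ⟨x, hx, h6⟩ := hcon χ h5
          exact h6 (h3 x hx)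
        have e2 : χ' = 1 := by
          by_contra h5
          obtain ⟨x, hx, h6⟩ := hcon χ' h5
          exact h6 (h4 x hx)
        exact e1.trans e2.symm
      exact Finite.card_le_one_iff_subsingleton.2 this
    have h3 : Nat.card (A0 σ) ≤ Nat.card S := by
      rw [← h1]
      calc _ ≤ 1 * Nat.card S := Nat.mul_le_mul_right _ h2
        _ = _ := one_mul _
    have h4 : S = ⊤ := AddSubgroup.eq_top_of_le_card S h3
    apply haS
    rw [h4]
    exact AddSubgroup.mem_top a
  have hpos : ∀ χ' : AddChar (A0 σ) ℂ, 1 ≤ OrbChar.mult Y χ' := by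
    have h0 : ∀ χ' : AddChar (A0 σ) ℂ, (∀ x ∈ S, χ' x = 1) → 1 ≤ OrbChar.mult Y χ' := by
      intro χ' h1
      have : Finite (AddAction.orbitRel.Quotient (A0 σ) Y) := Quotient.finite _
      rw [OrbChar.mult, Nat.one_le_iff_ne_zero, ← Nat.pos_iff_ne_zero, Nat.card_pos_iff]
      exact ⟨⟨⟨Quotient.mk'' y, OrbChar.mem_U_mk.2 h1⟩⟩, inferInstance⟩
    intro χ'
    by_cases h1 : χ' = 1
    · apply h0
      intro x _
      rw [h1]
      rfl
    · obtain ⟨c, hc, hc0, h2⟩ := char_scale hχ1 h1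
      rw [OrbChar.mult_congr χ χ' (mulE σ c hc hc0) ?_ h2]
      · exact h0 χ hχ
      · intro b
        obtain ⟨φ, hφ⟩ := hs c hc hc0
        symm
        refine Nat.card_congr (φ.subtypeEquiv fun z => ?_)
        change b +ᵥ z = z ↔ mulA σ c hc b +ᵥ φ z = φ z
        rw [← hφ]
        exact ⟨fun h3 => by rw [h3], fun h3 => φ.injective h3⟩
  have h1 := OrbChar.sum_mult (A := A0 σ) (Ω := Y)
  have h2 : Fintype.card (AddChar (A0 σ) ℂ) ≤ ∑ χ : AddChar (A0 σ) ℂ, OrbChar.mult Y χ := by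
    rw [← Finset.card_univ, Finset.card_eq_sum_ones]
    exact Finset.sum_le_sum fun χ _ => hpos χ
  rw [h1, ← Nat.card_eq_fintype_card, card_chars] at h2
  omega

/-- scaling elements -/
theorem exists_scale_g (B : Bas h) {v : V} (hv : h v v = 0) (hv0 : v ≠ 0) {c : F} (hc : c ≠ 0) :
    ∃ g : SU h, (g : V ≃ₗ[F] V) v = c • v := by
  obtain ⟨g, hg, h1⟩ := H6.SUGenB.iso_scale B.H (by have := B.n5; omega) hv0 hv hc
  exact ⟨⟨g, TU_le_SU B.H ⊤ hg⟩, h1⟩

/-- the size of the `lam`-part does not depend on `lam` -/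
theorem card_lam [Finite Ω] {v : V} (hv : h v v = 0) (hv0 : v ≠ 0) {lam lam' : AddChar (A0 σ) ℂ} (hl : lam ≠ 1)
    (hl' : lam' ≠ 1) : Nat.card (XC B v Ω (Cl lam')) = Nat.card (XC B v Ω (Cl lam)) := by
  obtain ⟨c, hc, hc0, h1⟩ := char_scale hl hl'
  obtain ⟨α, hα⟩ := B.H.norm c hc
  have hα0 : α ≠ 0 := by
    rintro rfl
    rw [zero_mul] at hα
    exact hc0 hα.symm
  obtain ⟨g, hg⟩ := exists_scale_g B hv hv0 hα0
  refine Nat.card_congr ((permX B Ω hv hα0 hg).subtypeEquiv fun ξ => ?_)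
  obtain ⟨ω, rfl⟩ := mkX_surj B ξ
  rw [permX_mk, TX_mk, TX_mk]
  constructor
  · intro h2 a ha
    have ha' : mulA σ c⁻¹ (by rw [map_inv₀, hc]) a ∈ T B v ω := by
      rw [mem_T, coe_mulA]
      rw [mem_T] at ha
      rw [← T_g (B := B) hv hα0 hg (by rw [map_mul, map_inv₀, hc, show σ a.1 = a.1 from a.2]), hα]
      have : c⁻¹ * a.1 * c = a.1 := by field_simp
      rw [this]
      exact ha
    have h3 := h2 _ ha'
    rw [h1] at h3
    convert h3 using 2
    apply Subtype.ext
    rw [coe_mulA, coe_mulA]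
    field_simp
  · intro h2 a ha
    rw [h1]
    apply h2
    rw [mem_T] at ha ⊢
    rw [coe_mulA, ← (T_g (B := B) hv hα0 hg a.2)] at *
    rw [hα] at ha
    rw [mul_comm]
    exact ha

/-- the total count -/
theorem total [Finite Ω] {v : V} (hv : h v v = 0) (hv0 : v ≠ 0) {lam : AddChar (A0 σ) ℂ} (hl : lam ≠ 1) :
    Nat.card (X B v Ω) + (Nat.card (A0 σ) - 1) * Nat.card (XC B v Ω (Cl lam)) = Nat.card Ω := by
  classical
  have : Fintype (A0 σ) := Fintype.ofFinite _
  have : Fintype (AddChar (A0 σ) ℂ) := Fintype.ofFinite _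
  have h1 := OrbChar.sum_mult (A := A0 σ) (Ω := Y B v Ω)
  have h2 : ∀ χ : AddChar (A0 σ) ℂ, χ ≠ 0 → OrbChar.mult (Y B v Ω) χ = Nat.card (XC B v Ω (Cl lam)) := by
    intro χ hχ
    rw [← card_lam (B := B) (Ω := Ω) hv hv0 hl (lam' := χ) hχ]
    rfl
  rw [← Finset.add_sum_erase _ _ (Finset.mem_univ (0 : AddChar (A0 σ) ℂ)), OrbChar.mult_zero,
    Finset.sum_congr rfl (fun χ hχ => h2 χ (Finset.ne_of_mem_erase hχ)), Finset.sum_const,
    Finset.card_erase_of_mem (Finset.mem_univ _), Finset.card_univ, ← Nat.card_eq_fintype_card, card_chars,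
    smul_eq_mul] at h1
  exact h1

open Classical in
/-- double counting with weights -/
theorem le_sum2 [Finite Ω] {v : V} (hv : h v v = 0) (hv0 : v ≠ 0) [Fintype (I B v Ω C)] (S : Finset V)
    (hS : ∀ x ∈ S, x ∉ Submodule.span F ({v} : Set V)) (f : V → ℕ) (hf : ∀ x ∈ S, f x ≤ m B hl Ω C v x) :
    (∑ x ∈ S, f x) + Nat.card F * Nat.card (I B v Ω C) ≤ Nat.card F * Nat.card (XC B v Ω C) := by
  have : Finite V := finV B
  have : Fintype V := Fintype.ofFinite V
  rw [← sum_card hl hv0]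
  have h1 : ∀ i : I B v Ω C, (S.filter (fun x => x ∈ Ui B hl i)).card + Nat.card F ≤ Nat.card (Ui B hl i) := by
    intro i
    have e1 : Nat.card (Ui B hl i) = (Finset.univ.filter (fun x => x ∈ Ui B hl i)).card := by
      rw [Nat.card_eq_fintype_card, Fintype.card_subtype]
    have e2 : Nat.card F = (Finset.univ.filter (fun x : V => x ∈ Submodule.span F ({v} : Set V))).card := by
      have h2 : Nat.card (Submodule.span F ({v} : Set V)) = Nat.card F := by
        rw [Module.natCard_eq_pow_finrank (K := F) (V := Submodule.span F ({v} : Set V)), finrank_span_singleton hv0, pow_one]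
      rw [← h2, Nat.card_eq_fintype_card, Fintype.card_subtype]
    rw [e1, e2, ← Finset.card_union_of_disjoint]
    · apply Finset.card_le_card
      intro x hx
      rw [Finset.mem_union, Finset.mem_filter, Finset.mem_filter] at hx
      rw [Finset.mem_filter]
      refine ⟨Finset.mem_univ _, ?_⟩
      rcases hx with hx | hx
      · exact hx.2
      · obtain ⟨c, rfl⟩ := Submodule.mem_span_singleton.1 hx.2
        exact smul_mem_Ui hl hv i c
    · rw [Finset.disjoint_left]
      intro x hx hx'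
      rw [Finset.mem_filter] at hx hx'
      exact hS x hx.1 hx'.2
  have h3 : ∀ x, m B hl Ω C v x = ((Finset.univ : Finset (I B v Ω C)).filter (fun i => x ∈ Ui B hl i)).card :=
    fun x => OrbU.m_eq (pair B hl) x
  calc (∑ x ∈ S, f x) + Nat.card F * Nat.card (I B v Ω C)
      ≤ (∑ x ∈ S, ((Finset.univ : Finset (I B v Ω C)).filter (fun i => x ∈ Ui B hl i)).card)
        + ∑ i : I B v Ω C, Nat.card F := by
        apply Nat.add_le_add
        · exact Finset.sum_le_sum fun x hx => by rw [← h3]; exact hf x hx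
        · rw [Finset.sum_const, Finset.card_univ, smul_eq_mul, mul_comm, Nat.card_eq_fintype_card (α := I B v Ω C)]
    _ = ∑ i : I B v Ω C, ((S.filter (fun x => x ∈ Ui B hl i)).card + Nat.card F) := by
        rw [OrbU.sum_filter (pair B hl) Finset.univ S, Finset.sum_add_distrib]
    _ ≤ _ := Finset.sum_le_sum fun i _ => h1 i

end H41.UnE
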