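import Mathlib
import Cfsg.Agent.Lib.H41.UnC

/-! Subgroups of `v^⊥` containing an anisotropic vector and stable under enough transvections. -/

set_option autoImplicit false
set_option linter.unusedSectionVars false

namespace H41.UnF

open Module H95.UBasic H95.UPar H95.UPair H57.Polar H41.UnA H41.UnA2

variable {F V : Type*} [Field F] [AddCommGroup V] [Module F V] {σ : F →+* F}
variable {h : V →ₗ[F] V →ₛₗ[σ] F} [FiniteDimensional F V]

theorem full_of_ani (H : IsSkew h) (hn : 5 ≤ finrank F V) {v : V} (hv0 : v ≠ 0) (hv : h v v = 0)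
    {K : AddSubgroup V} (hKv : ∀ x ∈ K, h v x = 0) {c : F} (hc0 : c ≠ 0)
    (hK : ∀ x ∈ K, h x x = c → ∀ u, h u u = 0 → h u v = 0 → h u x = 0 → ∀ b, σ b = b → ∀ y ∈ K, (b * h y u) • u ∈ K)
    {x : V} (hx : x ∈ K) (hxc : h x x = c) {y : V} (hy : y ∈ K) (hyn : y ∉ Submodule.span F ({v, x} : Set V)) :
    ∀ w, h v w = 0 → w ∈ K := by
  have hvx := hKv x hx
  have hxv : h x v = 0 := H.symm_zero hvx
  have hxx : h x x ≠ 0 := by rw [hxc]; exact hc0
  have hσc : σ c = -c := by rw [← hxc]; exact H.self x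
  -- an isotropic vector in `K`
  obtain ⟨v', U, hv'v', hvv', hv'x, hU, hd, hUm⟩ := frame_ani H hn hv0 hv hvx hxx
  obtain ⟨e, he, f, hf, hee, hff, hef⟩ := exists_hyp H hU (by omega)
  obtain ⟨y₀, hy1, hy2, hy3⟩ : ∃ y₀, h y₀ v = 0 ∧ h y₀ x = 0 ∧ h y y₀ ≠ 0 := by
    by_contra hcon
    push Not at hcon
    exact hyn (mem_span_of_perp2 H hcon)
  have he' := (hUm e).1 he
  have hf' := (hUm f).1 hf
  obtain ⟨u₁, hu₁, h11, hyu⟩ := tlem H (S := p2 h ⊤ v x) (mem_p2.2 ⟨trivial, he'.1, he'.2.2⟩)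
    (mem_p2.2 ⟨trivial, hf'.1, hf'.2.2⟩) hee hff hef (mem_p2.2 ⟨trivial, hy1, hy2⟩) hy3
  rw [mem_p2] at hu₁
  obtain ⟨-, h1v, h1x⟩ := hu₁
  have hu₁K : u₁ ∈ K := by
    have h1 := hK x hx hxc u₁ h11 h1v h1x 1 (map_one σ) y hy
    rwa [hyu, mul_one, one_smul] at h1
  have hu₁n : u₁ ∉ Submodule.span F ({v} : Set V) := by
    intro h0
    obtain ⟨s, rfl⟩ := Submodule.mem_span_singleton.1 h0
    rw [map_smulₛₗ, H.symm_zero (hKv y hy), smul_zero] at hyu
    exact zero_ne_one hyu
  obtain ⟨u₂, h2v, h2x, h22, h12⟩ := partner_perp H h11 h1v h1x (not_mem_span2 H hv hvx hxx h11 hu₁n)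
  have h21 : h u₂ u₁ = -1 := hfe H h12
  have hu₂K : u₂ ∈ K := by
    have h1 := hK x hx hxc u₂ h22 h2v h2x 1 (map_one σ) u₁ hu₁K
    rwa [h12, mul_one, one_smul] at h1
  have hx1 : h x u₁ = 0 := H.symm_zero h1x
  have hx2 : h x u₂ = 0 := H.symm_zero h2x
  -- the second anisotropic vector
  obtain ⟨β, hβ⟩ := UnC.exists_trace H 1 (map_one σ)
  set u := x + β • u₁ + c • u₂ with hu
  have huu : h u u = 0 := by
    rw [hu]
    simp only [map_add, LinearMap.add_apply, map_smul, LinearMap.smul_apply, map_smulₛₗ, smul_eq_mul, hx1, hx2, h1x,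
      h2x, h11, h22, h12, h21, hxc, hσc]
    linear_combination (-c) * hβ
  have huv : h u v = 0 := by
    rw [hu]
    simp only [map_add, LinearMap.add_apply, map_smul, LinearMap.smul_apply, smul_eq_mul, hxv, h1v, h2v]
    ring
  have hux : h u (x + u₁) = 0 := by
    rw [hu]
    simp only [map_add, LinearMap.add_apply, map_smul, LinearMap.smul_apply, smul_eq_mul, hx1, h1x,
      h2x, h11, h21, hxc]
    ring
  have hx₂ : x + u₁ ∈ K := K.add_mem hx hu₁K
  have hx₂c : h (x + u₁) (x + u₁) = c := by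
    simp only [map_add, LinearMap.add_apply, hx1, h1x, h11, hxc]
    ring
  have h1u : h u₁ u = -c := by
    rw [hu]
    simp only [map_add, map_smulₛₗ, smul_eq_mul, h1x, h11, h12, hσc]
    ring
  have h2u : h u₂ u = - σ β := by
    rw [hu]
    simp only [map_add, map_smulₛₗ, smul_eq_mul, h2x, h21, h22]
    ring
  have hFu : ∀ t : F, t • u ∈ K := by
    intro t
    set b₂ := -(t + σ t) with hb₂
    have hσb₂ : σ b₂ = b₂ := by rw [hb₂, map_neg, map_add, H.inv]; ring
    set b₁ := -((t + b₂ * σ β) * c⁻¹) with hb₁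
    have hσb₁ : σ b₁ = b₁ := by
      rw [hb₁, map_neg, map_mul, map_add, map_mul, map_inv₀, hσc, hσb₂, H.inv]
      have h1 : σ t + b₂ * β = -(t + b₂ * σ β) := by
        have h2 : σ t + b₂ * β + (t + b₂ * σ β) = t + σ t + b₂ * (β + σ β) := by ring
        rw [hβ, hb₂] at h2
        linear_combination h2
      rw [h1]
      field_simp
    have a1 := hK _ hx₂ hx₂c u huu huv hux b₁ hσb₁ u₁ hu₁K
    have a2 := hK _ hx₂ hx₂c u huu huv hux b₂ hσb₂ u₂ hu₂K
    have a3 := K.add_mem a1 a2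
    rw [← add_smul, h1u, h2u] at a3
    convert a3 using 2
    rw [hb₁]
    field_simp
    ring
  have hβ0 : β ≠ 0 := by
    rintro rfl
    rw [map_zero, add_zero] at hβ
    exact zero_ne_one hβ
  have hF1 : ∀ t : F, t • u₁ ∈ K := by
    intro t
    have a1 := hK x hx hxc u₁ h11 h1v h1x 1 (map_one σ) _ (hFu (-(t * c⁻¹)))
    have e1 : h u u₁ = -c := by
      rw [H.skew u₁ u, h1u, map_neg, hσc]
      ring
    rw [map_smul, LinearMap.smul_apply, smul_eq_mul, e1, one_mul] at a1
    convert a1 using 2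
    field_simp
  have hF2 : ∀ t : F, t • u₂ ∈ K := by
    intro t
    have a1 := hK x hx hxc u₂ h22 h2v h2x 1 (map_one σ) _ (hFu (t * β⁻¹))
    have e1 : h u u₂ = β := by
      rw [H.skew u₂ u, h2u, map_neg, H.inv, neg_neg]
    rw [map_smul, LinearMap.smul_apply, smul_eq_mul, e1, one_mul] at a1
    convert a1 using 2
    field_simp
  have hFx : ∀ t : F, t • x ∈ K := by
    intro t
    have a1 := K.sub_mem (K.sub_mem (hFu t) (hF1 (t * β))) (hF2 (t * c))
    convert a1 using 1
    rw [hu]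
    module
  -- the orthogonal of `v, x`
  have hW : ∀ w, h w v = 0 → h w x = 0 → ∀ t : F, t • w ∈ K := by
    have iso1 : ∀ w, h w v = 0 → h w x = 0 → h w w = 0 → h u₁ w ≠ 0 → ∀ t : F, t • w ∈ K := by
      intro w hwv hwx hww h1w t
      have a1 := hK x hx hxc w hww hwv hwx 1 (map_one σ) _ (hF1 (t * (h u₁ w)⁻¹))
      rw [map_smul, LinearMap.smul_apply, smul_eq_mul, one_mul, mul_assoc, inv_mul_cancel₀ h1w, mul_one] at a1
      exact a1
    have gen : ∀ w, h w v = 0 → h w x = 0 → h u₁ w ≠ 0 → ∀ t : F, t • w ∈ K := by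
      intro w hwv hwx h1w t
      obtain ⟨l, hl1, hl2⟩ := iso_fix H h11 (scale_one H h1w)
      set s := (σ (h u₁ w))⁻¹ with hs
      have hs0 : s ≠ 0 := inv_ne_zero fun h0 => h1w (H.inj h0)
      have a1 := iso1 (s • w + l • u₁) (by simp [hwv, h1v]) (by simp [hwx, h1x]) hl1 (by rw [hl2]; exact one_ne_zero)
        (t * s⁻¹)
      have a2 := K.sub_mem a1 (hF1 (t * s⁻¹ * l))
      convert a2 using 1
      rw [smul_add, smul_smul, mul_assoc, inv_mul_cancel₀ hs0, mul_one, smul_smul]
      abel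
    intro w hwv hwx t
    by_cases h1w : h u₁ w = 0
    · have a1 := gen (w + u₂) (by simp [hwv, h2v]) (by simp [hwx, h2x]) (by rw [map_add, h1w, h12, zero_add]; exact one_ne_zero) t
      have a2 := K.sub_mem a1 (hF2 t)
      convert a2 using 1
      rw [smul_add]
      abel
    · exact gen w hwv hwx h1w t
  intro w hvw
  have hwv : h w v = 0 := H.symm_zero hvw
  set s := h w x * c⁻¹ with hs
  have a1 := hW (w - s • x) (by simp [hwv, hxv]) (by
    simp only [map_sub, LinearMap.sub_apply, map_smul, LinearMap.smul_apply, smul_eq_mul, hxc]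
    rw [hs, mul_assoc, inv_mul_cancel₀ hc0]
    ring) 1
  rw [one_smul] at a1
  have a2 := K.add_mem a1 (hFx s)
  rwa [sub_add_cancel] at a2

/-- avoiding few cosets -/
theorem avoid [Finite V] [DecidableEq V] (K L : AddSubgroup V) (s : Finset V) (hs : s.card * Nat.card L < Nat.card K) :
    ∃ z ∈ K, ∀ a ∈ s, z + a ∉ L := by
  classical
  have : Fintype V := Fintype.ofFinite V
  by_contra hcon
  push Not at hcon
  have h1 : (Finset.univ.filter (fun z => z ∈ K)) ⊆ s.biUnion (fun a => Finset.univ.filter (fun z => z + a ∈ L)) := by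
    intro z hz
    rw [Finset.mem_filter] at hz
    obtain ⟨a, ha, h2⟩ := hcon z hz.2
    rw [Finset.mem_biUnion]
    exact ⟨a, ha, by rw [Finset.mem_filter]; exact ⟨Finset.mem_univ _, h2⟩⟩
  have h2 := Finset.card_le_card h1
  have h3 : ∀ a ∈ s, (Finset.univ.filter (fun z => z + a ∈ L)).card ≤ Nat.card L := by
    intro a _
    rw [Nat.card_eq_fintype_card, Fintype.card_subtype]
    apply Finset.card_le_card_of_injOn (fun z => z + a)
    · intro z hz
      rw [Finset.mem_coe, Finset.mem_filter] at hz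
      rw [Finset.mem_coe, Finset.mem_filter]
      exact ⟨Finset.mem_univ _, hz.2⟩
    · intro z _ z' _ hzz
      exact add_right_cancel hzz
  have h4 := h2.trans (Finset.card_biUnion_le_card_mul s _ _ h3)
  have h5 : Nat.card K = (Finset.univ.filter (fun z => z ∈ K)).card := by
    rw [Nat.card_eq_fintype_card, Fintype.card_subtype]
  omega

/-- subgroups with only one norm are small -/
theorem small_of_norm [Finite F] {v : V} (hv0 : v ≠ 0) {K : AddSubgroup V} {c : F} (hc0 : c ≠ 0)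
    (hK : ∀ x ∈ K, x ∉ Submodule.span F ({v} : Set V) → h x x = c) : Nat.card K ≤ 4 * Nat.card F := by
  classical
  have : Finite V := Module.finite_of_finite F
  by_contra hcon
  push Not at hcon
  set L := (Submodule.span F ({v} : Set V)).toAddSubgroup with hL
  have hLc : Nat.card L = Nat.card F := by
    have h2 : Nat.card (Submodule.span F ({v} : Set V)) = Nat.card F := by
      rw [Module.natCard_eq_pow_finrank (K := F) (V := Submodule.span F ({v} : Set V)), finrank_span_singleton hv0, pow_one]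
    exact h2
  have hq : 0 < Nat.card F := Nat.card_pos
  have hKL : ∀ x ∈ K, x ∉ L → h x x = c := hK
  obtain ⟨x, hx, hx1⟩ := avoid K L {0} (by rw [Finset.card_singleton, hLc]; omega)
  obtain ⟨y, hy, hy1⟩ := avoid K L {0, x} (by
    have := Finset.card_le_two (a := (0 : V)) (b := x)
    rw [hLc]
    nlinarith)
  obtain ⟨z, hz, hz1⟩ := avoid K L {0, x, y, x + y} (by
    have := Finset.card_le_four (a := (0 : V)) (b := x) (c := y) (d := x + y)
    rw [hLc]
    nlinarith)
  have k1 := hx1 0 (by simp)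
  have k2 := hy1 0 (by simp)
  have k3 := hy1 x (by simp)
  have k4 := hz1 0 (by simp)
  have k5 := hz1 x (by simp)
  have k6 := hz1 y (by simp)
  have k7 := hz1 (x + y) (by simp)
  rw [add_zero] at k1 k2 k4
  have n1 := hKL x hx k1
  have n2 := hKL y hy k2
  have n3 := hKL _ (K.add_mem hy hx) k3
  have n4 := hKL z hz k4
  have n5 := hKL _ (K.add_mem hz hx) k5
  have n6 := hKL _ (K.add_mem hz hy) k6
  have n7 := hKL _ (K.add_mem hz (K.add_mem hx hy)) k7
  simp only [map_add, LinearMap.add_apply] at n3 n5 n6 n7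
  apply hc0
  linear_combination n3 + n5 + n6 - n7 - n1 - n2 - n4

end H41.UnF
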