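import Mathlib
import Cfsg.Agent.Lib.H41.UnE
import Cfsg.Agent.Lib.H41.UnF

/-! The nontrivial part for a character of `Z_v`: all the dual groups are `v^⊥`. -/

set_option autoImplicit false
set_option linter.unusedSectionVars false

namespace H41.UnG

open Module H95.UBasic H95.UPar H95.UPair H57.Polar H41.UnA H41.UnA2 H41.Dual H41.UnB H41.UnC H41.UnD H41.UnE H41.UnF

variable {F V : Type*} [Field F] [AddCommGroup V] [Module F V] {σ : F →+* F}
variable {h : V →ₗ[F] V →ₛₗ[σ] F} [FiniteDimensional F V] [Finite F] {B : Bas h}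
variable {lam : AddChar (A0 σ) ℂ} (hl : lam ≠ 1)
variable {Ω : Type*} [MulAction (SU h) Ω] {C : AddSubgroup (A0 σ) → Prop}

/-- numerical hypotheses -/
structure Num (h : V →ₗ[F] V →ₛₗ[σ] F) (q n s0 s1 N' : ℕ) : Prop where
  q2 : 2 ≤ q
  hq : Nat.card (A0 σ) = q
  hF : Nat.card F = q ^ 2
  hn : finrank F V = n
  c0 : ∀ v, v ≠ 0 → h v v = 0 →
    Nat.card {x : V // h v x = 0 ∧ h x x = 0 ∧ x ∉ Submodule.span F ({v} : Set V)} = q ^ 2 * s0
  c1 : ∀ v, v ≠ 0 → h v v = 0 → ∀ c, c ≠ 0 → σ c = -c → Nat.card {x : V // h v x = 0 ∧ h x x = c} = q ^ 2 * s1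
  e0 : s0 = (q ^ 2 - 1) * N'
  eN : 0 < N'
  n1 : q ^ (2 * n - 3) + q ^ 2 * N' < q * ((q + 1) * (s0 + 1))
  n2 : q ^ (2 * n - 3) + q ^ 2 * N' < q * (q * s1 + s0)
  n3 : q ^ (2 * n - 3) + q ^ 2 * N' < q * (q * s1 + s1)
  n4 : q ^ (2 * n - 3) + q ^ 2 * N' < (q + 1) * q ^ (2 * n - 4)
  n5 : q ^ 2 * N' < 2 * s1
  n6 : q ^ 2 * N' < s0 + s1
  cX : Nat.card {v : V // v ≠ 0 ∧ h v v = 0} = (q ^ 2 - 1) * (q ^ (2 * n - 3) + q ^ 2 * N' + 1)

/-- the class of a vector -/
def Cls (h : V →ₗ[F] V →ₛₗ[σ] F) (v : V) (c : F) : Set V := {x | h v x = 0 ∧ h x x = c ∧ x ∉ Submodule.span F ({v} : Set V)}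

/-- the size of the class -/
noncomputable def sz (s0 s1 : ℕ) (c : F) : ℕ := open Classical in if c = 0 then s0 else s1

theorem card_Cls {q n s0 s1 N' : ℕ} (N : Num h q n s0 s1 N') {v : V} (hv0 : v ≠ 0) (hv : h v v = 0) {c : F}
    (hc : σ c = -c) : Nat.card (Cls h v c) = q ^ 2 * sz s0 s1 c := by
  by_cases h0 : c = 0
  · subst h0
    rw [sz, if_pos rfl]
    exact N.c0 v hv0 hv
  · rw [sz, if_neg h0, ← N.c1 v hv0 hv c h0 hc]
    apply Nat.card_congr
    apply Equiv.subtypeEquivRight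
    intro x
    change h v x = 0 ∧ h x x = c ∧ x ∉ Submodule.span F ({v} : Set V) ↔ _
    constructor
    · rintro ⟨h1, h2, -⟩
      exact ⟨h1, h2⟩
    · rintro ⟨h1, h2⟩
      refine ⟨h1, h2, fun h3 => h0 ?_⟩
      obtain ⟨t, rfl⟩ := Submodule.mem_span_singleton.1 h3
      rw [← h2]
      simp [hv]

open Classical in
/-- lower bound for the size from two classes -/
theorem two_classes [Finite Ω] {q n s0 s1 N' : ℕ} (N : Num h q n s0 s1 N') {v : V} (hv0 : v ≠ 0) (hv : h v v = 0)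
    {x y : V} (hvx : h v x = 0) (hvy : h v y = 0) (hxn : x ∉ Submodule.span F ({v} : Set V))
    (hyn : y ∉ Submodule.span F ({v} : Set V)) (hxy : h x x ≠ h y y) {a b : ℕ} (ha : a ≤ m B hl Ω C v x)
    (hb : b ≤ m B hl Ω C v y) :
    a * sz s0 s1 (h x x) + b * sz s0 s1 (h y y) + Nat.card (I B v Ω C) ≤ Nat.card (XC B v Ω C) := by
  have : Finite V := finV B
  have : Fintype V := Fintype.ofFinite V
  have : Fintype (I B v Ω C) := Fintype.ofFinite _
  have h1 := le_sum2 (Ω := Ω) (C := C) hl hv hv0 ((Cls h v (h x x)).toFinset ∪ (Cls h v (h y y)).toFinset) (by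
    intro z hz
    rw [Finset.mem_union, Set.mem_toFinset, Set.mem_toFinset] at hz
    rcases hz with hz | hz <;> exact hz.2.2) (fun z => if h z z = h x x then a else b) (by
    intro z hz
    rw [Finset.mem_union, Set.mem_toFinset, Set.mem_toFinset] at hz
    rcases hz with hz | hz
    · have h2 := m_eq (B := B) (Ω := Ω) (C := C) hl hv hv0 hz.2.1.symm hvx hz.1 hxn hz.2.2
      change (if h z z = h x x then a else b) ≤ _
      rw [if_pos hz.2.1, ← h2]
      exact ha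
    · have h2 := m_eq (B := B) (Ω := Ω) (C := C) hl hv hv0 hz.2.1.symm hvy hz.1 hyn hz.2.2
      change (if h z z = h x x then a else b) ≤ _
      rw [if_neg (by rw [hz.2.1]; exact hxy.symm), ← h2]
      exact hb)
  rw [Finset.sum_union (by
    rw [Finset.disjoint_left]
    intro z hz hz'
    rw [Set.mem_toFinset] at hz hz'
    exact hxy (hz.2.1.symm.trans hz'.2.1))] at h1
  have e1 : ∑ z ∈ (Cls h v (h x x)).toFinset, (if h z z = h x x then a else b) = a * (q ^ 2 * sz s0 s1 (h x x)) := by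
    rw [Finset.sum_congr rfl (g := fun _ => a), Finset.sum_const, smul_eq_mul, mul_comm, ← card_Cls N hv0 hv
      (B.H.self x), Nat.card_eq_fintype_card, Set.toFinset_card]
    intro z hz
    rw [Set.mem_toFinset] at hz
    rw [if_pos hz.2.1]
  have e2 : ∑ z ∈ (Cls h v (h y y)).toFinset, (if h z z = h x x then a else b) = b * (q ^ 2 * sz s0 s1 (h y y)) := by
    rw [Finset.sum_congr rfl (g := fun _ => b), Finset.sum_const, smul_eq_mul, mul_comm, ← card_Cls N hv0 hv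
      (B.H.self y), Nat.card_eq_fintype_card, Set.toFinset_card]
    intro z hz
    rw [Set.mem_toFinset] at hz
    rw [if_neg (by rw [hz.2.1]; exact hxy.symm)]
  rw [e1, e2, N.hF] at h1
  have hq : 0 < q ^ 2 := by have := N.q2; positivity
  refine Nat.le_of_mul_le_mul_left (?_ : q ^ 2 * _ ≤ q ^ 2 * _) hq
  refine le_trans (le_of_eq ?_) h1
  ring

open Classical in
/-- lower bound for the size from one class -/
theorem one_class [Finite Ω] {q n s0 s1 N' : ℕ} (N : Num h q n s0 s1 N') {v : V} (hv0 : v ≠ 0) (hv : h v v = 0)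
    {x : V} (hvx : h v x = 0) (hxn : x ∉ Submodule.span F ({v} : Set V)) {a : ℕ} (ha : a ≤ m B hl Ω C v x) :
    a * sz s0 s1 (h x x) + Nat.card (I B v Ω C) ≤ Nat.card (XC B v Ω C) := by
  have : Finite V := finV B
  have : Fintype V := Fintype.ofFinite V
  have : Fintype (I B v Ω C) := Fintype.ofFinite _
  have h1 := le_sum2 (Ω := Ω) (C := C) hl hv hv0 (Cls h v (h x x)).toFinset (by
    intro z hz
    rw [Set.mem_toFinset] at hz
    exact hz.2.2) (fun z => a) (by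
    intro z hz
    rw [Set.mem_toFinset] at hz
    have h2 := m_eq (B := B) (Ω := Ω) (C := C) hl hv hv0 hz.2.1.symm hvx hz.1 hxn hz.2.2
    rw [← h2]
    exact ha)
  rw [Finset.sum_const, smul_eq_mul, Set.toFinset_card, ← Nat.card_eq_fintype_card, card_Cls N hv0 hv (B.H.self x),
    N.hF] at h1
  have hq : 0 < q ^ 2 := by have := N.q2; positivity
  refine Nat.le_of_mul_le_mul_left (?_ : q ^ 2 * _ ≤ q ^ 2 * _) hq
  refine le_trans (le_of_eq ?_) h1
  ring

theorem m_le_card [Finite Ω] {v x : V} : m B hl Ω C v x ≤ Nat.card (I B v Ω C) := by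
  rw [m, OrbU.m]
  exact Nat.card_le_card_of_injective Subtype.val Subtype.val_injective

include hl in
theorem D_le [Finite Ω] {v : V} (hv : h v v = 0) (hv0 : v ≠ 0) {q n s0 s1 N' : ℕ} (N : Num h q n s0 s1 N') :
    q * Nat.card (XC B v Ω (Cl lam)) ≤ Nat.card Ω := by
  have h1 := total (B := B) (Ω := Ω) hv hv0 hl
  have h2 : Nat.card (XC B v Ω (Cl lam)) ≤ Nat.card (X B v Ω) := by
    have : Finite (X B v Ω) := Quotient.finite _
    exact Nat.card_le_card_of_injective (fun ξ : XC B v Ω (Cl lam) => ξ.1) (fun a b hab => Subtype.ext hab)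
  rw [N.hq] at h1
  obtain ⟨t, ht⟩ := Nat.exists_eq_add_of_le N.q2
  have e1 : q - 1 = t + 1 := by omega
  rw [e1] at h1
  rw [ht]
  nlinarith

section stepA

variable [Finite Ω] {q n s0 s1 N' : ℕ} (N : Num h q n s0 s1 N')
  (hlt : Nat.card Ω ≤ q ^ (2 * n - 3) + q ^ 2 * N')
include N hlt

/-- sizes of the dual groups -/
theorem card_Ui_gt {v : V} (hv : h v v = 0) (i : I B v Ω (Cl lam)) : (q ^ 2) ^ 2 < Nat.card (Ui B hl i) := by
  have h1 := card_Ui_ge (B := B) hl hv i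
  rw [Module.natCard_eq_pow_finrank (K := F) (V := V), N.hF, N.hn] at h1
  have hn5 := B.n5
  rw [N.hn] at hn5
  have h2 : (q ^ 2) ^ 5 ≤ (q ^ 2) ^ n := Nat.pow_le_pow_right (by have := N.q2; positivity) hn5
  by_contra h3
  push Not at h3
  have h4 := h2.trans (h1.trans (Nat.mul_le_mul h3 h3))
  have hq2 := N.q2
  have h5 : (q ^ 2) ^ 2 * (q ^ 2) ^ 2 < (q ^ 2) ^ 5 := by
    have : (q ^ 2) ^ 2 * (q ^ 2) ^ 2 = (q ^ 2) ^ 4 := by ring
    rw [this]
    exact Nat.pow_lt_pow_right (by nlinarith) (by norm_num)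
  omega

/-- the multiplicity of an anisotropic vector is less than `q` -/
theorem m_ani {v : V} (hv0 : v ≠ 0) (hv : h v v = 0) {i : I B v Ω (Cl lam)} {x : V} (hx : x ∈ Ui B hl i)
    (hxx : h x x ≠ 0) : m B hl Ω (Cl lam) v x < q := by
  by_contra hcon
  push Not at hcon
  have hD := (D_le (B := B) (Ω := Ω) hl hv hv0 N).trans hlt
  have hvx := Ui_le hl hv i hx
  have hns : ∀ x : V, h x x ≠ 0 → x ∉ Submodule.span F ({v} : Set V) := by
    intro x hxx h0
    obtain ⟨t, rfl⟩ := Submodule.mem_span_singleton.1 h0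
    exact hxx (smul_iso B.H hv t)
  have h1 : ∀ y ∈ Ui B hl i, y ∉ Submodule.span F ({v} : Set V) → h y y = h x x := by
    intro y hy hyn
    by_contra hne
    have hmy : 1 ≤ m B hl Ω (Cl lam) v y := by
      rw [m, OrbU.m, Nat.one_le_iff_ne_zero, ← Nat.pos_iff_ne_zero, Nat.card_pos_iff]
      exact ⟨⟨⟨i, hy⟩⟩, inferInstance⟩
    have h2 := two_classes (B := B) (Ω := Ω) hl N hv0 hv hvx (Ui_le hl hv i hy) (hns x hxx) hyn (Ne.symm hne) hcon hmy
    rw [sz, if_neg hxx] at h2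
    by_cases hyy : h y y = 0
    · rw [sz, if_pos hyy, one_mul] at h2
      have h3 := N.n2
      have h4 : q * (q * s1 + s0) ≤ q * Nat.card (XC B v Ω (Cl lam)) := Nat.mul_le_mul_left _ (by omega)
      omega
    · rw [sz, if_neg hyy, one_mul] at h2
      have h3 := N.n3
      have h4 : q * (q * s1 + s1) ≤ q * Nat.card (XC B v Ω (Cl lam)) := Nat.mul_le_mul_left _ (by omega)
      omega
  have h2 := small_of_norm hv0 hxx h1
  have h3 := card_Ui_gt (B := B) (Ω := Ω) hl N hlt hv i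
  rw [N.hF] at h2
  have hq2 := N.q2
  have h4 : 4 * q ^ 2 ≤ q ^ 2 * q ^ 2 := Nat.mul_le_mul_right _ (by nlinarith)
  have h5 : (q ^ 2) ^ 2 = q ^ 2 * q ^ 2 := by ring
  omega

end stepA

theorem mkC_congr {v : V} {ω ω' : Ω} (h1 : ω = ω') (hω : C (T B v ω)) (hω' : C (T B v ω')) :
    mkC B (C := C) ω hω = mkC B ω' hω' := by
  subst h1
  rfl

theorem perm_mk {v : V} (hv : h v v = 0) {g : SU h} {c : F} (hc : c ≠ 0) (hg : (g : V ≃ₗ[F] V) v = c • v)
    (hC : ∀ ω : Ω, C (T B v (g • ω)) ↔ C (T B v ω)) (ω : Ω) (hω : C (T B v ω)) :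
    (tr hl Ω hv hc hg hC).perm (OrbU.cls (P h v) (mkC B ω hω)) = OrbU.cls (P h v) (mkC B (g • ω) ((hC ω).2 hω)) := rfl

theorem perm1_mk {v : V} (hv : h v v = 0) {g : SU h} (hg : (g : V ≃ₗ[F] V) v = v) (ω : Ω) (hω : C (T B v ω)) :
    ∃ hω', (tr1 (B := B) hl Ω C hv hg).perm (OrbU.cls (P h v) (mkC B ω hω)) = OrbU.cls (P h v) (mkC B (g • ω) hω') :=
  ⟨by rw [T_g1 hv (c := 1) (by simp) (hg.trans (one_smul F v).symm)]; exact hω, rfl⟩

theorem E_fix {u w v : V} {a : F} (h1 : h v u = 0) (h2 : h v w = 0) : ((E B u w a : SU h) : V ≃ₗ[F] V) v = v := by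
  rw [coe_E]
  by_cases hg : Good h u w a
  · exact sieg_fix B.H hg h1 h2
  · rw [sieg_of_not hg]
    rfl

/-- the transvections orthogonal to an anisotropic vector of small multiplicity -/
theorem fixA [Finite Ω] {v x u : V} (hv : h v v = 0) {i : I B v Ω (Cl lam)} (hx : x ∈ Ui B hl i) (hxx : h x x ≠ 0)
    (hm : m B hl Ω (Cl lam) v x < Nat.card (A0 σ)) (huu : h u u = 0) (huv : h u v = 0) (hux : h u x = 0) {b : F}
    (hb : σ b = b) {y : V} (hy : y ∈ Ui B hl i) : (b * h y u) • u ∈ Ui B hl i := by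
  have hvx := Ui_le hl hv i hx
  by_cases hun : u ∈ Submodule.span F ({v} : Set V)
  · obtain ⟨t, rfl⟩ := Submodule.mem_span_singleton.1 hun
    have h1 : h y v = 0 := B.H.symm_zero (Ui_le hl hv i hy)
    rw [map_smulₛₗ, h1, smul_zero, mul_zero, zero_smul]
    exact (Ui B hl i).zero_mem
  have hvu : h v u = 0 := B.H.symm_zero huv
  have hxu : h x u = 0 := B.H.symm_zero hux
  have hgv : ∀ a : F, ((E B u 0 a : SU h) : V ≃ₗ[F] V) v = v := fun a => E_fix hvu (map_zero _)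
  have hgx : ∀ a : F, ((E B u 0 a : SU h) : V ≃ₗ[F] V) x = x := fun a => E_fix hxu (map_zero _)
  let Tb : A0 σ → OrbU.Tr (pair B hl) (P h v) (XC B v Ω (Cl lam)) := fun a => tr1 hl Ω (Cl lam) hv (hgv a.1)
  have hTb : ∀ a, (Tb a).β x = x := fun a => by
    change (tr1 hl Ω (Cl lam) hv (hgv a.1)).β x = x
    rw [tr1_β, hgx]
  let act : AddAction (A0 σ) {j : I B v Ω (Cl lam) // x ∈ Ui B hl j} :=
    { vadd := fun a j => ⟨(Tb a).perm j.1, by
        have h1 := (Tb a).mem_Ui_iff (i := j.1) (x := x)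
        rw [hTb] at h1
        exact h1.2 j.2⟩
      zero_vadd := by
        rintro ⟨j, hj⟩
        apply Subtype.ext
        change (Tb 0).perm j = j
        obtain ⟨ω, hω, rfl⟩ := cls_surj j
        obtain ⟨hω', h1⟩ := perm1_mk (B := B) hl hv (hgv 0) ω hω
        refine h1.trans ?_
        congr 1
        apply mkC_congr
        rw [E_zero, one_smul]
      add_vadd := by
        rintro a a' ⟨j, hj⟩
        apply Subtype.ext
        change (Tb (a + a')).perm j = (Tb a).perm ((Tb a').perm j)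
        obtain ⟨ω, hω, rfl⟩ := cls_surj j
        obtain ⟨hω', h1⟩ := perm1_mk (B := B) hl hv (hgv (a + a').1) ω hω
        obtain ⟨hω2, h2⟩ := perm1_mk (B := B) hl hv (hgv a'.1) ω hω
        obtain ⟨hω3, h3⟩ := perm1_mk (B := B) hl hv (hgv a.1) _ hω2
        change (tr1 hl Ω (Cl lam) hv (hgv (a + a').1)).perm _ = (tr1 hl Ω (Cl lam) hv (hgv a.1)).perm
          ((tr1 hl Ω (Cl lam) hv (hgv a'.1)).perm _)
        rw [h1, h2, h3]
        congr 1
        apply mkC_congr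
        rw [← mul_smul, ← E_add0 B u a.2 a'.2]
        rfl }
  have key := @triv_of_scaling F _ σ _ {j : I B v Ω (Cl lam) // x ∈ Ui B hl j} _ act hm (by
    intro c hc hc0
    obtain ⟨g, hg, α, β, hα, hβ, hgv', hgx', hgu'⟩ := torus B.H B.n5 hv hvx hxx huu huv hux hun hc hc0
    have hα0 : α ≠ 0 := by
      rintro rfl
      rw [zero_mul] at hα
      exact zero_ne_one hα
    let Tg := tr (B := B) (C := Cl lam) hl Ω hv (g := ⟨g, hg⟩) hα0 hgv' (fun ω => by rw [T_g1 hv hα hgv'])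
    have hTg : Tg.β x = x := by
      change (tr hl Ω hv (g := ⟨g, hg⟩) hα0 hgv' _).β x = x
      rw [tr_β]
      change α⁻¹ • g x = x
      rw [hgx', smul_smul, inv_mul_cancel₀ hα0, one_smul]
    refine ⟨Tg.perm.subtypePerm fun j => ?_, ?_⟩
    · have h1 := Tg.mem_Ui_iff (i := j) (x := x)
      rwa [hTg] at h1
    · rintro a ⟨j, hj⟩
      apply Subtype.ext
      change Tg.perm ((Tb a).perm j) = (Tb (mulA σ c hc a)).perm (Tg.perm j)
      obtain ⟨ω, hω, rfl⟩ := cls_surj j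
      obtain ⟨hω1, h1⟩ := perm1_mk (B := B) hl hv (hgv a.1) ω hω
      have h2 := perm_mk (B := B) (C := Cl lam) hl hv (g := ⟨g, hg⟩) hα0 hgv' (fun ω => by rw [T_g1 hv hα hgv']) ω hω
      have h3 := perm_mk (B := B) (C := Cl lam) hl hv (g := ⟨g, hg⟩) hα0 hgv' (fun ω => by rw [T_g1 hv hα hgv']) _ hω1
      obtain ⟨hω4, h4⟩ := perm1_mk (B := B) (C := Cl lam) hl hv (hgv (mulA σ c hc a).1) ((⟨g, hg⟩ : SU h) • ω)
        (by rw [T_g1 hv hα hgv']; exact hω)
      change Tg.perm ((tr1 hl Ω (Cl lam) hv (hgv a.1)).perm _) = (tr1 hl Ω (Cl lam) hv (hgv (mulA σ c hc a).1)).perm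
        (Tg.perm _)
      rw [h1]
      refine h3.trans (Eq.trans ?_ (congrArg _ h2).symm)
      refine Eq.trans ?_ h4.symm
      congr 1
      apply mkC_congr
      rw [← mul_smul, ← mul_smul, E_conj']
      congr 2
      change E B (g u) (g 0) a.1 = _
      rw [hgu', map_zero, E_smul B β huu (map_zero _) (by rw [show σ a.1 = a.1 from a.2]; simp), smul_zero, hβ,
        coe_mulA, mul_comm])
  have h1 := key ⟨b, hb⟩ ⟨i, hx⟩
  have h2 : (Tb ⟨b, hb⟩).perm i = i := congrArg Subtype.val h1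
  have h3 := ((Tb ⟨b, hb⟩).mem_of_perm_eq h2 (u := y)).2 hy
  change (tr1 hl Ω (Cl lam) hv (hgv b)).β y ∈ _ at h3
  rw [tr1_β, coe_E, sieg_apply (good_tr huu hb)] at h3
  have h4 := (Ui B hl i).sub_mem h3 hy
  simpa using h4

end H41.UnG
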