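import Mathlib
import Cfsg.Agent.Lib.H41.UnG

/-! The nontrivial part for a character of `Z_v`: conclusion. -/

set_option autoImplicit false
set_option linter.unusedSectionVars false

namespace H41.UnH

open Module H95.UBasic H95.UPar H95.UPair H57.Polar H41.UnA H41.UnA2 H41.Dual H41.UnB H41.UnC H41.UnD H41.UnE H41.UnF
  H41.UnG

variable {F V : Type*} [Field F] [AddCommGroup V] [Module F V] {σ : F →+* F}
variable {h : V →ₗ[F] V →ₛₗ[σ] F} [FiniteDimensional F V] [Finite F] {B : Bas h}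
variable {lam : AddChar (A0 σ) ℂ} (hl : lam ≠ 1)
variable {Ω : Type*} [MulAction (SU h) Ω] {C : AddSubgroup (A0 σ) → Prop}

theorem finrank_pair_le (v d : V) : finrank F (Submodule.span F ({v, d} : Set V)) ≤ 2 := by
  classical
  have := finrank_span_finset_le_card (R := F) ({v, d} : Finset V)
  rw [Finset.coe_insert, Finset.coe_singleton] at this
  exact this.trans Finset.card_le_two

theorem card_span_pair_le (v x : V) : Nat.card (Submodule.span F ({v, x} : Set V)) ≤ Nat.card F ^ 2 := by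
  rw [Module.natCard_eq_pow_finrank (K := F) (V := Submodule.span F ({v, x} : Set V))]
  exact Nat.pow_le_pow_right Nat.card_pos (finrank_pair_le v x)

/-- elements outside of a plane -/
theorem exists_not_span {K : AddSubgroup V} (v x : V) (hK : (Nat.card F) ^ 2 < Nat.card K) :
    ∃ y ∈ K, y ∉ Submodule.span F ({v, x} : Set V) := by
  by_contra hcon
  push Not at hcon
  have : Finite V := Module.finite_of_finite F
  have h1 : Nat.card K ≤ Nat.card (Submodule.span F ({v, x} : Set V)) := Nat.card_mono (Set.toFinite _) hcon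
  have h2 := card_span_pair_le (F := F) v x
  omega

variable [Finite Ω] {q n s0 s1 N' : ℕ} (N : Num h q n s0 s1 N')
  (hlt : Nat.card Ω ≤ q ^ (2 * n - 3) + q ^ 2 * N')
include N hlt

/-- a dual group with an anisotropic vector is everything -/
theorem full {v : V} (hv0 : v ≠ 0) (hv : h v v = 0) {i : I B v Ω (Cl lam)} {x : V} (hx : x ∈ Ui B hl i)
    (hxx : h x x ≠ 0) {w : V} (hw : h v w = 0) : w ∈ Ui B hl i := by
  obtain ⟨y, hy, hyn⟩ := exists_not_span (F := F) (K := Ui B hl i) v x (by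
    have h1 := card_Ui_gt (B := B) (Ω := Ω) hl N hlt hv i
    rw [N.hF]
    exact h1)
  refine full_of_ani B.H B.n5 hv0 hv (K := Ui B hl i) (fun x hx => Ui_le hl hv i hx) hxx ?_ hx rfl hy hyn w hw
  intro x' hx' hx'c u huu huv hux b hb y' hy'
  have hx'x : h x' x' ≠ 0 := by rw [hx'c]; exact hxx
  have hm := m_ani (B := B) (Ω := Ω) hl N hlt hv0 hv hx' hx'x
  rw [← N.hq] at hm
  exact fixA hl hv hx' hx'x hm huu huv hux hb hy'

/-- the multiplicity of an isotropic vector is at most `q` -/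
theorem m_iso {v : V} (hv0 : v ≠ 0) (hv : h v v = 0) {i : I B v Ω (Cl lam)} {x : V} (hx : x ∈ Ui B hl i)
    (hxx : h x x = 0) (hxn : x ∉ Submodule.span F ({v} : Set V)) : m B hl Ω (Cl lam) v x ≤ q := by
  by_contra hcon
  push Not at hcon
  have hD := (D_le (B := B) (Ω := Ω) hl hv hv0 N).trans hlt
  have h1 := one_class (B := B) (Ω := Ω) hl N hv0 hv (Ui_le hl hv i hx) hxn (Nat.succ_le_of_lt hcon)
  have h2 := m_le_card (B := B) (Ω := Ω) (C := Cl lam) hl (v := v) (x := x)
  rw [sz, if_pos hxx] at h1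
  have h3 := N.n1
  have h4 : q * ((q + 1) * (s0 + 1)) ≤ q * Nat.card (XC B v Ω (Cl lam)) := by
    apply Nat.mul_le_mul_left
    refine le_trans ?_ h1
    have e : (q + 1) * (s0 + 1) = (q + 1) * s0 + (q + 1) := by ring
    rw [e]
    exact Nat.add_le_add_left (by omega) _
  omega

/-- there is an anisotropic vector -/
theorem exists_ani_perp (B : Bas h) (v x : V) : ∃ w, h w v = 0 ∧ h w x = 0 ∧ h w w ≠ 0 := by
  obtain ⟨s0, hs0, hs0'⟩ := exists_skew_ne B.H
  have h5 := B.n5
  have h1 := finrank_p2 (h := h) B.H (U := ⊤) v x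
  rw [finrank_top] at h1
  obtain ⟨k, hk, hkk⟩ := exists_value B.H (nd_top B.H) (X := p2 h ⊤ v x) le_top (by rw [finrank_top]; omega) hs0
  rw [mem_p2] at hk
  exact ⟨k, hk.2.1, hk.2.2, by rw [hkk]; exact hs0'⟩

/-- isotropic dual groups are totally isotropic -/
theorem iso_perp {v : V} (hv0 : v ≠ 0) (hv : h v v = 0) {i : I B v Ω (Cl lam)}
    (hiso : ∀ x ∈ Ui B hl i, h x x = 0) {x y : V} (hx : x ∈ Ui B hl i) (hy : y ∈ Ui B hl i) : h y x = 0 := by
  have hvx := Ui_le hl hv i hx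
  have hxv : h x v = 0 := B.H.symm_zero hvx
  have hyv : h y v = 0 := B.H.symm_zero (Ui_le hl hv i hy)
  by_cases hxn : x ∈ Submodule.span F ({v} : Set V)
  · obtain ⟨t, rfl⟩ := Submodule.mem_span_singleton.1 hxn
    rw [map_smulₛₗ, hyv, smul_zero]
  have hxx := hiso x hx
  by_contra hyx
  obtain ⟨w, hwv, hwx, hww⟩ := exists_ani_perp N hlt B v x
  have hvw : h v w = 0 := B.H.symm_zero hwv
  have hxw : h x w = 0 := B.H.symm_zero hwx
  have hm := m_iso (B := B) (Ω := Ω) hl N hlt hv0 hv hx hxx hxn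
  have hgv : ∀ s : F, ((E B x (s • w) (ca B (s • w)) : SU h) : V ≃ₗ[F] V) v = v :=
    fun s => E_fix hvx (by rw [map_smulₛₗ, hvw, smul_zero])
  have hgx : ∀ s : F, ((E B x (s • w) (ca B (s • w)) : SU h) : V ≃ₗ[F] V) x = x :=
    fun s => E_fix hxx (by rw [map_smulₛₗ, hxw, smul_zero])
  let Ts : F → OrbU.Tr (pair B hl) (P h v) (XC B v Ω (Cl lam)) := fun s => tr1 hl Ω (Cl lam) hv (hgv s)
  have hβ : ∀ s z, (Ts s).β z = sieg h x (s • w) (ca B (s • w)) z := fun s z => tr1_β hl hv (hgv s) z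
  have hβx : ∀ s, (Ts s).β x = x := fun s => (tr1_β hl hv (hgv s) x).trans (hgx s)
  let f : F → {j : I B v Ω (Cl lam) // x ∈ Ui B hl j} := fun s => ⟨(Ts s).perm i, by
    have h1 := (Ts s).mem_Ui_iff (i := i) (x := x)
    rw [hβx] at h1
    exact h1.2 hx⟩
  obtain ⟨s, s', hne, hss⟩ : ∃ s s', s ≠ s' ∧ f s = f s' := by
    by_contra hcon
    push Not at hcon
    have hinj : Function.Injective f := by
      intro a b hab
      by_contra h0
      exact hcon a b h0 hab
    have h1 := Nat.card_le_card_of_injective f hinj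
    change Nat.card F ≤ m B hl Ω (Cl lam) v x at h1
    rw [N.hF] at h1
    have h2 := N.q2
    nlinarith
  have hp : (Ts s).perm i = (Ts s').perm i := congrArg Subtype.val hss
  have h1 := (Ts s).mem_Ui_iff (i := i) (x := y)
  have h2 := (Ts s').mem_Ui_iff (i := i) (x := y)
  rw [← hp] at h2
  have h3 := (Ui B hl ((Ts s).perm i)).sub_mem (h1.2 hy) (h2.2 hy)
  -- all the vectors are isotropic
  have h4 : ∀ z ∈ Ui B hl ((Ts s).perm i), h z z = 0 := by
    intro z hz
    have e1 : (Ts s).β ((Ts s).β.symm z) = z := (Ts s).β.apply_symm_apply z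
    have h5 := hiso _ ((Ts s).mem_Ui_iff.1 (by rw [e1]; exact hz))
    rw [← e1, hβ]
    exact (SU_le h (E B x (s • w) (ca B (s • w))).2 _ _).trans h5
  have h5 := h4 _ h3
  have g : ∀ s : F, Good h x (s • w) (ca B (s • w)) := fun s =>
    ⟨hxx, by rw [map_smulₛₗ, hxw, smul_zero], by rw [map_smul, LinearMap.smul_apply, hwx, smul_zero], ca_spec B _⟩
  rw [hβ, hβ, sieg_apply (g s), sieg_apply (g s')] at h5
  have e2 : y + h y x • s • w + h y (s • w) • x + (ca B (s • w) * h y x) • x -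
      (y + h y x • s' • w + h y (s' • w) • x + (ca B (s' • w) * h y x) • x) =
      (h y x * (s - s')) • w + (h y (s • w) + ca B (s • w) * h y x - h y (s' • w) - ca B (s' • w) * h y x) • x := by
    module
  rw [e2] at h5
  simp only [map_add, LinearMap.add_apply, map_smul, LinearMap.smul_apply, map_smulₛₗ, smul_eq_mul, hxx, hxw, hwx,
    mul_zero, add_zero] at h5
  have h7 : h y x * (s - s') ≠ 0 := mul_ne_zero hyx (sub_ne_zero.2 hne)
  rcases mul_eq_zero.1 h5 with h6 | h6
  · exact h7 (B.H.inj h6)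
  · rcases mul_eq_zero.1 h6 with h8 | h8
    · exact h7 h8
    · exact hww h8

/-- the dual groups contain anisotropic vectors -/
theorem no_iso {v : V} (hv0 : v ≠ 0) (hv : h v v = 0) (i : I B v Ω (Cl lam)) : ∃ x ∈ Ui B hl i, h x x ≠ 0 := by
  by_contra hcon
  push Not at hcon
  have hcard := card_Ui_gt (B := B) (Ω := Ω) hl N hlt hv i
  obtain ⟨x, hx, hxn2⟩ := exists_not_span (F := F) (K := Ui B hl i) v v (by rw [N.hF]; exact hcard)
  have hxn : x ∉ Submodule.span F ({v} : Set V) := by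
    intro h0
    exact hxn2 (Submodule.span_mono (by simp) h0)
  obtain ⟨t, ht, htn⟩ := exists_not_span (F := F) (K := Ui B hl i) v x (by rw [N.hF]; exact hcard)
  have hxx := hcon x hx
  have htt := hcon t ht
  have hvx := Ui_le hl hv i hx
  have hvt := Ui_le hl hv i ht
  have htx := iso_perp (B := B) (Ω := Ω) hl N hlt hv0 hv hcon hx ht
  have hxt : h x t = 0 := B.H.symm_zero htx
  obtain ⟨u, huv, hux, huu, htu⟩ := partner_perp B.H htt (B.H.symm_zero hvt) htx htn
  have hvu : h v u = 0 := B.H.symm_zero huv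
  have hxu : h x u = 0 := B.H.symm_zero hux
  have hut : h u t = -1 := hfe B.H htu
  have hm := m_iso (B := B) (Ω := Ω) hl N hlt hv0 hv hx hxx hxn
  have hgv : ∀ b : F, ((E B u 0 b : SU h) : V ≃ₗ[F] V) v = v := fun b => E_fix hvu (map_zero _)
  have hgx : ∀ b : F, ((E B u 0 b : SU h) : V ≃ₗ[F] V) x = x := fun b => E_fix hxu (map_zero _)
  let Tb : A0 σ → OrbU.Tr (pair B hl) (P h v) (XC B v Ω (Cl lam)) := fun b => tr1 hl Ω (Cl lam) hv (hgv b.1)
  have hβ : ∀ (b : A0 σ) z, (Tb b).β z = z + (b.1 * h z u) • u := by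
    intro b z
    refine (tr1_β hl hv (hgv b.1) z).trans ?_
    rw [coe_E, sieg_apply (good_tr huu b.2)]
    simp
  have hβx : ∀ b, (Tb b).β x = x := fun b => (tr1_β hl hv (hgv b.1) x).trans (hgx b.1)
  have hmem : ∀ b, x ∈ Ui B hl ((Tb b).perm i) := fun b => by
    have h1 := (Tb b).mem_Ui_iff (i := i) (x := x)
    rw [hβx] at h1
    exact h1.2 hx
  have hisob : ∀ b, ∀ z ∈ Ui B hl ((Tb b).perm i), h z z = 0 := by
    intro b z hz
    have e1 : (Tb b).β ((Tb b).β.symm z) = z := (Tb b).β.apply_symm_apply z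
    have h5 := hcon _ ((Tb b).mem_Ui_iff.1 (by rw [e1]; exact hz))
    rw [← e1]
    change h ((tr1 hl Ω (Cl lam) hv (hgv b.1)).β _) ((tr1 hl Ω (Cl lam) hv (hgv b.1)).β _) = 0
    rw [tr1_β]
    exact (iso (E B u 0 b.1) _ _).trans h5
  let f : A0 σ → {j : I B v Ω (Cl lam) // x ∈ Ui B hl j} := fun b => ⟨(Tb b).perm i, hmem b⟩
  have hinj : Function.Injective f := by
    intro b b' hbb
    by_contra hne
    have hp : (Tb b).perm i = (Tb b').perm i := congrArg Subtype.val hbb
    have h1 := ((Tb b).mem_Ui_iff (i := i) (x := t)).2 ht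
    have h2 := ((Tb b').mem_Ui_iff (i := i) (x := t)).2 ht
    rw [← hp] at h2
    have h3 := iso_perp (B := B) (Ω := Ω) hl N hlt hv0 hv (hisob b) h2 h1
    rw [hβ, hβ, htu] at h3
    simp only [map_add, LinearMap.add_apply, map_smul, LinearMap.smul_apply, map_smulₛₗ, smul_eq_mul, htt, htu, hut, huu,
      mul_one, map_mul, map_one, mul_zero, add_zero, zero_add] at h3
    apply hne
    apply Subtype.ext
    have h4 : σ b'.1 = b'.1 := b'.2
    rw [h4] at h3
    linear_combination -h3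
  -- the additional element
  have hg1v : ((E B t 0 1 * E B u 0 1 : SU h) : V ≃ₗ[F] V) v = v := by
    change ((E B t 0 1 : SU h) : V ≃ₗ[F] V) (((E B u 0 1 : SU h) : V ≃ₗ[F] V) v) = v
    rw [hgv 1, E_fix hvt (map_zero _)]
  have hg1x : ((E B t 0 1 * E B u 0 1 : SU h) : V ≃ₗ[F] V) x = x := by
    change ((E B t 0 1 : SU h) : V ≃ₗ[F] V) (((E B u 0 1 : SU h) : V ≃ₗ[F] V) x) = x
    rw [hgx 1, E_fix hxt (map_zero _)]
  have hg1t : ((E B t 0 1 * E B u 0 1 : SU h) : V ≃ₗ[F] V) t = u := by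
    change sieg h t 0 1 (sieg h u 0 1 t) = u
    rw [sieg_apply (good_tr huu (map_one σ)), sieg_apply (good_tr htt (map_one σ))]
    simp only [map_add, LinearMap.add_apply, map_smul, LinearMap.smul_apply, smul_eq_mul, htt, htu, hut, map_zero,
      smul_zero, LinearMap.zero_apply]
    module
  let T1 := tr1 (B := B) hl Ω (Cl lam) hv hg1v
  have h1x : T1.β x = x := (tr1_β hl hv hg1v x).trans hg1x
  have h1t : T1.β t = u := (tr1_β hl hv hg1v t).trans hg1t
  have hmem1 : x ∈ Ui B hl (T1.perm i) := by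
    have h1 := T1.mem_Ui_iff (i := i) (x := x)
    rw [h1x] at h1
    exact h1.2 hx
  have hsurj : Function.Surjective f := by
    have : Finite {j : I B v Ω (Cl lam) // x ∈ Ui B hl j} := inferInstance
    have h1 : Nat.card {j : I B v Ω (Cl lam) // x ∈ Ui B hl j} ≤ Nat.card (A0 σ) := by
      rw [N.hq]
      exact hm
    exact ((Nat.bijective_iff_injective_and_card f).2 ⟨hinj, le_antisymm (Nat.card_le_card_of_injective f hinj) h1⟩).2
  obtain ⟨b, hb⟩ := hsurj ⟨T1.perm i, hmem1⟩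
  have hp : (Tb b).perm i = T1.perm i := congrArg Subtype.val hb
  have h1 := ((Tb b).mem_Ui_iff (i := i) (x := t)).2 ht
  have h2 := (T1.mem_Ui_iff (i := i) (x := t)).2 ht
  rw [← hp, h1t] at h2
  have h3 := iso_perp (B := B) (Ω := Ω) hl N hlt hv0 hv (hisob b) h2 h1
  rw [hβ, htu] at h3
  simp only [map_add, LinearMap.add_apply, map_smul, LinearMap.smul_apply, smul_eq_mul, htu, huu, mul_zero,
    add_zero] at h3
  exact one_ne_zero h3

/-- all the dual groups are full -/
theorem full_all {v : V} (hv0 : v ≠ 0) (hv : h v v = 0) (i : I B v Ω (Cl lam)) {w : V} (hw : h v w = 0) :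
    w ∈ Ui B hl i := by
  obtain ⟨x, hx, hxx⟩ := no_iso (B := B) (Ω := Ω) hl N hlt hv0 hv i
  exact full (B := B) (Ω := Ω) hl N hlt hv0 hv hx hxx hw

theorem card_full {v : V} (hv0 : v ≠ 0) (hv : h v v = 0) (i : I B v Ω (Cl lam)) :
    Nat.card (Ui B hl i) * Nat.card F = Nat.card V := by
  have : Ui B hl i = P h v := by
    ext w
    exact ⟨fun hw => Ui_le hl hv i hw, fun hw => full_all (B := B) (Ω := Ω) hl N hlt hv0 hv i hw⟩
  rw [this]
  exact card_P B hv0

include hl in
/-- the size of the part -/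
theorem card_XC {v : V} (hv0 : v ≠ 0) (hv : h v v = 0) :
    Nat.card (XC B v Ω (Cl lam)) = Nat.card (I B v Ω (Cl lam)) * q ^ (2 * n - 4) ∧ Nat.card (I B v Ω (Cl lam)) ≤ 1 := by
  have : Fintype (I B v Ω (Cl lam)) := Fintype.ofFinite _
  have hq2 := N.q2
  have h5 := B.n5
  rw [N.hn] at h5
  have h1 := sum_card (B := B) (Ω := Ω) (C := Cl lam) hl hv0
  have h2 : ∀ i : I B v Ω (Cl lam), Nat.card (Ui B hl i) = q ^ (2 * n - 4) * q ^ 2 := by
    intro i
    have h3 := card_full (B := B) (Ω := Ω) hl N hlt hv0 hv i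
    rw [Module.natCard_eq_pow_finrank (K := F) (V := V), N.hF, N.hn] at h3
    have h4 : (q ^ 2) ^ n = q ^ (2 * n - 4) * q ^ 2 * q ^ 2 := by
      rw [← pow_mul, ← pow_add, ← pow_add]
      congr 1
      omega
    rw [h4] at h3
    exact Nat.eq_of_mul_eq_mul_right (by positivity) h3
  rw [Finset.sum_congr rfl (fun i _ => h2 i), Finset.sum_const, Finset.card_univ, smul_eq_mul, N.hF,
    ← Nat.card_eq_fintype_card] at h1
  have h3 : Nat.card (XC B v Ω (Cl lam)) = Nat.card (I B v Ω (Cl lam)) * q ^ (2 * n - 4) := by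
    apply Nat.eq_of_mul_eq_mul_left (show 0 < q ^ 2 by positivity)
    rw [← h1]
    ring
  refine ⟨h3, ?_⟩
  by_contra hcon
  push Not at hcon
  have hD := (D_le (B := B) (Ω := Ω) hl hv hv0 N).trans hlt
  rw [h3] at hD
  have h4 := N.n4
  have h6 : q * (2 * q ^ (2 * n - 4)) ≤ q * (Nat.card (I B v Ω (Cl lam)) * q ^ (2 * n - 4)) :=
    Nat.mul_le_mul_left _ (Nat.mul_le_mul_right _ hcon)
  have h7 : (q + 1) * q ^ (2 * n - 4) ≤ q * (2 * q ^ (2 * n - 4)) := by
    have : q * (2 * q ^ (2 * n - 4)) = (q + q) * q ^ (2 * n - 4) := by ring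
    rw [this]
    exact Nat.mul_le_mul_right _ (by omega)
  omega

end H41.UnH
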