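import Mathlib
import Cfsg.Agent.Lib.H41.UnH

/-! The points moved by `Z_v` form one regular orbit of `Q_v`. -/

set_option autoImplicit false
set_option linter.unusedSectionVars false

namespace H41.UnI

open Module H95.UBasic H95.UPar H95.UPair H57.Polar H41.UnA H41.UnA2 H41.Dual H41.UnB H41.UnC H41.UnD H41.UnE H41.UnF
  H41.UnG H41.UnH MulAction

variable {F V : Type*} [Field F] [AddCommGroup V] [Module F V] {σ : F →+* F}
variable {h : V →ₗ[F] V →ₛₗ[σ] F} [FiniteDimensional F V] [Finite F] {B : Bas h}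
variable {Ω : Type*} [MulAction (SU h) Ω]

theorem rf_eq (B : Bas h) {v : V} (hv : h v v = 0) {c : F} (hc : σ c = c) : rf h v c = sieg h v 0 c := by
  ext x
  rw [rf_apply (tr_good hv hc), sieg_apply (good_tr hv hc)]
  simp

/-- a point fixed by all the transvections is fixed by everything -/
theorem fix_all {ω : Ω} (hω : ∀ v, h v v = 0 → ∀ c, σ c = c → E B v 0 c • ω = ω) (g : SU h) : g • ω = ω := by
  have hM : SU h ≤ (stabilizer (SU h) ω).map (SU h).subtype := by
    refine H6.SUGenB.SU_le_of_tr B.H (by have := B.n5; omega) (Or.inl (by have := B.n5; omega)) _ ?_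
    intro v hv c hc
    exact ⟨E B v 0 c, hω v hv c hc, (rf_eq B hv hc).symm⟩
  obtain ⟨g', hg', h1⟩ := hM g.2
  have h2 : g' = g := Subtype.ext h1
  rw [← h2]
  exact hg'

/-- characters separating subgroups -/
theorem exists_char (S : AddSubgroup (A0 σ)) (hS : S ≠ ⊤) : ∃ lam : AddChar (A0 σ) ℂ, lam ≠ 1 ∧ Cl lam S := by
  by_contra hcon
  push Not at hcon
  have h1 := OrbChar.card_ann S
  have h2 : Nat.card {χ : AddChar (A0 σ) ℂ // ∀ x ∈ S, χ x = 1} ≤ 1 := by
    have : Subsingleton {χ : AddChar (A0 σ) ℂ // ∀ x ∈ S, χ x = 1} := by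
      constructor
      rintro ⟨χ, h3⟩ ⟨χ', h4⟩
      apply Subtype.ext
      have e1 : χ = 1 := by
        by_contra h5
        exact hcon χ h5 h3
      have e2 : χ' = 1 := by
        by_contra h5
        exact hcon χ' h5 h4
      exact e1.trans e2.symm
    exact Finite.card_le_one_iff_subsingleton.2 this
  have h3 : Nat.card (A0 σ) ≤ Nat.card S := by
    rw [← h1]
    calc _ ≤ 1 * Nat.card S := Nat.mul_le_mul_right _ h2
      _ = _ := one_mul _
  exact hS (AddSubgroup.eq_top_of_le_card S h3)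

theorem exists_lam (B : Bas h) : ∃ lam : AddChar (A0 σ) ℂ, lam ≠ 1 := by
  obtain ⟨lam, hl, -⟩ := exists_char (⊥ : AddSubgroup (A0 σ)) (by
    intro h0
    have h1 : (⟨1, map_one σ⟩ : A0 σ) ∈ (⊥ : AddSubgroup (A0 σ)) := by rw [h0]; trivial
    rw [AddSubgroup.mem_bot] at h1
    exact one_ne_zero (congrArg Subtype.val h1))
  exact ⟨lam, hl⟩

theorem exists_char' (B : Bas h) {x : A0 σ} (hx : x ≠ 0) : ∃ lam : AddChar (A0 σ) ℂ, lam ≠ 1 ∧ lam x ≠ 1 := by
  obtain ⟨lam, hl⟩ := exists_lam B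
  obtain ⟨c, hc⟩ := lam_exists hl
  have hx0 : x.1 ≠ 0 := fun h0 => hx (Subtype.ext h0)
  have hcx : σ (c.1 * x.1⁻¹) = c.1 * x.1⁻¹ := by
    rw [map_mul, map_inv₀, show σ c.1 = c.1 from c.2, show σ x.1 = x.1 from x.2]
  have h1 : (lam.compAddMonoidHom (mulA σ (c.1 * x.1⁻¹) hcx)) x ≠ 1 := by
    change lam (mulA σ (c.1 * x.1⁻¹) hcx x) ≠ 1
    have : mulA σ (c.1 * x.1⁻¹) hcx x = c := Subtype.ext (by rw [coe_mulA, mul_assoc, inv_mul_cancel₀ hx0, mul_one])
    rwa [this]
  refine ⟨_, fun h0 => h1 ?_, h1⟩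
  rw [h0]
  rfl

/-- `Z_v` moves a point -/
theorem moved [IsPretransitive (SU h) Ω] (h1 : 1 < Nat.card Ω) {v : V} (hv0 : v ≠ 0) (hv : h v v = 0) :
    ∃ ω : Ω, T B v ω ≠ ⊤ := by
  by_contra hcon
  push Not at hcon
  have : Finite Ω := Nat.finite_of_card_ne_zero (by omega)
  have h2 : ∀ ω : Ω, ∀ g : SU h, g • ω = ω := by
    intro ω
    apply fix_all (B := B)
    intro u hu c hc
    by_cases hu0 : u = 0
    · have : E B u 0 c = 1 := by
        apply Subtype.ext
        apply LinearEquiv.ext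
        intro x
        change sieg h u 0 c x = x
        rw [sieg_apply (good_tr hu hc), hu0]
        simp
      rw [this, one_smul]
    · obtain ⟨g, hg, hgv⟩ := H6.SUGenB.trans_iso B.H (by have := B.n5; omega) hv0 hv hu0 hu
      have h3 : (⟨g, TU_le_SU B.H ⊤ hg⟩ : SU h) * E B v 0 c = E B u 0 c * (⟨g, TU_le_SU B.H ⊤ hg⟩ : SU h) := by
        rw [E_conj']
        congr 1
        change E B (g v) (g 0) c = _
        rw [hgv, map_zero]
      have h4 := congrArg (fun x => x • ((⟨g, TU_le_SU B.H ⊤ hg⟩ : SU h)⁻¹ • ω)) h3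
      simp only [mul_smul, smul_inv_smul] at h4
      have h5 : (⟨c, hc⟩ : A0 σ) ∈ T B v ((⟨g, TU_le_SU B.H ⊤ hg⟩ : SU h)⁻¹ • ω) := by rw [hcon]; trivial
      rw [mem_T] at h5
      rw [h5, smul_inv_smul] at h4
      exact h4.symm
  have h3 : Subsingleton Ω := by
    constructor
    intro ω ω'
    obtain ⟨g, rfl⟩ := exists_smul_eq (SU h) ω ω'
    exact (h2 ω g).symm
  rw [Nat.card_of_subsingleton] at h1
  · omega
  · have : Nonempty Ω := by
      by_contra h4
      rw [not_nonempty_iff] at h4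
      rw [Nat.card_of_isEmpty] at h1
      omega
    exact this.some

variable [Finite Ω] {q n s0 s1 N' : ℕ} (N : Num h q n s0 s1 N')
  (hlt : Nat.card Ω ≤ q ^ (2 * n - 3) + q ^ 2 * N')

/-- the conclusion for one isotropic vector -/
structure Res (B : Bas h) (Ω : Type*) [MulAction (SU h) Ω] (q n : ℕ) (v : V) : Prop where
  bot : ∀ ω : Ω, T B v ω ≠ ⊤ → T B v ω = ⊥
  card : Nat.card (XC B v Ω Ct) + q ^ (2 * n - 3) = Nat.card Ω
  trans : ∀ ω ω' : Ω, T B v ω ≠ ⊤ → T B v ω' ≠ ⊤ → ∃ w a, h v w = 0 ∧ a - σ a = h w w ∧ E B v w a • ω = ω'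
  reg : ∀ ω : Ω, T B v ω ≠ ⊤ → ∀ w a, h v w = 0 → a - σ a = h w w → E B v w a • ω = ω →
    w ∈ Submodule.span F ({v} : Set V) ∧ E B v w a = 1

include N hlt in
theorem res [IsPretransitive (SU h) Ω] (h1 : 1 < Nat.card Ω) {v : V} (hv0 : v ≠ 0) (hv : h v v = 0) :
    Res B Ω q n v := by
  have hq2 := N.q2
  have h5 := B.n5
  rw [N.hn] at h5
  -- all the parts have one class
  have hI : ∀ lam : AddChar (A0 σ) ℂ, lam ≠ 1 → Nat.card (I B v Ω (Cl lam)) = 1 := by
    intro lam hl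
    obtain ⟨ω, hω⟩ := moved (B := B) h1 hv0 hv
    obtain ⟨lam', hl', hC⟩ := exists_char _ hω
    have h2 := card_lam (B := B) (Ω := Ω) hv hv0 hl hl'
    have h3 : 0 < Nat.card (XC B v Ω (Cl lam')) := by
      rw [Nat.card_pos_iff]
      exact ⟨⟨mkC B ω hC⟩, inferInstance⟩
    obtain ⟨h4, h5⟩ := card_XC (B := B) (Ω := Ω) hl N hlt hv0 hv
    rw [h2, h4] at h3
    have h6 := Nat.pos_of_mul_pos_right h3
    omega
  have hD : ∀ lam : AddChar (A0 σ) ℂ, lam ≠ 1 → Nat.card (XC B v Ω (Cl lam)) = q ^ (2 * n - 4) := by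
    intro lam hl
    rw [(card_XC (B := B) (Ω := Ω) hl N hlt hv0 hv).1, hI lam hl, one_mul]
  have hone : ∀ lam : AddChar (A0 σ) ℂ, lam ≠ 1 → ∀ ξ ξ' : XC B v Ω (Cl lam), ∃ w : P h v, w +ᵥ ξ = ξ' := by
    intro lam hl ξ ξ'
    have h2 : Subsingleton (I B v Ω (Cl lam)) := Finite.card_le_one_iff_subsingleton.1 (hI lam hl).le
    have h3 : OrbU.cls (P h v) ξ' = OrbU.cls (P h v) ξ := Subsingleton.elim _ _
    exact OrbU.cls_eq.1 h3
  have hT : ∀ lam : AddChar (A0 σ) ℂ, lam ≠ 1 → ∀ ξ ξ' : XC B v Ω (Cl lam), TX B v ξ.1 = TX B v ξ'.1 := by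
    intro lam hl ξ ξ'
    obtain ⟨w, rfl⟩ := hone lam hl ξ ξ'
    rw [val_vadd, TX_vadd]
  have finX : Finite (X B v Ω) := Quotient.finite _
  have hbot : ∀ ω : Ω, T B v ω ≠ ⊤ → T B v ω = ⊥ := by
    intro ω hω
    by_contra hne
    obtain ⟨lam, hl, hC⟩ := exists_char _ hω
    obtain ⟨⟨x, hx⟩, hx0'⟩ := AddSubgroup.ne_bot_iff_exists_ne_zero.1 hne
    have hx0 : x ≠ 0 := fun h0 => hx0' (Subtype.ext h0)
    obtain ⟨lam', hl', hxl⟩ := exists_char' B hx0
    have h2 : Nat.card (XC B v Ω (Cl lam)) + Nat.card (XC B v Ω (Cl lam')) ≤ Nat.card (X B v Ω) := by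
      rw [← Nat.card_sum]
      apply Nat.card_le_card_of_injective (Sum.elim (fun ξ => ξ.1) (fun ξ => ξ.1))
      have key : ∀ (a : XC B v Ω (Cl lam)) (b : XC B v Ω (Cl lam')), a.1 ≠ b.1 := by
        intro a b hab
        have e1 := hT lam hl a (mkC B ω hC)
        change _ = TX B v (mkX B v ω) at e1
        rw [TX_mk] at e1
        apply hxl
        have e2 := b.2
        rw [← hab, e1] at e2
        exact e2 _ hx
      rintro (a | a) (b | b) hab
      · exact congrArg Sum.inl (Subtype.ext hab)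
      · exact absurd hab (key a b)
      · exact absurd hab.symm (key b a)
      · exact congrArg Sum.inr (Subtype.ext hab)
    have h3 := total (B := B) (Ω := Ω) hv hv0 hl
    rw [hD lam hl, hD lam' hl'] at h2
    rw [hD lam hl, N.hq] at h3
    have h4 := N.n4
    have h6 : (q + 1) * q ^ (2 * n - 4) = q ^ (2 * n - 4) + q ^ (2 * n - 4) + (q - 1) * q ^ (2 * n - 4) := by
      obtain ⟨t, ht⟩ := Nat.exists_eq_add_of_le hq2
      have e1 : q - 1 = t + 1 := by omega
      rw [e1, ht]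
      ring
    omega
  obtain ⟨lam, hl⟩ := exists_lam B
  have hCl : ∀ ω : Ω, T B v ω ≠ ⊤ → Cl lam (T B v ω) := by
    intro ω hω x hx
    rw [hbot ω hω, AddSubgroup.mem_bot] at hx
    rw [hx, AddChar.map_zero_eq_one]
  refine ⟨hbot, ?_, ?_, ?_⟩
  · have h2 : Nat.card (XC B v Ω (Cl lam)) + Nat.card (XC B v Ω Ct) = Nat.card (X B v Ω) := by
      rw [← Nat.card_sum]
      apply Nat.card_congr
      refine Equiv.ofBijective (Sum.elim (fun ξ => ξ.1) (fun ξ => ξ.1)) ⟨?_, ?_⟩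
      · have key : ∀ (a : XC B v Ω (Cl lam)) (b : XC B v Ω Ct), a.1 ≠ b.1 := by
          intro a b hab
          have e1 := a.2
          rw [hab, show TX B v b.1 = ⊤ from b.2] at e1
          apply hl
          ext x
          rw [e1 x trivial]
          rfl
        rintro (a | a) (b | b) hab
        · exact congrArg Sum.inl (Subtype.ext hab)
        · exact absurd hab (key a b)
        · exact absurd hab.symm (key b a)
        · exact congrArg Sum.inr (Subtype.ext hab)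
      · intro ξ
        obtain ⟨ω, rfl⟩ := mkX_surj B ξ
        by_cases hω : T B v ω = ⊤
        · exact ⟨Sum.inr (mkC B ω hω), rfl⟩
        · exact ⟨Sum.inl (mkC B ω (hCl ω hω)), rfl⟩
    have h3 := total (B := B) (Ω := Ω) hv hv0 hl
    rw [hD lam hl] at h2
    rw [hD lam hl, N.hq, ← h2] at h3
    rw [← h3]
    have e2 : q ^ (2 * n - 3) = q * q ^ (2 * n - 4) := by
      rw [← pow_succ']
      congr 1
      omega
    rw [e2]
    obtain ⟨t, ht⟩ := Nat.exists_eq_add_of_le hq2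
    have e1 : q - 1 = t + 1 := by omega
    rw [e1, ht]
    ring
  · intro ω ω' hω hω'
    obtain ⟨w, hw⟩ := hone lam hl (mkC B ω (hCl ω hω)) (mkC B ω' (hCl ω' hω'))
    have h2 : w +ᵥ mkX B v ω = mkX B v ω' := congrArg Subtype.val hw
    rw [vadd_mkX B w (ca_spec B w.1)] at h2
    obtain ⟨b, hb, h3⟩ := (mkX_eq B).1 h2.symm
    refine ⟨w.1, b + ca B w.1, mem_P.1 w.2, ?_, ?_⟩
    · have := ca_spec B w.1
      rw [map_add, hb]
      linear_combination this
    · rw [← E_mul0 B hv (mem_P.1 w.2) (ca_spec B _) hb, mul_smul]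
      exact h3
  · intro ω hω w a hw ha hE
    have hwR : w ∈ Submodule.span F ({v} : Set V) := by
      apply mem_span_of_perp B.H
      intro x hxv
      have hvx : h v x = 0 := B.H.symm_zero hxv
      apply B.H.symm_zero
      apply eq_zero_of_lam B hl
      intro c
      have h2 := full_all (B := B) (Ω := Ω) hl N hlt hv0 hv (OrbU.cls (P h v) (mkC B ω (hCl ω hω))) (w := c • x)
        (by rw [map_smulₛₗ, hvx, smul_zero])
      rw [mem_Ui hl hv] at h2
      have h3 := h2 w a hw ha hE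
      rwa [map_smul, LinearMap.smul_apply, smul_eq_mul] at h3
    refine ⟨hwR, ?_⟩
    obtain ⟨t, rfl⟩ := Submodule.mem_span_singleton.1 hwR
    have hσa : σ a = a := by
      have h2 : h (t • v) (t • v) = 0 := smul_iso B.H hv t
      rw [h2] at ha
      exact (sub_eq_zero.1 ha).symm
    have hσ' : σ (a + (t + σ t)) = a + (t + σ t) := by rw [map_add, map_add, B.H.inv, hσa]; ring
    rw [E_shift0 B hv hσa t] at hE ⊢
    have h2 : (⟨a + (t + σ t), hσ'⟩ : A0 σ) ∈ T B v ω := hE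
    rw [hbot ω hω, AddSubgroup.mem_bot] at h2
    have h3 : a + (t + σ t) = 0 := congrArg Subtype.val h2
    rw [h3, E_zero]

end H41.UnI
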