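import Mathlib
import Cfsg.Agent.Lib.H41.UnI

/-! The points fixed by `Z_v`. -/

set_option autoImplicit false
set_option linter.unusedSectionVars false

namespace H41.UnJ

open Module H95.UBasic H95.UPar H95.UPair H57.Polar H41.UnA H41.UnA2 H41.Dual H41.UnB H41.UnC H41.UnD H41.UnE H41.UnF
  H41.UnG H41.UnH H41.UnI MulAction

variable {F V : Type*} [Field F] [AddCommGroup V] [Module F V] {σ : F →+* F}
variable {h : V →ₗ[F] V →ₛₗ[σ] F} [FiniteDimensional F V] [Finite F] {B : Bas h}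
variable {lam : AddChar (A0 σ) ℂ} (hl : lam ≠ 1)
variable {Ω : Type*} [MulAction (SU h) Ω] [Finite Ω] {q n s0 s1 N' : ℕ}

/-- the number of fixed points -/
theorem f_le (hlt : Nat.card Ω ≤ q ^ (2 * n - 3) + q ^ 2 * N') {v : V} (R : Res B Ω q n v) :
    Nat.card (XC B v Ω Ct) ≤ q ^ 2 * N' := by
  have := R.card
  omega

/-- no anisotropic vectors in the dual groups -/
theorem no_ani (N : Num h q n s0 s1 N') (hlt : Nat.card Ω ≤ q ^ (2 * n - 3) + q ^ 2 * N')
    (h43 : 3 * Nat.card Ω < 3 * q ^ (2 * n - 3) + 4 * s1) {v : V} (hv0 : v ≠ 0) (hv : h v v = 0)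
    (R : Res B Ω q n v) (i : I B v Ω Ct) {x : V} (hx : x ∈ Ui B hl i) : h x x = 0 := by
  by_contra hxx
  have hf := f_le hlt R
  have hvx := Ui_le hl hv i hx
  have hq2 := N.q2
  have hns : ∀ x : V, h x x ≠ 0 → x ∉ Submodule.span F ({v} : Set V) := by
    intro x hxx h0
    obtain ⟨t, rfl⟩ := Submodule.mem_span_singleton.1 h0
    exact hxx (smul_iso B.H hv t)
  have hpos : ∀ (j : I B v Ω Ct) (y : V), y ∈ Ui B hl j → 1 ≤ m B hl Ω Ct v y := by
    intro j y hy
    rw [m, OrbU.m, Nat.one_le_iff_ne_zero, ← Nat.pos_iff_ne_zero, Nat.card_pos_iff]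
    exact ⟨⟨⟨j, hy⟩⟩, inferInstance⟩
  have h1 : ∀ j : I B v Ω Ct, Nat.card (Ui B hl j) ≤ 4 * Nat.card F := by
    intro j
    refine small_of_norm (h := h) hv0 hxx ?_
    intro y hy hyn
    by_contra hne
    have h2 := two_classes (B := B) (Ω := Ω) hl N hv0 hv hvx (Ui_le hl hv j hy) (hns x hxx) hyn (Ne.symm hne)
      (hpos i x hx) (hpos j y hy)
    rw [sz, if_neg hxx] at h2
    have h5 := N.n5
    have h6 := N.n6
    by_cases hyy : h y y = 0
    · rw [sz, if_pos hyy] at h2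
      omega
    · rw [sz, if_neg hyy] at h2
      omega
  have : Fintype (I B v Ω Ct) := Fintype.ofFinite _
  have h2 := sum_card (B := B) (Ω := Ω) (C := Ct) hl hv0
  have h3 := Finset.sum_le_card_nsmul Finset.univ (fun j : I B v Ω Ct => Nat.card (Ui B hl j)) _ (fun j _ => h1 j)
  rw [Finset.card_univ, ← Nat.card_eq_fintype_card, smul_eq_mul] at h3
  have h4 : Nat.card (XC B v Ω Ct) ≤ 4 * Nat.card (I B v Ω Ct) := by
    have hF : 0 < Nat.card F := Nat.card_pos
    refine Nat.le_of_mul_le_mul_left (?_ : Nat.card F * _ ≤ Nat.card F * _) hF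
    rw [← h2]
    refine h3.trans (le_of_eq ?_)
    ring
  have h5 := one_class (B := B) (Ω := Ω) hl N hv0 hv hvx (hns x hxx) (hpos i x hx)
  rw [sz, if_neg hxx] at h5
  have h6 := R.card
  omega

section iso

variable (N : Num h q n s0 s1 N') (hlt : Nat.card Ω ≤ q ^ (2 * n - 3) + q ^ 2 * N')
  (h43 : 3 * Nat.card Ω < 3 * q ^ (2 * n - 3) + 4 * s1)
include N hlt h43

theorem m_le_one {v : V} (hv0 : v ≠ 0) (hv : h v v = 0) (R : Res B Ω q n v) {i : I B v Ω Ct} {x : V}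
    (hx : x ∈ Ui B hl i) (hxn : x ∉ Submodule.span F ({v} : Set V)) : m B hl Ω Ct v x ≤ 1 := by
  by_contra hcon
  push Not at hcon
  have hf := f_le hlt R
  have h1 := one_class (B := B) (Ω := Ω) hl N hv0 hv (Ui_le hl hv i hx) hxn (Nat.succ_le_of_lt hcon)
  rw [sz, if_pos (no_ani (B := B) (Ω := Ω) hl N hlt h43 hv0 hv R i hx)] at h1
  have hq2 := N.q2
  have he := N.e0
  have hN := N.eN
  obtain ⟨t, ht⟩ : ∃ t, q ^ 2 = t + 4 := by
    have h40 : 4 ≤ q ^ 2 := by nlinarith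
    exact ⟨q ^ 2 - 4, by omega⟩
  have e1 : q ^ 2 - 1 = t + 3 := by omega
  rw [e1] at he
  rw [ht] at hf
  rw [he] at h1
  nlinarith

/-- an element fixing `v` and `x` fixes the class of `x` -/
theorem perm_fix {v : V} (hv0 : v ≠ 0) (hv : h v v = 0) (R : Res B Ω q n v) {i : I B v Ω Ct} {x : V}
    (hx : x ∈ Ui B hl i) (hxn : x ∉ Submodule.span F ({v} : Set V)) {g : SU h} (hgv : (g : V ≃ₗ[F] V) v = v)
    (hgx : (g : V ≃ₗ[F] V) x = x) {y : V} (hy : y ∈ Ui B hl i) : (g : V ≃ₗ[F] V) y ∈ Ui B hl i := by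
  let Tg := tr1 (B := B) hl Ω Ct hv hgv
  have hβ : ∀ z, Tg.β z = (g : V ≃ₗ[F] V) z := fun z => tr1_β hl hv hgv z
  have h1 := m_le_one (B := B) (Ω := Ω) hl N hlt h43 hv0 hv R hx hxn
  have h2 : x ∈ Ui B hl (Tg.perm i) := by
    have h3 := Tg.mem_Ui_iff (i := i) (x := x)
    rw [hβ, hgx] at h3
    exact h3.2 hx
  have h3 : Subsingleton {j : I B v Ω Ct // x ∈ Ui B hl j} := Finite.card_le_one_iff_subsingleton.1 h1
  have h4 : Tg.perm i = i := by
    have := Subsingleton.elim (α := {j : I B v Ω Ct // x ∈ Ui B hl j}) ⟨Tg.perm i, h2⟩ ⟨i, hx⟩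
    exact congrArg Subtype.val this
  have h5 := (Tg.mem_of_perm_eq h4 (u := y)).2 hy
  rwa [hβ] at h5

theorem perp_fix {v : V} (hv0 : v ≠ 0) (hv : h v v = 0) (R : Res B Ω q n v) {i : I B v Ω Ct} {x y : V}
    (hx : x ∈ Ui B hl i) (hy : y ∈ Ui B hl i) : h y x = 0 := by
  have hvx := Ui_le hl hv i hx
  have hxv : h x v = 0 := B.H.symm_zero hvx
  have hyv : h y v = 0 := B.H.symm_zero (Ui_le hl hv i hy)
  by_cases hxn : x ∈ Submodule.span F ({v} : Set V)
  · obtain ⟨t, rfl⟩ := Submodule.mem_span_singleton.1 hxn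
    rw [map_smulₛₗ, hyv, smul_zero]
  have hxx := no_ani (B := B) (Ω := Ω) hl N hlt h43 hv0 hv R i hx
  by_contra hyx
  obtain ⟨w, hwv, hwx, hww⟩ := exists_ani_perp N hlt B v x
  have hvw : h v w = 0 := B.H.symm_zero hwv
  have hxw : h x w = 0 := B.H.symm_zero hwx
  have hg : Good h x w (ca B w) := ⟨hxx, hxw, hwx, ca_spec B w⟩
  have h1 := perm_fix (B := B) (Ω := Ω) hl N hlt h43 hv0 hv R hx hxn (g := E B x w (ca B w)) (E_fix hvx hvw)
    (E_fix hxx hxw) hy
  rw [coe_E, sieg_apply hg] at h1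
  have h2 := (Ui B hl i).sub_mem h1 hy
  have h3 := no_ani (B := B) (Ω := Ω) hl N hlt h43 hv0 hv R i h2
  have e2 : y + h y x • w + h y w • x + (ca B w * h y x) • x - y = h y x • w + (h y w + ca B w * h y x) • x := by
    module
  rw [e2] at h3
  simp only [map_add, LinearMap.add_apply, map_smul, LinearMap.smul_apply, map_smulₛₗ, smul_eq_mul, hxx, hxw, hwx,
    mul_zero, add_zero] at h3
  rcases mul_eq_zero.1 h3 with h6 | h6
  · exact hyx (B.H.inj h6)
  · rcases mul_eq_zero.1 h6 with h8 | h8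
    · exact hyx h8
    · exact hww h8

theorem span_fix {v : V} (hv0 : v ≠ 0) (hv : h v v = 0) (R : Res B Ω q n v) {i : I B v Ω Ct} {x y : V}
    (hx : x ∈ Ui B hl i) (hxn : x ∉ Submodule.span F ({v} : Set V)) (hy : y ∈ Ui B hl i) :
    y ∈ Submodule.span F ({v, x} : Set V) := by
  by_contra hyn
  have hvx := Ui_le hl hv i hx
  have hvy := Ui_le hl hv i hy
  have hyx := perp_fix (B := B) (Ω := Ω) hl N hlt h43 hv0 hv R hx hy
  have hyy := no_ani (B := B) (Ω := Ω) hl N hlt h43 hv0 hv R i hy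
  obtain ⟨u, huv, hux, huu, hyu⟩ := partner_perp B.H hyy (B.H.symm_zero hvy) hyx hyn
  have h1 := perm_fix (B := B) (Ω := Ω) hl N hlt h43 hv0 hv R hx hxn (g := E B u 0 1) (E_fix (B.H.symm_zero huv) (map_zero _))
    (E_fix (B.H.symm_zero hux) (map_zero _)) hy
  rw [coe_E, sieg_apply (good_tr huu (map_one σ))] at h1
  have h2 := (Ui B hl i).sub_mem h1 hy
  rw [hyu] at h2
  simp only [smul_zero, map_zero, zero_smul, add_zero, mul_one, one_smul, add_sub_cancel_left] at h2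
  have h3 := perp_fix (B := B) (Ω := Ω) hl N hlt h43 hv0 hv R h2 hy
  rw [hyu] at h3
  exact one_ne_zero h3

include hl in
/-- if some dual group is not contained in `⟨v⟩` the degree is maximal -/
theorem card_iso {v : V} (hv0 : v ≠ 0) (hv : h v v = 0) (R : Res B Ω q n v) {i : I B v Ω Ct} {x : V}
    (hx : x ∈ Ui B hl i) (hxn : x ∉ Submodule.span F ({v} : Set V)) :
    Nat.card Ω = q ^ (2 * n - 3) + q ^ 2 * N' := by
  have hq2 := N.q2
  have hsize : ∀ j : I B v Ω Ct, Nat.card (Ui B hl j) ≤ Nat.card F ^ 2 := by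
    intro j
    by_contra hcon
    push Not at hcon
    obtain ⟨y, hy, hyn⟩ := exists_not_span (F := F) (K := Ui B hl j) v v hcon
    have hyn' : y ∉ Submodule.span F ({v} : Set V) := fun h0 => hyn (Submodule.span_mono (by simp) h0)
    obtain ⟨z, hz, hzn⟩ := exists_not_span (F := F) (K := Ui B hl j) v y hcon
    exact hzn (span_fix (B := B) (Ω := Ω) hl N hlt h43 hv0 hv R hy hyn' hz)
  have : Fintype (I B v Ω Ct) := Fintype.ofFinite _
  have h2 := sum_card (B := B) (Ω := Ω) (C := Ct) hl hv0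
  have h3 := Finset.sum_le_card_nsmul Finset.univ (fun j : I B v Ω Ct => Nat.card (Ui B hl j)) _ (fun j _ => hsize j)
  rw [Finset.card_univ, ← Nat.card_eq_fintype_card, smul_eq_mul] at h3
  have h4 : Nat.card (XC B v Ω Ct) ≤ Nat.card F * Nat.card (I B v Ω Ct) := by
    have hF : 0 < Nat.card F := Nat.card_pos
    refine Nat.le_of_mul_le_mul_left (?_ : Nat.card F * _ ≤ Nat.card F * _) hF
    rw [← h2]
    refine h3.trans (le_of_eq ?_)
    ring
  have hpos : 1 ≤ m B hl Ω Ct v x := by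
    rw [m, OrbU.m, Nat.one_le_iff_ne_zero, ← Nat.pos_iff_ne_zero, Nat.card_pos_iff]
    exact ⟨⟨⟨i, hx⟩⟩, inferInstance⟩
  have h5 := one_class (B := B) (Ω := Ω) hl N hv0 hv (Ui_le hl hv i hx) hxn hpos
  rw [sz, if_pos (no_ani (B := B) (Ω := Ω) hl N hlt h43 hv0 hv R i hx), one_mul, N.e0] at h5
  rw [N.hF] at h4
  have h6 := R.card
  obtain ⟨t, ht⟩ : ∃ t, q ^ 2 = t + 4 := by
    have h40 : 4 ≤ q ^ 2 := by nlinarith
    exact ⟨q ^ 2 - 4, by omega⟩
  have e1 : q ^ 2 - 1 = t + 3 := by omega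
  rw [e1] at h5
  rw [ht] at h4
  have h7 : q ^ 2 * N' ≤ Nat.card (XC B v Ω Ct) := by
    rw [ht]
    have h8 : (t + 4) * ((t + 3) * N') + (t + 4) * Nat.card (I B v Ω Ct) ≤ (t + 4) * Nat.card (XC B v Ω Ct) := by
      rw [← mul_add]
      exact Nat.mul_le_mul_left _ h5
    have h9 : (t + 3) * ((t + 4) * N') ≤ (t + 3) * Nat.card (XC B v Ω Ct) := by
      have e2 : (t + 3) * ((t + 4) * N') = (t + 4) * ((t + 3) * N') := by ring
      rw [e2]
      have e3 : (t + 4) * Nat.card (XC B v Ω Ct) = (t + 3) * Nat.card (XC B v Ω Ct) + Nat.card (XC B v Ω Ct) := by ring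
      omega
    exact Nat.le_of_mul_le_mul_left h9 (by omega)
  omega

end iso

end H41.UnJ
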