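import Mathlib
import Cfsg.Agent.Lib.H41.UnJ
import Cfsg.Agent.Lib.H41.OrE

/-! The degree is a power of `q` and all `Q_v` are regular; double counting. -/

set_option autoImplicit false
set_option linter.unusedSectionVars false

namespace H41.UnK

open Module H95.UBasic H95.UPar H95.UPair H57.Polar H41.UnA H41.UnA2 H41.Dual H41.UnB H41.UnC H41.UnD H41.UnE H41.UnF
  H41.UnG H41.UnH H41.UnI H41.UnJ MulAction

variable {F V : Type*} [Field F] [AddCommGroup V] [Module F V] {σ : F →+* F}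
variable {h : V →ₗ[F] V →ₛₗ[σ] F} [FiniteDimensional F V] [Finite F] {B : Bas h}
variable {Ω : Type*} [MulAction (SU h) Ω] [Finite Ω] {q n s0 s1 N' : ℕ}

omit [Finite Ω] in
theorem T_smul (g : SU h) (v : V) (ω : Ω) : T B ((g : V ≃ₗ[F] V) v) (g • ω) = T B v ω := by
  ext b
  rw [mem_T, mem_T]
  have h1 : g * E B v 0 b.1 = E B ((g : V ≃ₗ[F] V) v) 0 b.1 * g := by rw [E_conj', map_zero]
  rw [← mul_smul, ← h1, mul_smul]
  exact ⟨fun h2 => MulAction.injective g h2, fun h2 => by rw [h2]⟩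

omit [Finite Ω] in
theorem T_scale {v : V} (hv : h v v = 0) {c : F} (hc : c ≠ 0) (ω : Ω) : T B (c • v) ω = ⊤ ↔ T B v ω = ⊤ := by
  have hn := norm_ne (σ := σ) hc
  have hE : ∀ b, σ b = b → E B (c • v) 0 b = E B v 0 (b * (c * σ c)) := by
    intro b hb
    rw [E_smul B c hv (map_zero _) (by rw [hb]; simp), smul_zero]
  rw [AddSubgroup.eq_top_iff', AddSubgroup.eq_top_iff']
  constructor
  · intro h1 a
    have ha : σ (a.1 * (c * σ c)⁻¹) = a.1 * (c * σ c)⁻¹ := by
      rw [map_mul, map_inv₀, norm_fix B, show σ a.1 = a.1 from a.2]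
    have h2 := h1 ⟨a.1 * (c * σ c)⁻¹, ha⟩
    rw [mem_T] at h2 ⊢
    rw [hE _ ha, mul_assoc, inv_mul_cancel₀ hn, mul_one] at h2
    exact h2
  · intro h1 a
    have h2 := h1 ⟨a.1 * (c * σ c), by rw [mem_A0, map_mul, norm_fix B, show σ a.1 = a.1 from a.2]⟩
    rw [mem_T] at h2 ⊢
    rw [hE _ a.2]
    exact h2

theorem card_fixed {v : V} : Nat.card (XC B v Ω Ct) = Nat.card {ω : Ω // T B v ω = ⊤} := by
  symm
  refine Nat.card_congr (Equiv.ofBijective (fun ω => mkC B ω.1 ω.2) ⟨?_, ?_⟩)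
  · rintro ⟨ω, hω⟩ ⟨ω', hω'⟩ h1
    have h2 : mkX B v ω = mkX B v ω' := congrArg Subtype.val h1
    obtain ⟨b, hb, h3⟩ := (mkX_eq B).1 h2
    apply Subtype.ext
    have h4 : (⟨b, hb⟩ : A0 σ) ∈ T B v ω' := by rw [hω']; trivial
    rw [mem_T] at h4
    exact h3.symm.trans h4
  · intro ξ
    obtain ⟨ω, hω, rfl⟩ := mkC_surj B ξ
    exact ⟨⟨ω, hω⟩, rfl⟩

theorem card_moved {v : V} (R : Res B Ω q n v) : Nat.card {ω : Ω // T B v ω ≠ ⊤} = q ^ (2 * n - 3) := by
  classical
  have : Fintype Ω := Fintype.ofFinite Ω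
  have h1 := R.card
  rw [card_fixed] at h1
  have h2 : Nat.card {ω : Ω // T B v ω = ⊤} + Nat.card {ω : Ω // T B v ω ≠ ⊤} = Nat.card Ω := by
    rw [← Nat.card_sum]
    exact Nat.card_congr (Equiv.sumCompl (fun ω : Ω => T B v ω = ⊤))
  omega

omit [Finite F] [FiniteDimensional F V] in
/-- double counting of an invariant relation between isotropic points and elements of `Ω` -/
theorem dcount [Finite F] [FiniteDimensional F V] [Nonempty Ω] [IsPretransitive (SU h) Ω] (rel : V → Ω → Prop)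
    (hrel : ∀ (g : SU h) (v : V) (ω : Ω), (rel ((g : V ≃ₗ[F] V) v) (g • ω) ↔ rel v ω))
    (hsc : ∀ (c : F) (v : V) (ω : Ω), c ≠ 0 → h v v = 0 → rel v ω → rel (c • v) ω) {N e : ℕ}
    (hX : Nat.card {v : V // v ≠ 0 ∧ h v v = 0} = (Nat.card F - 1) * N)
    (he : ∀ v, v ≠ 0 → h v v = 0 → Nat.card {ω : Ω // rel v ω} = e) : ∃ k, N * e = Nat.card Ω * k := by
  classical
  have : Finite V := Module.finite_of_finite F
  have : Fintype V := Fintype.ofFinite V
  have : Fintype Ω := Fintype.ofFinite Ω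
  obtain ⟨ω₀⟩ := (inferInstance : Nonempty Ω)
  have hk : ∀ ω : Ω, Nat.card {v : {v : V // v ≠ 0 ∧ h v v = 0} // rel v.1 ω} = Nat.card {v : {v : V // v ≠ 0 ∧ h v v = 0} // rel v.1 ω₀} := by
    intro ω
    obtain ⟨g, rfl⟩ := exists_smul_eq (SU h) ω₀ ω
    symm
    refine Nat.card_congr ?_
    refine Equiv.subtypeEquiv ((g : V ≃ₗ[F] V).toEquiv.subtypeEquiv (p := fun v => v ≠ 0 ∧ h v v = 0)
      (q := fun v => v ≠ 0 ∧ h v v = 0) ?_) ?_
    · intro v
      change v ≠ 0 ∧ h v v = 0 ↔ (g : V ≃ₗ[F] V) v ≠ 0 ∧ h ((g : V ≃ₗ[F] V) v) ((g : V ≃ₗ[F] V) v) = 0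
      rw [iso, (LinearEquiv.map_ne_zero_iff _)]
    · intro v
      exact (hrel g v.1 ω₀).symm
  have h1 : Nat.card {p : {v : V // v ≠ 0 ∧ h v v = 0} × Ω // rel p.1.1 p.2} = (Nat.card F - 1) * N * e := by
    rw [Nat.card_congr (Equiv.subtypeProdEquivSigmaSubtype (fun (v : {v : V // v ≠ 0 ∧ h v v = 0}) (ω : Ω) => rel v.1 ω)),
      Nat.card_sigma, Finset.sum_congr rfl (fun v _ => he v.1 v.2.1 v.2.2), Finset.sum_const, smul_eq_mul,
      Finset.card_univ, ← Nat.card_eq_fintype_card, hX]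
  have h2 : Nat.card {p : {v : V // v ≠ 0 ∧ h v v = 0} × Ω // rel p.1.1 p.2}
      = Nat.card Ω * Nat.card {v : {v : V // v ≠ 0 ∧ h v v = 0} // rel v.1 ω₀} := by
    rw [Nat.card_congr ((Equiv.prodComm _ _).subtypeEquiv (p := fun p : {v : V // v ≠ 0 ∧ h v v = 0} × Ω => rel p.1.1 p.2)
      (q := fun p : Ω × {v : V // v ≠ 0 ∧ h v v = 0} => rel p.2.1 p.1) (fun p => Iff.rfl)),
      Nat.card_congr (Equiv.subtypeProdEquivSigmaSubtype (fun (ω : Ω) (v : {v : V // v ≠ 0 ∧ h v v = 0}) => rel v.1 ω)),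
      Nat.card_sigma, Finset.sum_congr rfl (fun ω _ => hk ω), Finset.sum_const, smul_eq_mul,
      Finset.card_univ, ← Nat.card_eq_fintype_card]
  have h3 : Nat.card F - 1 ∣ Nat.card {v : {v : V // v ≠ 0 ∧ h v v = 0} // rel v.1 ω₀} := by
    rw [Nat.card_congr (Equiv.subtypeSubtypeEquivSubtypeInter (fun v : V => v ≠ 0 ∧ h v v = 0) (fun v => rel v ω₀))]
    apply OrE.dvd_card_of_scaling (F := F)
    · exact fun v hv => hv.1.1
    · intro c v hc hv
      exact ⟨⟨smul_ne_zero hc hv.1.1, by simp [hv.1.2]⟩, hsc c v ω₀ hc hv.1.2 hv.2⟩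
  obtain ⟨k, hk'⟩ := h3
  refine ⟨k, ?_⟩
  have hq : 1 < Nat.card F := Finite.one_lt_card
  have h4 : (Nat.card F - 1) * (N * e) = (Nat.card F - 1) * (Nat.card Ω * k) := by
    rw [← mul_assoc, ← h1, h2, hk']
    ring
  exact Nat.eq_of_mul_eq_mul_left (by omega) h4

theorem E_one_mem {v w : V} {a : F} (B : Bas h) (hv0 : v ≠ 0) (hg : Good h v w a) (h1 : E B v w a = 1) :
    w ∈ Submodule.span F ({v} : Set V) := by
  obtain ⟨x, hx⟩ : ∃ x, h x v ≠ 0 := by
    by_contra hcon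
    push Not at hcon
    exact hv0 (B.H.nd v fun w => B.H.symm_zero (hcon w))
  have h2 : sieg h v w a x = x := congrArg (fun g : SU h => (g : V ≃ₗ[F] V) x) h1
  rw [sieg_apply hg] at h2
  have h3 : h x v • w + h x w • v + (a * h x v) • v = 0 := by
    have : x + h x v • w + h x w • v + (a * h x v) • v = x + (h x v • w + h x w • v + (a * h x v) • v) := by abel
    rw [this] at h2
    simpa using h2
  rw [Submodule.mem_span_singleton]
  refine ⟨-((h x v)⁻¹ * (h x w + a * h x v)), ?_⟩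
  have h4 : w = (h x v)⁻¹ • (h x v • w) := by rw [smul_smul, inv_mul_cancel₀ hx, one_smul]
  have h5 : h x v • w = -((h x w + a * h x v) • v) := by
    rw [eq_neg_iff_add_eq_zero, ← h3]
    module
  conv_rhs => rw [h4, h5]
  module

/-- if the duals are trivial then every point is moved by every `Z_v` -/
theorem all_moved [IsPretransitive (SU h) Ω] (h1 : 1 < Nat.card Ω)
    (R : ∀ v, v ≠ 0 → h v v = 0 → Res B Ω q n v) {lam : AddChar (A0 σ) ℂ} (hl : lam ≠ 1)
    (hU : ∀ v, v ≠ 0 → h v v = 0 → ∀ (i : I B v Ω Ct), ∀ x ∈ Ui B hl i, x ∈ Submodule.span F ({v} : Set V))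
    {v : V} (hv0 : v ≠ 0) (hv : h v v = 0) (ω : Ω) : T B v ω ≠ ⊤ := by
  intro hω
  have : Finite V := finV B
  -- `Q_v` fixes the fixed points of `Z_v`
  have hQ : ∀ v, v ≠ 0 → h v v = 0 → T B v ω = ⊤ → ∀ w a, h v w = 0 → a - σ a = h w w → E B v w a • ω = ω := by
    intro v hv0 hv hω w a hw ha
    have h2 : w ∈ OrbU.R (P h v) (mkC B (C := Ct) ω hω) := by
      apply Dual.mem_of_dual (pair B hl)
      intro y hy
      have hy' : y ∈ Ui B hl (OrbU.cls (P h v) (mkC B (C := Ct) ω hω)) := by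
        rw [Ui, OrbU.Ui_cls]
        exact hy
      obtain ⟨t, rfl⟩ := Submodule.mem_span_singleton.1 (hU v hv0 hv _ y hy')
      rw [bb_apply, map_smul, LinearMap.smul_apply, hw, smul_zero, map_zero, AddChar.map_zero_eq_one]
    obtain ⟨-, a', ha', h3⟩ := (mem_R B hv).1 h2
    have hb : σ (a - a') = a - a' := by rw [map_sub]; linear_combination ha' - ha
    have h4 : (⟨a - a', hb⟩ : A0 σ) ∈ T B v ω := by rw [hω]; trivial
    rw [mem_T] at h4
    have h5 : E B v w a = E B v 0 (a - a') * E B v w a' := by rw [E_mul0 B hv hw ha' hb, sub_add_cancel]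
    rw [h5, mul_smul, h3]
    exact h4
  have step : ∀ v w, v ≠ 0 → w ≠ 0 → h v v = 0 → h w w = 0 → h v w = 0 → T B v ω = ⊤ → T B w ω = ⊤ := by
    intro v w hv0 hw0 hv hw hvw hω
    by_contra hne
    have h2 : E B v w 0 • ω = ω := hQ v hv0 hv hω w 0 hvw (by rw [hw]; simp)
    have hwv : h w v = 0 := B.H.symm_zero hvw
    have g1 : Good h v w 0 := ⟨hv, hvw, hwv, by rw [hw]; simp⟩
    have g2 : Good h w v 0 := ⟨hw, hwv, hvw, by rw [hv]; simp⟩
    have h3 : E B v w 0 = E B w v 0 := by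
      apply Subtype.ext
      apply LinearEquiv.ext
      intro x
      change sieg h v w 0 x = sieg h w v 0 x
      rw [sieg_apply g1, sieg_apply g2]
      module
    rw [h3] at h2
    obtain ⟨h4, -⟩ := (R w hw0 hw).reg ω hne v 0 hwv (by rw [hv]; simp) h2
    obtain ⟨t, rfl⟩ := Submodule.mem_span_singleton.1 h4
    have ht : t ≠ 0 := by
      rintro rfl
      exact hv0 (zero_smul _ _)
    exact hne ((T_scale hw ht ω).1 hω)
  have hall : ∀ u, h u u = 0 → ∀ c, σ c = c → E B u 0 c • ω = ω := by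
    intro u hu c hc
    by_cases hu0 : u = 0
    · have : E B u 0 c = 1 := by
        apply Subtype.ext
        apply LinearEquiv.ext
        intro x
        change sieg h u 0 c x = x
        rw [sieg_apply (good_tr hu hc), hu0]
        simp
      rw [this, one_smul]
    · have h5 := B.n5
      have h2 := finrank_p2 (h := h) B.H (U := ⊤) v u
      rw [finrank_top] at h2
      obtain ⟨w, hw, hw0, hww⟩ := exists_iso B.H (U := p2 h ⊤ v u) (by omega)
      rw [mem_p2] at hw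
      have h3 := step v w hv0 hw0 hv hww (B.H.symm_zero hw.2.1) hω
      have h4 := step w u hw0 hu0 hww hu hw.2.2 h3
      have h6 : (⟨c, hc⟩ : A0 σ) ∈ T B u ω := by rw [h4]; trivial
      exact h6
  have h2 := fix_all (B := B) hall
  have h3 : Subsingleton Ω := by
    constructor
    intro a b
    obtain ⟨g, rfl⟩ := exists_smul_eq (SU h) ω a
    obtain ⟨g', rfl⟩ := exists_smul_eq (SU h) ω b
    rw [h2, h2]
  rw [Nat.card_of_subsingleton ω] at h1
  omega

end H41.UnK
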