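import Mathlib
import Cfsg.Agent.Lib.H41.UnK

/-! The main theorem: no transitive action of small degree. -/

set_option autoImplicit false
set_option linter.unusedSectionVars false

namespace H41.UnL

open Module H95.UBasic H95.UPar H95.UPair H57.Polar H41.UnA H41.UnA2 H41.Dual H41.UnB H41.UnC H41.UnD H41.UnE H41.UnF
  H41.UnG H41.UnH H41.UnI H41.UnJ H41.UnK MulAction

variable {F V : Type*} [Field F] [AddCommGroup V] [Module F V] {σ : F →+* F}
variable {h : V →ₗ[F] V →ₛₗ[σ] F} [FiniteDimensional F V]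

/-- an element with two dimensional eigenspaces -/
theorem exists_t (H : IsSkew h) (hn : 5 ≤ finrank F V) {β : F} (hβ : β * σ β = 1) (hβ2 : β * β ≠ 1) :
    ∃ t ∈ SU h, ∃ v v₂ : V, v ≠ 0 ∧ h v v = 0 ∧ h v₂ v₂ = 0 ∧ h v v₂ = 0 ∧ v₂ ∉ Submodule.span F ({v} : Set V) ∧
      t v = β • v ∧ t v₂ = (σ β) • v₂ ∧
      (∀ w, h v w = 0 → (σ β) • t w - w ∈ Submodule.span F ({v} : Set V) → w ∈ Submodule.span F ({v} : Set V)) ∧
      ∀ m, β ^ m = 1 → t ^ m = 1 := by
  have hβ0 : β ≠ 0 := by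
    rintro rfl
    rw [zero_mul] at hβ
    exact zero_ne_one hβ
  have hσβ : σ β * σ (σ β) = 1 := by rw [H.inv, mul_comm]; exact hβ
  have hβ1 : β ≠ 1 := by
    rintro rfl
    exact hβ2 (mul_one 1)
  obtain ⟨e, -, f, -, hee, hff, hef⟩ := exists_hyp H (nd_top H) (by rw [finrank_top]; omega)
  obtain ⟨hU, hd⟩ := nd_hyp H (nd_top H) (e := e) (f := f) trivial trivial hee hff hef
  rw [finrank_top] at hd
  obtain ⟨e', he', f', hf', hee', hff', hef'⟩ := exists_hyp H hU (by omega)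
  rw [mem_p2] at he' hf'
  obtain ⟨-, he'e, he'f⟩ := he'
  obtain ⟨-, hf'e, hf'f⟩ := hf'
  have hfe := hfe H hef
  have hf'e' := UnA.hfe H hef'
  have hee'0 : h e e' = 0 := H.symm_zero he'e
  have hef'0 : h e f' = 0 := H.symm_zero hf'e
  have hfe'0 : h f e' = 0 := H.symm_zero he'f
  have hff'0 : h f f' = 0 := H.symm_zero hf'f
  obtain ⟨g1, hg1, a1, a2, a3, a4⟩ := plane2 H hee hff hef hβ
  obtain ⟨g2, hg2, b1, b2, b3, b4⟩ := plane2 H hee' hff' hef' hσβ
  set t := g1 * g2 with ht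
  have te : t e = β • e := by rw [ht, LinearEquiv.mul_apply, b3 e hee'0 hef'0, a1]
  have tf : t f = β • f := by rw [ht, LinearEquiv.mul_apply, b3 f hfe'0 hff'0, a2]
  have te' : t e' = σ β • e' := by rw [ht, LinearEquiv.mul_apply, b1, map_smul, a3 e' he'e he'f]
  have tf' : t f' = σ β • f' := by rw [ht, LinearEquiv.mul_apply, b2, map_smul, a3 f' hf'e hf'f]
  have tw : ∀ w, h w e = 0 → h w f = 0 → h w e' = 0 → h w f' = 0 → t w = w := by
    intro w h1 h2 h3 h4
    rw [ht, LinearEquiv.mul_apply, b3 w h3 h4, a3 w h1 h2]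
  -- decomposition
  have dec : ∀ w : V, ∃ w₀, h w₀ e = 0 ∧ h w₀ f = 0 ∧ h w₀ e' = 0 ∧ h w₀ f' = 0 ∧
      w = h w f • e + (-(h w e)) • f + h w f' • e' + (-(h w e')) • f' + w₀ := by
    intro w
    refine ⟨w - (h w f • e + (-(h w e)) • f + h w f' • e' + (-(h w e')) • f'), ?_, ?_, ?_, ?_, by abel⟩
    · simp only [map_sub, map_add, LinearMap.sub_apply, LinearMap.add_apply, map_smul, LinearMap.smul_apply, smul_eq_mul,
        hee, hfe, he'e, hf'e]
      ring
    · simp only [map_sub, map_add, LinearMap.sub_apply, LinearMap.add_apply, map_smul, LinearMap.smul_apply, smul_eq_mul,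
        hef, hff, he'f, hf'f]
      ring
    · simp only [map_sub, map_add, LinearMap.sub_apply, LinearMap.add_apply, map_smul, LinearMap.smul_apply, smul_eq_mul,
        hee'0, hfe'0, hee', hf'e']
      ring
    · simp only [map_sub, map_add, LinearMap.sub_apply, LinearMap.add_apply, map_smul, LinearMap.smul_apply, smul_eq_mul,
        hef'0, hff'0, hef', hff']
      ring
  have htS : t ∈ SU h := by
    refine ⟨(isom h).mul_mem hg1 hg2, ?_⟩
    change LinearEquiv.det (g1 * g2) = 1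
    rw [← Units.val_inj, map_mul, Units.val_mul, a4, b4, Units.val_one]
    linear_combination (β * σ β + 1) * hβ
  refine ⟨t, htS, e, e', (ne_of_hyp H hef).1, hee, hee', hee'0, ?_, te, te', ?_, ?_⟩
  · intro h0
    obtain ⟨s, rfl⟩ := Submodule.mem_span_singleton.1 h0
    rw [map_smul, LinearMap.smul_apply, hef'0, smul_zero] at hef'
    exact zero_ne_one hef'
  · intro w hw hspan
    obtain ⟨w₀, c1, c2, c3, c4, hdec⟩ := dec w
    have hwe : h w e = 0 := H.symm_zero hw
    obtain ⟨s, hs⟩ := Submodule.mem_span_singleton.1 hspan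
    rw [hwe, neg_zero, zero_smul, add_zero] at hdec
    generalize h w f = a at hdec
    generalize h w f' = c at hdec
    generalize h w e' = d at hdec
    have h1 : t w = (β * a) • e + (σ β * c) • e' + (σ β * -d) • f' + w₀ := by
      rw [hdec]
      rw [map_add, map_add, map_add, map_smul, map_smul, map_smul, te, te', tf', tw w₀ c1 c2 c3 c4]
      module
    have h2 : s • e = (σ β * β * a - a) • e + (σ β * σ β - 1) • (c • e') +
        (σ β * σ β - 1) • ((-d) • f') + (σ β - 1) • w₀ := by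
      rw [hs, h1, hdec]
      module
    have hne : σ β * σ β - 1 ≠ 0 := by
      intro h0
      apply hβ2
      have h3 : β * β * (σ β * σ β) = 1 := by
        linear_combination (β * σ β + 1) * hβ
      have h4 : σ β * σ β = 1 := sub_eq_zero.1 h0
      rwa [h4, mul_one] at h3
    have hne1 : σ β - 1 ≠ 0 := by
      intro h0
      apply hβ1
      have h4 : σ β = 1 := sub_eq_zero.1 h0
      rw [← H.inv β, h4, map_one]
    have k1 := congrArg (fun x => h x f') h2
    have k2 := congrArg (fun x => h x e') h2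
    have k3 := congrArg (fun x => h x f) h2
    simp only [map_add, LinearMap.add_apply, map_smul, LinearMap.smul_apply, smul_eq_mul, hef'0, hef', hff', c4,
      mul_zero, mul_one, zero_add, add_zero] at k1
    simp only [map_add, LinearMap.add_apply, map_smul, LinearMap.smul_apply, smul_eq_mul, hee'0, hee', hf'e', c3,
      mul_zero, zero_add, add_zero] at k2
    have e1 : c = 0 := (mul_eq_zero.1 k1.symm).resolve_left hne
    have e2 : d = 0 := by
      have k2' : (σ β * σ β - 1) * d = 0 := by linear_combination -k2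
      exact (mul_eq_zero.1 k2').resolve_left hne
    have k4 : (σ β - 1) • w₀ = (s - (σ β * β * a - a)) • e := by
      rw [e1, e2] at h2
      simp only [neg_zero, zero_smul, smul_zero, add_zero] at h2
      have h9 : (σ β - 1) • w₀ = s • e - (σ β * β * a - a) • e := by rw [h2]; abel
      rw [h9, ← sub_smul]
    have k5 : w₀ ∈ Submodule.span F ({e} : Set V) := by
      rw [Submodule.mem_span_singleton]
      refine ⟨(σ β - 1)⁻¹ * (s - (σ β * β * a - a)), ?_⟩
      rw [mul_smul, ← k4, smul_smul, inv_mul_cancel₀ hne1, one_smul]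
    rw [hdec, e1, e2]
    simp only [neg_zero, zero_smul, add_zero]
    exact Submodule.add_mem _ (Submodule.smul_mem _ _ (Submodule.mem_span_singleton_self e)) k5
  · intro m hm
    have hm' : (σ β) ^ m = 1 := by rw [← map_pow, hm, map_one]
    have pw : ∀ (m : ℕ) (x : V) (c : F), t x = c • x → (t ^ m) x = c ^ m • x := by
      intro m x c hx
      induction m with
      | zero => simp
      | succ m ih =>
        rw [pow_succ, LinearEquiv.mul_apply, hx, map_smul, ih, smul_smul]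
        congr 1
        ring
    apply LinearEquiv.ext
    intro w
    obtain ⟨w₀, c1, c2, c3, c4, hdec⟩ := dec w
    have hw₀ := pw m w₀ 1 (by rw [tw w₀ c1 c2 c3 c4, one_smul])
    rw [one_pow, one_smul] at hw₀
    have r1 := pw m e β te
    have r2 := pw m f β tf
    have r3 := pw m e' _ te'
    have r4 := pw m f' _ tf'
    rw [hm, one_smul] at r1 r2
    rw [hm', one_smul] at r3 r4
    conv_lhs => rw [hdec]
    rw [map_add, map_add, map_add, map_add, map_smul, map_smul, map_smul, map_smul, r1, r2, r3, r4, hw₀]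
    exact hdec.symm

/-- products of two commuting transvections -/
theorem prod_trans [Finite F] (B : Bas h) {v v₂ : V} (hv : h v v = 0) (hv₂ : h v₂ v₂ = 0) (hvv : h v v₂ = 0) {a₁ a₂ δ : F}
    (h1 : σ a₁ = a₁) (h2 : σ a₂ = a₂) (hδ : a₁ * (δ * σ δ) = -a₂) :
    Good h (v + δ • v₂) (-(a₁ * δ) • v₂) a₁ ∧
    E B v 0 a₁ * E B v₂ 0 a₂ = E B (v + δ • v₂) (-(a₁ * δ) • v₂) a₁ := by
  have hvv' : h v₂ v = 0 := B.H.symm_zero hvv
  have hg : Good h (v + δ • v₂) (-(a₁ * δ) • v₂) a₁ := by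
    refine ⟨?_, ?_, ?_, ?_⟩
    · simp [hv, hv₂, hvv, hvv']
    · simp [hv₂, hvv]
    · simp [hv₂, hvv']
    · simp [hv₂, h1]
  refine ⟨hg, ?_⟩
  apply Subtype.ext
  apply LinearEquiv.ext
  intro x
  change sieg h v 0 a₁ (sieg h v₂ 0 a₂ x) = sieg h (v + δ • v₂) (-(a₁ * δ) • v₂) a₁ x
  rw [sieg_apply hg, sieg_apply (good_tr hv₂ h2), sieg_apply (good_tr hv h1)]
  have h3 : a₂ = -(a₁ * (δ * σ δ)) := by rw [hδ, neg_neg]
  simp only [map_add, LinearMap.add_apply, map_smul, map_smulₛₗ, LinearMap.smul_apply, smul_eq_mul, hvv', map_zero,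
    smul_zero, map_neg, map_mul, h1, h3, neg_smul, LinearMap.zero_apply]
  module


/-- elements of prime power order in the norm one group -/
theorem exists_beta [Finite F] {q : ℕ} (hq2 : 2 ≤ q) (hF : Nat.card F = q ^ 2) (hσ : ∀ a : F, σ a = a ^ q) :
    ∃ (β : F) (r k : ℕ), r.Prime ∧ ¬ r ∣ q ∧ β ^ (r ^ k) = 1 ∧ β * σ β = 1 ∧ β * β ≠ 1 := by
  obtain ⟨r, k, hr, hrk, hr2⟩ : ∃ r k : ℕ, r.Prime ∧ r ^ k ∣ q + 1 ∧ ¬ r ^ k ∣ 2 := by
    rcases Nat.eq_two_pow_or_exists_odd_prime_and_dvd (q + 1) with ⟨k, hk⟩ | ⟨p, hp, hpq, hodd⟩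
    · refine ⟨2, 2, Nat.prime_two, ?_, by norm_num⟩
      rw [hk]
      apply Nat.pow_dvd_pow
      by_contra hcon
      have : k ≤ 1 := by omega
      have h1 : 2 ^ k ≤ 2 ^ 1 := Nat.pow_le_pow_right (by norm_num) this
      omega
    · refine ⟨p, 1, hp, by rwa [pow_one], ?_⟩
      rw [pow_one]
      intro h1
      have h2 := (Nat.prime_dvd_prime_iff_eq hp Nat.prime_two).1 h1
      rw [h2] at hodd
      exact absurd hodd (by decide)
  obtain ⟨g, hg⟩ := IsCyclic.exists_generator (α := Fˣ)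
  have hcard : Nat.card Fˣ = (q + 1) * (q - 1) := by
    rw [Nat.card_units, hF]
    obtain ⟨s, rfl⟩ : ∃ s, q = s + 1 := ⟨q - 1, by omega⟩
    simp only [Nat.add_sub_cancel]
    have : (s + 1) ^ 2 = (s + 1 + 1) * s + 1 := by ring
    omega
  have hord : orderOf g = (q + 1) * (q - 1) := by
    rw [← hcard]
    exact orderOf_eq_card_of_forall_mem_zpowers hg
  obtain ⟨c, hc⟩ := hrk
  set b := g ^ (c * (q - 1)) with hb
  have hpow : ∀ m, b ^ m = 1 ↔ r ^ k ∣ m := by
    intro m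
    rw [hb, ← pow_mul, ← orderOf_dvd_iff_pow_eq_one, hord, hc]
    have hpos : 0 < c * (q - 1) := by
      apply Nat.mul_pos _ (by omega)
      rcases Nat.eq_zero_or_pos c with h0 | h0
      · rw [h0] at hc
        omega
      · exact h0
    constructor
    · intro h1
      have h2 : c * (q - 1) * r ^ k ∣ c * (q - 1) * m := by
        convert h1 using 1
        ring
      exact Nat.dvd_of_mul_dvd_mul_left hpos h2
    · intro h1
      have h2 := Nat.mul_dvd_mul_left (c * (q - 1)) h1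
      convert h2 using 1
      ring
  refine ⟨b, r, k, hr, ?_, ?_, ?_, ?_⟩
  · intro h1
    have hk : k ≠ 0 := by
      rintro rfl
      apply hr2
      rw [pow_zero]
      exact one_dvd _
    have h2 : r ∣ q + 1 := (dvd_pow_self r hk).trans (Dvd.intro c hc.symm)
    have h3 : r ∣ 1 := (Nat.dvd_add_right h1).1 h2
    exact hr.one_lt.ne' (Nat.dvd_one.1 h3)
  · have h1 := (hpow (r ^ k)).2 dvd_rfl
    rw [← Units.val_pow_eq_pow_val, h1, Units.val_one]
  · rw [hσ, ← pow_succ', ← Units.val_pow_eq_pow_val, (hpow (q + 1)).2 (Dvd.intro c hc.symm), Units.val_one]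
  · intro h1
    apply hr2
    rw [← hpow]
    apply Units.ext
    rw [Units.val_pow_eq_pow_val, pow_two, h1, Units.val_one]

variable [Finite F] {B : Bas h} {Ω : Type*} [MulAction (SU h) Ω] [Finite Ω] {q n s0 s1 N' : ℕ}

/-- all the `Q_v` cannot be regular -/
theorem not_all_reg [Nonempty Ω] (hσ : ∀ a : F, σ a = a ^ q) (hq2 : 2 ≤ q) (hF : Nat.card F = q ^ 2)
    (hall : ∀ v, v ≠ 0 → h v v = 0 → ∀ ω : Ω, T B v ω ≠ ⊤) (R : ∀ v, v ≠ 0 → h v v = 0 → Res B Ω q n v)
    (hcard : Nat.card Ω = q ^ (2 * n - 3)) : False := by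
  obtain ⟨β, r, k, hr, hrq, hβr, hβ, hβ2⟩ := exists_beta (σ := σ) hq2 hF hσ
  obtain ⟨t, htS, v, v₂, hv0, hv, hv₂, hvv, hv₂n, htv, htv₂, hrig, htp⟩ := exists_t B.H B.n5 hβ hβ2
  have hβ0 : β ≠ 0 := by
    rintro rfl
    rw [zero_mul] at hβ
    exact zero_ne_one hβ
  have hv₂0 : v₂ ≠ 0 := by
    rintro rfl
    exact hv₂n (Submodule.zero_mem _)
  set τ : SU h := ⟨t, htS⟩ with hτ
  have hτv : (τ : V ≃ₗ[F] V) v = β • v := htv
  -- a fixed point of `t`
  have hrp : Fact r.Prime := ⟨hr⟩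
  have hpg : IsPGroup r (Subgroup.zpowers τ) := by
    apply IsPGroup.of_card (n := (Nat.factorization (orderOf τ)) r)
    rw [Nat.card_zpowers]
    have h1 : orderOf τ ∣ r ^ k := by
      apply orderOf_dvd_of_pow_eq_one
      apply Subtype.ext
      change t ^ (r ^ k) = 1
      exact htp _ hβr
    obtain ⟨j, -, hj⟩ := (Nat.dvd_prime_pow hr).1 h1
    rw [hj, hr.factorization_pow]
    simp
  obtain ⟨ω, hω⟩ := hpg.nonempty_fixed_point_of_prime_not_dvd_card Ω (by
    rw [hcard]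
    intro h1
    exact hrq (hr.dvd_of_dvd_pow h1))
  have hfix : τ • ω = ω := by
    rw [MulAction.mem_fixedPoints] at hω
    exact hω ⟨τ, Subgroup.mem_zpowers τ⟩
  -- a transvection commuting with `t`
  have hcomm : τ * E B v₂ 0 1 = E B v₂ 0 1 * τ := by
    rw [E_conj', map_zero]
    congr 1
    change E B (t v₂) 0 1 = _
    rw [htv₂, E_smul B (σ β) hv₂ (map_zero _) (by simp), smul_zero, B.H.inv, mul_comm (σ β), hβ, mul_one]
  set ω' := E B v₂ 0 1 • ω with hω'
  have hfix' : τ • ω' = ω' := by rw [hω', ← mul_smul, hcomm, mul_smul, hfix]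
  obtain ⟨w, a, hw, ha, hwa⟩ := (R v hv0 hv).trans ω ω' (hall v hv0 hv ω) (hall v hv0 hv ω')
  -- the element is fixed up to `Z_v`
  have h1 : E B v (σ β • t w) a • ω = ω' := by
    have h2 := E_scale (B := B) hv hβ0 hτv hw ha
    rw [hβ, mul_one] at h2
    have h3 := congrArg (fun g => g • ω) h2
    simp only [mul_smul, hfix, hwa, hfix'] at h3
    exact h3.symm
  set u := σ β • t w - w with hu
  have hvu' : h v (σ β • t w) = 0 := by
    rw [map_smulₛₗ, (perp_g hβ0 hτv (w := w)).2 hw, smul_zero]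
  have hvu : h v u = 0 := by rw [hu, map_sub, hvu', hw, sub_zero]
  have hnorm : h (u + w) (u + w) = h w w := by
    rw [hu, sub_add_cancel]
    have h3 : h (t w) (t w) = h w w := SU_le h htS w w
    simp only [map_smul, LinearMap.smul_apply, map_smulₛₗ, smul_eq_mul, B.H.inv, h3]
    linear_combination (h w w) * hβ
  have hgood : -(h w u) - σ (-(h w u)) = h u u := by
    simp only [map_add, LinearMap.add_apply] at hnorm
    have h3 := B.H.skew w u
    rw [map_neg]
    linear_combination h3 - hnorm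
  have h2 : E B v u (-(h w u)) • ω' = ω' := by
    conv_lhs => rw [← hwa]
    rw [← mul_smul, E_mul B hv hvu hw hgood ha]
    have h3 : u + w = σ β • t w := by rw [hu, sub_add_cancel]
    have h4 : -(h w u) + a + h w u = a := by ring
    rw [h3, h4, h1]
  obtain ⟨h3, -⟩ := (R v hv0 hv).reg ω' (hall v hv0 hv ω') u _ hvu hgood h2
  have h4 := hrig w hw h3
  obtain ⟨s, rfl⟩ := Submodule.mem_span_singleton.1 h4
  have hσa : σ a = a := by
    have h5 : h (s • v) (s • v) = 0 := smul_iso B.H hv s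
    rw [h5] at ha
    exact (sub_eq_zero.1 ha).symm
  rw [E_shift0 B hv hσa s] at hwa
  set c := a + (s + σ s) with hc
  have hσc : σ c = c := by rw [hc, map_add, map_add, B.H.inv, hσa]; ring
  have hc0 : c ≠ 0 := by
    intro h0
    rw [h0, E_zero, one_smul, hω'] at hwa
    have h5 : (⟨1, map_one σ⟩ : A0 σ) ∈ T B v₂ ω := by
      rw [mem_T]
      exact hwa.symm
    rw [(R v₂ hv₂0 hv₂).bot ω (hall v₂ hv₂0 hv₂ ω), AddSubgroup.mem_bot] at h5
    exact one_ne_zero (congrArg Subtype.val h5)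
  have hfin : (E B v 0 (-c) * E B v₂ 0 1) • ω = ω := by
    rw [mul_smul, ← hω', ← hwa, ← mul_smul, ← E_add0 B v (by rw [map_neg, hσc]) hσc, neg_add_cancel, E_zero, one_smul]
  obtain ⟨δ, hδ⟩ := B.H.norm c⁻¹ (by rw [map_inv₀, hσc])
  have hδ0 : δ ≠ 0 := by
    rintro rfl
    rw [zero_mul] at hδ
    exact inv_ne_zero hc0 hδ.symm
  obtain ⟨hg, hprod⟩ := prod_trans B hv hv₂ hvv (a₁ := -c) (a₂ := 1) (δ := δ) (by rw [map_neg, hσc]) (map_one σ) (by
    rw [hδ, neg_mul, mul_inv_cancel₀ hc0])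
  rw [hprod] at hfin
  have hv₃0 : v + δ • v₂ ≠ 0 := by
    intro h0
    apply hv₂n
    rw [Submodule.mem_span_singleton]
    refine ⟨-δ⁻¹, ?_⟩
    have h5 : v = -(δ • v₂) := eq_neg_of_add_eq_zero_left h0
    rw [h5, neg_smul, smul_neg, neg_neg, smul_smul, inv_mul_cancel₀ hδ0, one_smul]
  obtain ⟨h5, -⟩ := (R _ hv₃0 hg.1).reg ω (hall _ hv₃0 hg.1 ω) _ _ hg.2.1 hg.2.2.2 hfin
  obtain ⟨z, hz⟩ := Submodule.mem_span_singleton.1 h5
  have h6 : z • v = (c * δ - z * δ) • v₂ := by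
    have h7 : z • v + (z * δ) • v₂ = (c * δ) • v₂ := by
      rw [← smul_smul, ← smul_add, hz]
      module
    rw [sub_smul, ← h7]
    abel
  by_cases hz0 : z = 0
  · rw [hz0, zero_smul, zero_mul, sub_zero] at h6
    rcases smul_eq_zero.1 h6.symm with h7 | h7
    · exact mul_ne_zero hc0 hδ0 h7
    · exact hv₂0 h7
  · have h7 : v = (z⁻¹ * (c * δ - z * δ)) • v₂ := by
      rw [← smul_smul, ← h6, smul_smul, inv_mul_cancel₀ hz0, one_smul]
    have h8 : z⁻¹ * (c * δ - z * δ) ≠ 0 := by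
      intro h0
      rw [h0, zero_smul] at h7
      exact hv0 h7
    apply hv₂n
    rw [Submodule.mem_span_singleton]
    refine ⟨(z⁻¹ * (c * δ - z * δ))⁻¹, ?_⟩
    conv_lhs => rw [h7]
    rw [smul_smul, inv_mul_cancel₀ h8, one_smul]

/-- the main theorem -/
theorem main [IsPretransitive (SU h) Ω] (B : Bas h) (N : Num h q n s0 s1 N') (hσ : ∀ a : F, σ a = a ^ q)
    (hlt : Nat.card Ω ≤ q ^ (2 * n - 3) + q ^ 2 * N') (h43 : 3 * Nat.card Ω < 3 * q ^ (2 * n - 3) + 4 * s1)
    (h1 : 1 < Nat.card Ω) : False := by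
  have hne : Nonempty Ω := by
    by_contra h4
    rw [not_nonempty_iff] at h4
    rw [Nat.card_of_isEmpty] at h1
    omega
  have R : ∀ v, v ≠ 0 → h v v = 0 → Res B Ω q n v := fun v hv0 hv => res N hlt h1 hv0 hv
  obtain ⟨lam, hl⟩ := exists_lam B
  have hq2 := N.q2
  by_cases hU : ∀ v, v ≠ 0 → h v v = 0 → ∀ (i : I B v Ω Ct), ∀ x ∈ Ui B hl i, x ∈ Submodule.span F ({v} : Set V)
  · have hall : ∀ v, v ≠ 0 → h v v = 0 → ∀ ω : Ω, T B v ω ≠ ⊤ := fun v hv0 hv ω => all_moved h1 R hl hU hv0 hv ω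
    refine not_all_reg hσ hq2 N.hF hall R ?_
    obtain ⟨v, -, hv0, hv⟩ := exists_iso B.H (U := ⊤) (by rw [finrank_top]; have := B.n5; omega)
    have h2 := (R v hv0 hv).card
    have h3 : IsEmpty {ω : Ω // T B v ω = ⊤} := ⟨fun ω => hall v hv0 hv ω.1 ω.2⟩
    rw [card_fixed, Nat.card_of_isEmpty, zero_add] at h2
    exact h2.symm
  · push Not at hU
    obtain ⟨v, hv0, hv, i, x, hx, hxn⟩ := hU
    have hcard := card_iso (B := B) (Ω := Ω) hl N hlt h43 hv0 hv (R v hv0 hv) hx hxn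
    obtain ⟨k, hk⟩ := dcount (Ω := Ω) (h := h) (fun v ω => T B v ω ≠ ⊤) (fun g v ω => by rw [T_smul])
      (fun c v ω hc hv h2 h3 => h2 ((T_scale hv hc ω).1 h3)) (N := q ^ (2 * n - 3) + q ^ 2 * N' + 1)
      (e := q ^ (2 * n - 3)) (by rw [N.hF]; exact N.cX) (fun v hv0 hv => card_moved (R v hv0 hv))
    rw [← hcard] at hk
    have h2 : Nat.card Ω ∣ q ^ (2 * n - 3) := by
      have h3 : Nat.card Ω ∣ Nat.card Ω * q ^ (2 * n - 3) + q ^ (2 * n - 3) := ⟨k, by rw [← hk]; ring⟩
      exact (Nat.dvd_add_right (Dvd.intro _ rfl)).1 h3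
    have h3 := Nat.le_of_dvd (by positivity) h2
    have h4 := N.eN
    have h5 : 0 < q ^ 2 * N' := by positivity
    omega

end H41.UnL
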