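import Mathlib
import Cfsg.Agent.Lib.H41.UnL
import Cfsg.Agent.Lib.H7.HermCount
import Cfsg.Agent.Lib.H6.SUGenC

/-! Counting vectors for hermitian forms, point stabilisers. -/

set_option autoImplicit false
set_option linter.unusedSectionVars false

namespace H41.UnM

open Module H95.UBasic H95.UPar H95.UPair H57.Polar H41.UnA H41.UnA2 H41.Dual H41.UnB H41.UnC H41.UnD H41.UnE H41.UnF
  H41.UnG MulAction

variable {F V : Type*} [Field F] [AddCommGroup V] [Module F V] {σ : F →+* F}
variable {h : V →ₗ[F] V →ₛₗ[σ] F}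

/-- number of vectors of given value -/
noncomputable def cnt (h : V →ₗ[F] V →ₛₗ[σ] F) (c : F) : ℕ := Nat.card {v : V // h v v = c}

/-- number of vectors of given value orthogonal to `v` -/
noncomputable def cnp (h : V →ₗ[F] V →ₛₗ[σ] F) (v : V) (c : F) : ℕ := Nat.card {y : V // h v y = 0 ∧ h y y = c}

/-- moving along `v` -/
def slide {v : V} (hv : h v v = 0) (c : F) :
    {p : V × F // h v p.1 ≠ 0 ∧ h (p.1 + p.2 • v) (p.1 + p.2 • v) = c} ≃ {y : V // h v y ≠ 0 ∧ h y y = c} × F where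
  toFun p := (⟨p.1.1 + p.1.2 • v, by
    rw [map_add, map_smulₛₗ, hv, smul_zero, add_zero]; exact p.2.1, p.2.2⟩, p.1.2)
  invFun p := ⟨(p.1.1 - p.2 • v, p.2), by
    rw [map_sub, map_smulₛₗ, hv, smul_zero, sub_zero]; exact p.1.2.1, by
    rw [sub_add_cancel]; exact p.1.2.2⟩
  left_inv p := by
    apply Subtype.ext
    exact Prod.ext (add_sub_cancel_right _ _) rfl
  right_inv p := by
    exact Prod.ext (Subtype.ext (sub_add_cancel _ _)) rfl

/-- the fibres of the slide -/
theorem card_fib [Finite F] (H : IsSkew h) {v : V} (hv : h v v = 0) {c : F} (hc : σ c = -c) {y : V} (hy : h v y ≠ 0) :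
    Nat.card {t : F // h (y + t • v) (y + t • v) = c} = Nat.card (A0 σ) := by
  have h2 : ∀ t : F, h (y + t • v) (y + t • v) = h y y + (t * h v y - σ (t * h v y)) := by
    intro t
    simp only [map_add, LinearMap.add_apply, map_smul, LinearMap.smul_apply, map_smulₛₗ, smul_eq_mul, hv,
      H.skew v y, map_mul]
    ring
  obtain ⟨u, hu⟩ := exists_sub_conj H (s := c - h y y) (by rw [map_sub, H.self, hc]; ring)
  refine Nat.card_congr
    { toFun := fun t => ⟨t.1 * h v y - u, ?_⟩
      invFun := fun a => ⟨(a.1 + u) / h v y, ?_⟩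
      left_inv := ?_
      right_inv := ?_ }
  · change σ _ = _
    have h3 := t.2
    rw [h2] at h3
    rw [map_sub]
    linear_combination hu - h3
  · rw [h2, div_mul_cancel₀ _ hy, map_add]
    have h3 : σ a.1 = a.1 := a.2
    rw [h3]
    linear_combination hu
  · intro t
    apply Subtype.ext
    change (t.1 * h v y - u + u) / h v y = t.1
    rw [sub_add_cancel, mul_div_cancel_right₀ _ hy]
  · intro a
    apply Subtype.ext
    change (a.1 + u) / h v y * h v y - u = a.1
    rw [div_mul_cancel₀ _ hy, add_sub_cancel_right]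

variable [FiniteDimensional F V] [Finite F]

theorem card_perp (H : IsSkew h) {v : V} (hv0 : v ≠ 0) :
    Nat.card {y : V // h v y = 0} * Nat.card F = Nat.card V := by
  have hli : LinearIndependent F ![v] := by
    rw [linearIndependent_unique_iff]
    exact hv0
  have h1 := finrank_perpF_eq H (nd_top H) (x := ![v]) (fun _ => trivial) hli
  rw [Fintype.card_fin, finrank_top] at h1
  have h2 : Nat.card {y : V // h v y = 0} = Nat.card (perpF h ⊤ ![v]) := by
    apply Nat.card_congr
    apply Equiv.subtypeEquivRight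
    intro w
    rw [← p1, mem_p1]
    exact ⟨fun h3 => ⟨trivial, H.symm_zero h3⟩, fun h3 => H.symm_zero h3.2⟩
  rw [h2, Module.natCard_eq_pow_finrank (K := F) (V := perpF h ⊤ ![v]),
    Module.natCard_eq_pow_finrank (K := F) (V := V), h1, pow_succ]

/-- the count in `v^⊥` -/
theorem cnp_add (H : IsSkew h) {v : V} (hv : h v v = 0) (hv0 : v ≠ 0) {q n : ℕ} (hq2 : 2 ≤ q)
    (hq : Nat.card (A0 σ) = q) (hF : Nat.card F = q ^ 2) (hn : finrank F V = n) (hn2 : 2 ≤ n) {c : F} (hc : σ c = -c) :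
    cnp h v c + (q ^ 2 - 1) * q ^ (2 * n - 3) = cnt h c := by
  classical
  have : Finite V := Module.finite_of_finite F
  have : Fintype V := Fintype.ofFinite V
  have : Fintype F := Fintype.ofFinite F
  have h1 := card_perp H hv0
  have h2 : Nat.card {y : V // h v y = 0} + Nat.card {y : V // h v y ≠ 0} = Nat.card V := by
    rw [Nat.card_eq_fintype_card, Nat.card_eq_fintype_card, Nat.card_eq_fintype_card,
      Fintype.card_subtype_compl]
    exact Nat.add_sub_cancel' (Fintype.card_subtype_le _)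
  have h3 := Nat.card_congr (slide (h := h) hv c)
  rw [Nat.card_prod] at h3
  have h3' : Nat.card {p : V × F // h v p.1 ≠ 0 ∧ h (p.1 + p.2 • v) (p.1 + p.2 • v) = c} =
      Nat.card {y : V // h v y ≠ 0} * q := by
    have e : {p : V × F // h v p.1 ≠ 0 ∧ h (p.1 + p.2 • v) (p.1 + p.2 • v) = c} ≃
        Σ y : {y : V // h v y ≠ 0}, {t : F // h (y.1 + t • v) (y.1 + t • v) = c} :=
      { toFun := fun p => ⟨⟨p.1.1, p.2.1⟩, ⟨p.1.2, p.2.2⟩⟩
        invFun := fun p => ⟨(p.1.1, p.2.1), p.1.2, p.2.2⟩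
        left_inv := fun p => rfl
        right_inv := fun p => rfl }
    rw [Nat.card_congr e, Nat.card_sigma, Finset.sum_congr rfl (fun y _ => card_fib H hv hc y.2), Finset.sum_const, hq,
      Finset.card_univ, smul_eq_mul, Nat.card_eq_fintype_card]
  have h4 : cnt h c = cnp h v c + Nat.card {y : V // h v y ≠ 0 ∧ h y y = c} := by
    rw [cnt, cnp, Nat.card_eq_fintype_card, Nat.card_eq_fintype_card, Nat.card_eq_fintype_card,
      Fintype.card_subtype, Fintype.card_subtype, Fintype.card_subtype,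
      ← Finset.card_union_of_disjoint]
    · congr 1
      ext y
      simp only [Finset.mem_filter, Finset.mem_univ, true_and, Finset.mem_union]
      tauto
    · rw [Finset.disjoint_left]
      intro y hy hy'
      rw [Finset.mem_filter] at hy hy'
      exact hy'.2.1 hy.2.1
  have hV : Nat.card V = q ^ (2 * n - 3) * q * q ^ 2 := by
    rw [Module.natCard_eq_pow_finrank (K := F) (V := V), hF, hn, ← pow_mul, ← pow_succ, ← pow_add]
    congr 1
    omega
  have h5 : Nat.card {y : V // h v y = 0} = q ^ (2 * n - 3) * q := by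
    apply Nat.eq_of_mul_eq_mul_right (show 0 < Nat.card F by rw [hF]; positivity)
    rw [h1, hV, hF]
  have h6 : Nat.card {y : V // h v y ≠ 0 ∧ h y y = c} = (q ^ 2 - 1) * q ^ (2 * n - 3) := by
    apply Nat.eq_of_mul_eq_mul_right (show 0 < q ^ 2 by positivity)
    rw [← hF, ← h3, h3', hF]
    have h7 : Nat.card {y : V // h v y ≠ 0} = Nat.card V - Nat.card {y : V // h v y = 0} := by omega
    rw [h7, hV, h5]
    have e1 : 1 ≤ q ^ 2 := Nat.one_le_pow _ _ (by omega)
    obtain ⟨s, hs⟩ := Nat.exists_eq_add_of_le e1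
    have e2 : q ^ 2 - 1 = s := by omega
    rw [e2, hs]
    have e3 : q ^ (2 * n - 3) * q * (1 + s) = q ^ (2 * n - 3) * q + s * q ^ (2 * n - 3) * q := by ring
    rw [e3, Nat.add_sub_cancel_left, ← hs]
    ring
  rw [h4, h6]

/-- general index formula for the stabiliser of a point -/
theorem pt_stab {G : Subgroup (V ≃ₗ[F] V)} {v : V} (hv0 : v ≠ 0) :
    ∃ K : Subgroup G, K.index * Nat.card {c : F // c • v ∈ orbit G v} = Nat.card (orbit G v) ∧
      ∀ g : G, (∃ c : F, (g : V ≃ₗ[F] V) v = c • v) → g ∈ K := by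
  have : Finite V := Module.finite_of_finite F
  have hc0 : ∀ (g : V ≃ₗ[F] V) (c : F), g v = c • v → c ≠ 0 := by
    rintro g c hg rfl
    rw [zero_smul] at hg
    exact hv0 ((LinearEquiv.map_eq_zero_iff g).1 hg)
  let K : Subgroup G :=
    { carrier := {g | ∃ c : F, (g : V ≃ₗ[F] V) v = c • v}
      mul_mem' := by
        rintro a b ⟨c, h⟩ ⟨d, h'⟩
        refine ⟨c * d, ?_⟩
        change (a : V ≃ₗ[F] V) ((b : V ≃ₗ[F] V) v) = _
        rw [h', map_smul, h, smul_smul, mul_comm]
      one_mem' := ⟨1, by rw [one_smul]; rfl⟩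
      inv_mem' := by
        rintro a ⟨c, h⟩
        have hc := hc0 _ _ h
        refine ⟨c⁻¹, ?_⟩
        apply (a : V ≃ₗ[F] V).injective
        rw [map_smul, h, smul_smul, inv_mul_cancel₀ hc, one_smul]
        exact (a : V ≃ₗ[F] V).apply_symm_apply v }
  have hKm : ∀ g : G, g ∈ K ↔ ∃ c : F, (g : V ≃ₗ[F] V) v = c • v := fun g => Iff.rfl
  refine ⟨K, ?_, fun g hg => hg⟩
  have hle : stabilizer G v ≤ K := by
    intro g hg
    exact ⟨1, by rw [one_smul]; exact hg⟩
  have h1 : (stabilizer G v).index = Nat.card (orbit G v) := by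
    rw [index_stabilizer, ← Nat.card_coe_set_eq]
  have h2 : (stabilizer G v).relIndex K = Nat.card {c : F // c • v ∈ orbit G v} := by
    have h3 : (stabilizer G v).subgroupOf K = stabilizer K v := by
      ext g
      rfl
    rw [Subgroup.relIndex, h3, index_stabilizer, ← Nat.card_coe_set_eq]
    have h4 : ∀ w : V, w ∈ orbit K v ↔ w ∈ orbit G v ∧ ∃ c : F, c • v = w := by
      intro w
      constructor
      · rintro ⟨g, rfl⟩
        obtain ⟨c, hc⟩ := g.2
        exact ⟨⟨g.1, rfl⟩, c, hc.symm⟩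
      · rintro ⟨⟨g, hg⟩, c, hc⟩
        exact ⟨⟨g, ⟨c, by rw [hc]; exact hg⟩⟩, hg⟩
    symm
    apply Nat.card_congr
    refine Equiv.ofBijective (fun c => ⟨c.1 • v, (h4 _).2 ⟨c.2, c.1, rfl⟩⟩) ⟨?_, ?_⟩
    · intro c d h
      have h5 : c.1 • v = d.1 • v := congrArg Subtype.val h
      exact Subtype.ext (smul_left_injective F hv0 h5)
    · rintro ⟨w, hw⟩
      obtain ⟨h5, c, rfl⟩ := (h4 w).1 hw
      exact ⟨⟨c, h5⟩, rfl⟩
  have h3 := Subgroup.relIndex_mul_index hle
  rw [h1, h2] at h3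
  rw [← h3, mul_comm]

/-- the center acts by scalars -/
theorem center_scalar (H : IsSkew h) (hn : 5 ≤ finrank F V) {z : SU h} (hz : z ∈ Subgroup.center (SU h)) :
    ∃ c : F, ∀ x, (z : V ≃ₗ[F] V) x = c • x := by
  apply H6.SUGenB.scalar_of_fix H (by omega)
  intro u hu
  by_cases hu0 : u = 0
  · exact ⟨0, by rw [hu0, map_zero, smul_zero]⟩
  have hmem := sieg_mem_SU H (by omega) u 0 1
  have h1 := Subgroup.mem_center_iff.1 hz ⟨_, hmem⟩
  have hg := good_tr hu (map_one σ)
  obtain ⟨y, hy⟩ : ∃ y, h y u = 1 := by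
    obtain ⟨f, -, hf⟩ := H6.SUGenB.exists_partner H hu0 hu
    exact ⟨-f, by rw [map_neg, LinearMap.neg_apply, hfe H hf, neg_neg]⟩
  have h2 : sieg h u 0 1 ((z : V ≃ₗ[F] V) y) = (z : V ≃ₗ[F] V) (sieg h u 0 1 y) :=
    congrArg (fun g : SU h => (g : V ≃ₗ[F] V) y) h1
  rw [sieg_apply hg, sieg_apply hg] at h2
  simp only [hy, map_zero, smul_zero, add_zero, one_mul, mul_one, one_smul, map_add, zero_smul] at h2
  exact ⟨_, (add_left_cancel h2).symm⟩

end H41.UnM
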