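import Mathlib
import Cfsg.Agent.Lib.H41.Uf9
import Cfsg.Agent.Lib.H41.UnM

/-! A regular orbit exists: the other orbits. -/

set_option autoImplicit false
set_option linter.unusedSectionVars false

namespace H41.Uf10

open Module H95.UBasic H95.UPar H95.UPair H57.Polar H41.UnA H41.UnA2 H41.Dual H41.Uf1 H41.Uf2 H41.Uf3 H41.Uf4 H41.Uf5
  H41.Uf6 H41.Uf7 H41.Uf8 H41.Uf9 MulAction
open H41.UnB (A0 mem_A0)
open H41.UnM (cnt cnp cnp_add)

variable {F V : Type*} [Field F] [AddCommGroup V] [Module F V] {σ : F →+* F}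
variable {h : V →ₗ[F] V →ₛₗ[σ] F} [FiniteDimensional F V] [Finite F]
variable {q p : ℕ} {ψ : AddChar F ℂ} {B : B4 h} {Ω : Type*} [MulAction (SU h) Ω] [Finite Ω]
variable {e f e' f' : V}

open Classical in
/-- the orbits other than the regular one -/
theorem reg_sum (C : Cx B q p ψ Ω) (T : TI h e f) {i₀ : I B T Ω} (hi₀ : Ui C.hψ i₀ = ⊤) (S : Finset (M σ))
    (hS0 : (0 : M σ) ∉ S) (hS : ∀ x ∈ S, 2 ≤ mu C.hψ B T Ω x) :
    ∃ D, S.card ≤ D ∧ D + (Nat.card (I B T Ω) - 1) + q ^ 4 ≤ Nat.card Ω ∧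
      ∀ k, (∀ i, i ≠ i₀ → Nat.card (Ui C.hψ i) ≤ k + 1) → D ≤ (Nat.card (I B T Ω) - 1) * k := by
  have : Fintype (I B T Ω) := Fintype.ofFinite _
  have : Fintype (M σ) := Fintype.ofFinite _
  have hsum := sum_card (B := B) (Ω := Ω) C.hψ T
  have hle : ∀ i : I B T Ω, (S.filter (fun x => x ∈ Ui C.hψ i)).card + 1 ≤ Nat.card (Ui C.hψ i) := by
    intro i
    have e1 : Nat.card (Ui C.hψ i) = (Finset.univ.filter (fun x => x ∈ Ui C.hψ i)).card := by
      rw [Nat.card_eq_fintype_card, Fintype.card_subtype]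
    rw [e1, ← Finset.card_insert_of_notMem (a := (0 : M σ))]
    · apply Finset.card_le_card
      intro x hx
      rw [Finset.mem_insert, Finset.mem_filter] at hx
      rw [Finset.mem_filter]
      refine ⟨Finset.mem_univ _, ?_⟩
      rcases hx with rfl | hx
      · exact AddSubgroup.zero_mem _
      · exact hx.2
    · rw [Finset.mem_filter]
      exact fun h => hS0 h.1
  have hcard : (Finset.univ.erase i₀).card = Nat.card (I B T Ω) - 1 := by
    rw [Finset.card_erase_of_mem (Finset.mem_univ _), Finset.card_univ, Nat.card_eq_fintype_card]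
  refine ⟨∑ i ∈ Finset.univ.erase i₀, (S.filter (fun x => x ∈ Ui C.hψ i)).card, ?_, ?_, ?_⟩
  · rw [← OrbU.sum_filter (pair B C.hψ) (Finset.univ.erase i₀) S]
    calc S.card = ∑ x ∈ S, 1 := by rw [Finset.sum_const, smul_eq_mul, mul_one]
      _ ≤ _ := by
        apply Finset.sum_le_sum
        intro x hx
        have h1 := hS x hx
        rw [mu, OrbU.m_eq] at h1
        have h2 : (Finset.univ.filter (fun i : I B T Ω => x ∈ Ui C.hψ i)).card ≤
            ((Finset.univ.erase i₀).filter (fun i : I B T Ω => x ∈ Ui C.hψ i)).card + 1 := by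
          have h3 : (Finset.univ.filter (fun i : I B T Ω => x ∈ Ui C.hψ i)) ⊆
              insert i₀ ((Finset.univ.erase i₀).filter (fun i : I B T Ω => x ∈ Ui C.hψ i)) := by
            intro i hi
            rw [Finset.mem_filter] at hi
            rw [Finset.mem_insert, Finset.mem_filter, Finset.mem_erase]
            by_cases h4 : i = i₀
            · exact Or.inl h4
            · exact Or.inr ⟨⟨h4, Finset.mem_univ _⟩, hi.2⟩
          exact (Finset.card_le_card h3).trans (Finset.card_insert_le _ _)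
        have h3 : 2 ≤ ((Finset.univ.erase i₀).filter (fun i : I B T Ω => x ∈ Ui C.hψ i)).card + 1 := h1.trans h2
        exact Nat.le_of_succ_le_succ h3
  · rw [← hsum, ← Finset.add_sum_erase _ _ (Finset.mem_univ i₀), card_top C.N hi₀, add_comm (q ^ 4)]
    apply Nat.add_le_add_right
    rw [← hcard]
    calc (∑ i ∈ Finset.univ.erase i₀, (S.filter (fun x => x ∈ Ui C.hψ i)).card) + (Finset.univ.erase i₀).card
        = ∑ i ∈ Finset.univ.erase i₀, ((S.filter (fun x => x ∈ Ui C.hψ i)).card + 1) := by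
          rw [Finset.sum_add_distrib, Finset.sum_const, smul_eq_mul, mul_one]
      _ ≤ _ := Finset.sum_le_sum fun i _ => hle i
  · intro k hk
    rw [← hcard, ← smul_eq_mul, ← Finset.sum_const]
    apply Finset.sum_le_sum
    intro i hi
    have h1 := hk i (Finset.ne_of_mem_erase hi)
    have h2 := hle i
    omega

/-- nonsingular elements are only in the regular orbit -/
theorem mu_ns (C : Cx B q p ψ Ω) (Φ : Fr h e f e' f') {i₀ : I B Φ.toTI Ω} (hi₀ : Ui C.hψ i₀ = ⊤) {u : M σ}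
    (hu : qf u ≠ 0) : mu C.hψ B Φ.toTI Ω u ≤ 1 := by
  classical
  by_contra hcon
  push Not at hcon
  have : Fintype (M σ) := Fintype.ofFinite _
  obtain ⟨D, h1, h2, -⟩ := reg_sum C Φ.toTI hi₀ (Finset.univ.filter (fun m : M σ => qf m = qf u)) (by
    rw [Finset.mem_filter, qf_zero]
    exact fun h => hu h.2.symm) (by
    intro x hx
    rw [Finset.mem_filter] at hx
    have h3 : mu C.hψ B Φ.toTI Ω u = mu C.hψ B Φ.toTI Ω x := by
      apply mu_eq Φ _ _ hx.2.symm
      · rintro rfl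
        exact hu qf_zero
      · rintro rfl
        exact hu (by rw [← hx.2, qf_zero])
    rw [← h3]
    exact hcon)
  have h3 := card_cls B.H C.N (qf_fixed B.H.inv u) hu
  rw [Nat.card_eq_fintype_card, Fintype.card_subtype] at h3
  have h4 := mu_le_I (B := B) (Ω := Ω) C.hψ Φ.toTI u
  have h5 := C.hΩ
  have h6 : q * (q ^ 2 + 1) = q ^ 3 + q := by ring
  omega

/-- the size of a dual contained in a line -/
theorem card_line (N : N4 σ q) {U : AddSubgroup (M σ)} {H : M σ} (hU : ∀ u ∈ U, ∃ k, ∃ hk : σ k = k, u = sc k hk H) :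
    Nat.card U ≤ q := by
  rw [← N.hq]
  choose k hk hkH using hU
  apply Nat.card_le_card_of_injective (fun u : U => (⟨k u.1 u.2, hk u.1 u.2⟩ : A0 σ))
  intro u u' huu
  have h1 : k u.1 u.2 = k u'.1 u'.2 := congrArg Subtype.val huu
  apply Subtype.ext
  rw [hkH u.1 u.2, hkH u'.1 u'.2]
  congr 1

/-- if a singular element is in a second orbit then `Ω` is as large as possible -/
theorem card_of_sing (C : Cx B q p ψ Ω) (Φ : Fr h e f e' f') {i₀ : I B Φ.toTI Ω} (hi₀ : Ui C.hψ i₀ = ⊤) {z : M σ}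
    (hz0 : z ≠ 0) (hz : qf z = 0) (h2 : 2 ≤ mu C.hψ B Φ.toTI Ω z) : Nat.card Ω = q ^ 4 + q ^ 3 + q := by
  classical
  have : Fintype (M σ) := Fintype.ofFinite _
  obtain ⟨D, h1, h2, h3⟩ := reg_sum C Φ.toTI hi₀ (Finset.univ.filter (fun m : M σ => m ≠ 0 ∧ qf m = 0)) (by
    rw [Finset.mem_filter]
    exact fun h => h.2.1 rfl) (by
    intro x hx
    rw [Finset.mem_filter] at hx
    have h3 : mu C.hψ B Φ.toTI Ω z = mu C.hψ B Φ.toTI Ω x := mu_eq Φ hz0 hx.2.1 (by rw [hz, hx.2.2])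
    rw [← h3]
    exact h2)
  have h4 := card_sing B.H C.N
  rw [Nat.card_eq_fintype_card, Fintype.card_subtype] at h4
  have hq2 := C.N.q2
  have h5 := h3 (q - 1) (by
    intro i hi
    rcases dich C Φ i with h6 | ⟨H, h6⟩
    · exact absurd (reg_unique C h6 hi₀) hi
    · have := card_line C.N h6
      omega)
  have h6 : (q ^ 2 + 1) * (q - 1) ≤ (Nat.card (I B Φ.toTI Ω) - 1) * (q - 1) := h4.trans (h1.trans h5)
  have h7 : q ^ 2 + 1 ≤ Nat.card (I B Φ.toTI Ω) - 1 := Nat.le_of_mul_le_mul_right h6 (by omega)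
  have h8 := C.hΩ
  have h9 : (q ^ 2 + 1) * (q - 1) + (q ^ 2 + 1) = q ^ 3 + q := by
    obtain ⟨s, rfl⟩ : ∃ s, q = s + 1 := ⟨q - 1, by omega⟩
    rw [Nat.add_sub_cancel]
    ring
  omega

/-- the set of good pairs -/
abbrev Pr (h : V →ₗ[F] V →ₛₗ[σ] F) := {x : V × V // Gp h x.1 x.2}

instance : Finite (Pr h) := by
  have : Finite V := Module.finite_of_finite F
  exact inferInstanceAs (Finite {x : V × V // Gp h x.1 x.2})

/-- the number of good pairs -/
theorem card_Pr (B : B4 h) (N : N4 σ q) (hc : cnt h 0 = (q ^ 4 - 1) * (q ^ 3 + 1) + 1) :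
    Nat.card (Pr h) = ((q ^ 4 - 1) * (q ^ 3 + 1)) * (q ^ 2 * ((q + 1) * (q ^ 2 - 1))) := by
  classical
  have : Finite V := Module.finite_of_finite F
  have : Fintype V := Fintype.ofFinite V
  have hq2 := N.q2
  have he : Pr h ≃ Σ x : {e : V // e ≠ 0 ∧ h e e = 0}, {f : V // (h x.1 f = 0 ∧ h f f = 0) ∧
      f ∉ Submodule.span F ({x.1} : Set V)} :=
    { toFun := fun x => ⟨⟨x.1.1, x.2.e0, x.2.ee⟩, ⟨x.1.2, ⟨x.2.ef, x.2.ff⟩, x.2.nf⟩⟩
      invFun := fun x => ⟨(x.1.1, x.2.1), ⟨⟨x.1.2.2, x.2.2.1.2, x.2.2.1.1, B.H.symm_zero x.2.2.1.1⟩, x.1.2.1, x.2.2.2⟩⟩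
      left_inv := fun x => rfl
      right_inv := fun x => rfl }
  rw [Nat.card_congr he, Nat.card_sigma]
  have h1 : ∀ x : {e : V // e ≠ 0 ∧ h e e = 0}, Nat.card {f : V // (h x.1 f = 0 ∧ h f f = 0) ∧
      f ∉ Submodule.span F ({x.1} : Set V)} = q ^ 2 * ((q + 1) * (q ^ 2 - 1)) := by
    intro x
    have h2 := cnp_add B.H x.2.2 x.2.1 N.q2 N.hq N.hF B.n4 (by norm_num) (c := 0) (by simp)
    rw [hc, cnp] at h2
    have h3 : Nat.card {y : V // h x.1 y = 0 ∧ h y y = 0} = Nat.card {f : V // (h x.1 f = 0 ∧ h f f = 0) ∧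
        f ∉ Submodule.span F ({x.1} : Set V)} + Nat.card (Submodule.span F ({x.1} : Set V)) := by
      have h4 : Nat.card (Submodule.span F ({x.1} : Set V)) = Nat.card {f : V // (h x.1 f = 0 ∧ h f f = 0) ∧
        f ∈ Submodule.span F ({x.1} : Set V)} := by
        apply Nat.card_congr
        apply Equiv.subtypeEquivRight
        intro y
        refine ⟨fun hy => ⟨?_, hy⟩, fun hy => hy.2⟩
        obtain ⟨c, rfl⟩ := Submodule.mem_span_singleton.1 hy
        constructor
        · rw [map_smulₛₗ, x.2.2, smul_zero]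
        · simp [x.2.2]
      rw [h4, Nat.card_eq_fintype_card, Nat.card_eq_fintype_card, Nat.card_eq_fintype_card, Fintype.card_subtype,
        Fintype.card_subtype, Fintype.card_subtype, add_comm,
        ← Finset.card_filter_add_card_filter_not (s := Finset.univ.filter (fun y : V => h x.1 y = 0 ∧ h y y = 0))
          (fun y => y ∈ Submodule.span F ({x.1} : Set V)), Finset.filter_filter, Finset.filter_filter]
    have h5 : Nat.card (Submodule.span F ({x.1} : Set V)) = q ^ 2 := by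
      rw [Module.natCard_eq_pow_finrank (K := F), finrank_span_singleton x.2.1, pow_one, N.hF]
    rw [h5] at h3
    rw [h3] at h2
    generalize Nat.card {f : V // (h x.1 f = 0 ∧ h f f = 0) ∧ f ∉ Submodule.span F ({x.1} : Set V)} = n at h2 ⊢
    have e1 : 2 * 4 - 3 = 5 := by norm_num
    rw [e1] at h2
    have e2 : 1 ≤ q ^ 2 := Nat.one_le_pow _ _ (by omega)
    have e3 : 1 ≤ q ^ 4 := Nat.one_le_pow _ _ (by omega)
    zify [e2, e3] at h2 ⊢
    linear_combination h2
  rw [Finset.sum_congr rfl (fun x _ => h1 x), Finset.sum_const, Finset.card_univ, smul_eq_mul, ← Nat.card_eq_fintype_card]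
  congr 1
  have h2 : cnt h 0 = Nat.card {e : V // e ≠ 0 ∧ h e e = 0} + 1 := by
    rw [cnt, ← Finset.card_singleton (0 : V), Nat.card_eq_fintype_card, Nat.card_eq_fintype_card, Fintype.card_subtype,
      Fintype.card_subtype, ← Finset.card_union_of_disjoint]
    · congr 1
      ext y
      simp only [Finset.mem_filter, Finset.mem_univ, true_and, Finset.mem_union, Finset.mem_singleton]
      constructor
      · intro hy
        by_cases h0 : y = 0
        · exact Or.inr h0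
        · exact Or.inl ⟨h0, hy⟩
      · rintro (hy | rfl)
        · exact hy.2
        · simp
    · rw [Finset.disjoint_singleton_right, Finset.mem_filter]
      exact fun h => h.2.1 rfl
  rw [hc] at h2
  omega

/-- the degree divides the number of pairs times the number of regular points -/
theorem dvd_pairs [IsPretransitive (SU h) Ω] [Nonempty Ω] (C : Cx B q p ψ Ω)
    (hreg : ∀ e f : V, Gp h e f → ∃ ω : Ω, Reg B e f ω) : Nat.card Ω ∣ Nat.card (Pr h) * q ^ 4 := by
  classical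
  have : Fintype (Pr h) := Fintype.ofFinite _
  have : Fintype Ω := Fintype.ofFinite _
  obtain ⟨ω₀⟩ := ‹Nonempty Ω›
  have h1 : ∑ x : Pr h, (Finset.univ.filter (fun ω : Ω => Reg B x.1.1 x.1.2 ω)).card = Nat.card (Pr h) * q ^ 4 := by
    rw [Finset.sum_congr rfl (g := fun _ => q ^ 4), Finset.sum_const, Finset.card_univ, smul_eq_mul,
      Nat.card_eq_fintype_card]
    intro x _
    obtain ⟨ω, hω⟩ := hreg _ _ x.2
    rw [← card_reg C x.2.toTI hω, Nat.card_eq_fintype_card, Fintype.card_subtype]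
  have h2 : ∑ x : Pr h, (Finset.univ.filter (fun ω : Ω => Reg B x.1.1 x.1.2 ω)).card =
      ∑ ω : Ω, (Finset.univ.filter (fun x : Pr h => Reg B x.1.1 x.1.2 ω)).card :=
    Finset.sum_card_bipartiteAbove_eq_sum_card_bipartiteBelow (s := Finset.univ) (t := Finset.univ)
      (fun (x : Pr h) (ω : Ω) => Reg B x.1.1 x.1.2 ω)
  have h3 : ∀ ω : Ω, (Finset.univ.filter (fun x : Pr h => Reg B x.1.1 x.1.2 ω)).card =
      (Finset.univ.filter (fun x : Pr h => Reg B x.1.1 x.1.2 ω₀)).card := by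
    intro ω
    have hle : ∀ ω ω' : Ω, (Finset.univ.filter (fun x : Pr h => Reg B x.1.1 x.1.2 ω)).card ≤
      (Finset.univ.filter (fun x : Pr h => Reg B x.1.1 x.1.2 ω')).card := by
      intro ω ω'
      obtain ⟨g, rfl⟩ := exists_smul_eq (SU h) ω ω'
      apply Finset.card_le_card_of_injOn (fun x : Pr h => (⟨((g : V ≃ₗ[F] V) x.1.1, (g : V ≃ₗ[F] V) x.1.2), Gp.map x.2 g⟩ : Pr h))
      · intro x hx
        rw [Finset.mem_coe, Finset.mem_filter] at hx ⊢
        exact ⟨Finset.mem_univ _, Reg.map hx.2 g⟩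
      · intro x _ y _ hxy
        have e1 := congrArg (fun z : Pr h => z.1.1) hxy
        have e2 := congrArg (fun z : Pr h => z.1.2) hxy
        exact Subtype.ext (Prod.ext ((g : V ≃ₗ[F] V).injective e1) ((g : V ≃ₗ[F] V).injective e2))
    exact le_antisymm (hle _ _) (hle _ _)
  rw [Finset.sum_congr rfl (fun ω _ => h3 ω), Finset.sum_const, Finset.card_univ, smul_eq_mul] at h2
  rw [← h1, h2, Nat.card_eq_fintype_card]
  exact dvd_mul_right _ _

/-- arithmetic -/
theorem arith {q : ℕ} (hq : 2 ≤ q)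
    (hd : q ^ 4 + q ^ 3 + q ∣ ((q ^ 4 - 1) * (q ^ 3 + 1)) * (q ^ 2 * ((q + 1) * (q ^ 2 - 1))) * q ^ 4) : False := by
  have e2 : 1 ≤ q ^ 2 := Nat.one_le_pow _ _ (by omega)
  have e3 : 1 ≤ q ^ 4 := Nat.one_le_pow _ _ (by omega)
  have h1 : ((q ^ 4 + q ^ 3 + q : ℕ) : ℤ) ∣ ((((q ^ 4 - 1) * (q ^ 3 + 1)) * (q ^ 2 * ((q + 1) * (q ^ 2 - 1))) * q ^ 4 : ℕ) : ℤ) :=
    Int.natCast_dvd_natCast.2 hd
  push_cast [e2, e3] at h1
  have hQ : (2 : ℤ) ≤ q := by exact_mod_cast hq
  generalize (q : ℤ) = Q at h1 hQ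
  have h2 : Q ^ 3 + Q ^ 2 + 1 ∣ Q ^ 6 * ((Q ^ 3 + 1) * ((Q ^ 4 - 1) * ((Q + 1) * (Q ^ 2 - 1)))) := by
    refine dvd_trans ⟨Q, by ring⟩ (dvd_trans h1 (dvd_of_eq (by ring)))
  have c1 : IsCoprime (Q ^ 3 + Q ^ 2 + 1) (Q ^ 6) := by
    apply IsCoprime.pow_right
    exact ⟨1, -(Q ^ 2 + Q), by ring⟩
  have c2 : IsCoprime (Q ^ 3 + Q ^ 2 + 1) (Q ^ 3 + 1) := by
    refine ⟨-Q, Q + 1, by ring⟩
  have h3 := c1.dvd_of_dvd_mul_left h2
  have h4 := c2.dvd_of_dvd_mul_left h3
  have h5 : Q ^ 3 + Q ^ 2 + 1 ∣ Q * ((Q ^ 2 - 1) ^ 2) := by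
    have e1 : Q * ((Q ^ 2 - 1) ^ 2) = (Q ^ 4 - 1) * ((Q + 1) * (Q ^ 2 - 1)) -
      (Q ^ 3 + Q ^ 2 + 1) * ((Q - 1) * ((Q + 1) * (Q ^ 2 - 1))) := by ring
    rw [e1]
    exact dvd_sub h4 (dvd_mul_right _ _)
  have c3 : IsCoprime (Q ^ 3 + Q ^ 2 + 1) Q := ⟨1, -(Q ^ 2 + Q), by ring⟩
  have h6 := c3.dvd_of_dvd_mul_left h5
  have h7 : Q ^ 3 + Q ^ 2 + 1 ∣ Q ^ 2 + Q - 2 := by
    have e1 : Q ^ 2 + Q - 2 = (Q ^ 3 + Q ^ 2 + 1) * (Q - 1) - (Q ^ 2 - 1) ^ 2 := by ring
    rw [e1]
    exact dvd_sub (dvd_mul_right _ _) h6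
  have h8 := Int.le_of_dvd (by nlinarith) h7
  nlinarith

/-- all points are regular or fixed, for all pairs -/
theorem reg_or_full [IsPretransitive (SU h) Ω] (C : Cx B q p ψ Ω) (hc : cnt h 0 = (q ^ 4 - 1) * (q ^ 3 + 1) + 1)
    (hreg : ∀ e f : V, Gp h e f → ∃ ω : Ω, Reg B e f ω) (G : Gp h e f) (ω : Ω) :
    Reg B e f ω ∨ ∀ m, A B e f m • ω = ω := by
  obtain ⟨e', f', Φ⟩ := Gp.frame B G
  obtain ⟨ω₁, hω₁⟩ := hreg e f G
  have hi₀ : Ui C.hψ (OrbU.cls (⊤ : AddSubgroup (M σ)) (toX B Φ.toTI ω₁)) = ⊤ := by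
    rw [Ui_cls]
    exact U_top.2 hω₁
  by_cases h0 : ∀ x ∈ U C.hψ B Φ.toTI ω, x = 0
  · right
    intro m
    apply (mem_R (T := Φ.toTI)).1
    apply mem_R_of (hψ := C.hψ)
    intro x hx
    rw [h0 x hx, bf_comm, bf_zero, AddChar.map_zero_eq_one]
  · left
    push Not at h0
    obtain ⟨x, hx, hx0⟩ := h0
    have h1 : mu C.hψ B Φ.toTI Ω x ≤ 1 := by
      by_cases hq : qf x = 0
      · by_contra hcon
        push Not at hcon
        have h2 := card_of_sing C Φ hi₀ hx0 hq hcon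
        have : Nonempty Ω := ⟨ω⟩
        have h3 := dvd_pairs C hreg
        rw [h2, card_Pr B C.N hc] at h3
        exact arith C.N.q2 h3
      · exact mu_ns C Φ hi₀ hq
    have h2 : OrbU.cls (⊤ : AddSubgroup (M σ)) (toX B Φ.toTI ω) = OrbU.cls ⊤ (toX B Φ.toTI ω₁) := by
      rw [mu, OrbU.m] at h1
      have h3 := Finite.card_le_one_iff_subsingleton.1 h1
      have h4 : (⟨OrbU.cls ⊤ (toX B Φ.toTI ω), by rw [Ui_cls]; exact hx⟩ :
        {i : I B Φ.toTI Ω // x ∈ Ui C.hψ i}) = ⟨OrbU.cls ⊤ (toX B Φ.toTI ω₁), by rw [hi₀]; trivial⟩ := h3.elim _ _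
      exact congrArg Subtype.val h4
    rw [← h2, Ui_cls] at hi₀
    exact U_top.1 hi₀

/-- all points are regular for all pairs, if the action is not trivial -/
theorem all_reg [IsPretransitive (SU h) Ω] (C : Cx B q p ψ Ω) (hc : cnt h 0 = (q ^ 4 - 1) * (q ^ 3 + 1) + 1)
    (hreg : ∀ e f : V, Gp h e f → ∃ ω : Ω, Reg B e f ω) (h1 : 1 < Nat.card Ω) (G : Gp h e f) (ω : Ω) :
    Reg B e f ω := by
  rcases reg_or_full C hc hreg G ω with h2 | h2
  · exact h2
  · exfalso
    have hfull : ∀ v, h v v = 0 → ∀ c, σ c = c → E B v 0 c • ω = ω := by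
      intro v hv c hcσ
      by_cases hv0 : v = 0
      · rw [hv0, E_zero_vec, one_smul]
      -- a vector of the plane orthogonal to `v`
      obtain ⟨a, b, hab, hab0⟩ : ∃ a b : F, h (a • e + b • f) v = 0 ∧ (a ≠ 0 ∨ b ≠ 0) := by
        by_cases h3 : h e v = 0
        · exact ⟨1, 0, by simp [h3], Or.inl one_ne_zero⟩
        · refine ⟨h f v, -h e v, ?_, Or.inr (neg_ne_zero.2 h3)⟩
          simp only [map_add, LinearMap.add_apply, map_smul, LinearMap.smul_apply, smul_eq_mul]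
          ring
      set e₂ := a • e + b • f with he₂
      have he20 : e₂ ≠ 0 := by
        intro h3
        rcases hab0 with h4 | h4
        · have hb : b ≠ 0 := by
            rintro rfl
            rw [he₂, zero_smul, add_zero] at h3
            rcases smul_eq_zero.1 h3 with h5 | h5
            · exact h4 h5
            · exact G.e0 h5
          apply G.nf
          rw [Submodule.mem_span_singleton]
          refine ⟨-(a / b), ?_⟩
          have h5 : f = (b⁻¹ * b) • f := by rw [inv_mul_cancel₀ hb, one_smul]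
          have h6 : b • f = -(a • e) := eq_neg_of_add_eq_zero_right h3
          rw [h5, mul_smul, h6, smul_neg, smul_smul, neg_smul]
          congr 2
          rw [div_eq_mul_inv, mul_comm]
        · apply G.nf
          rw [Submodule.mem_span_singleton]
          refine ⟨-(a / b), ?_⟩
          have h5 : f = (b⁻¹ * b) • f := by rw [inv_mul_cancel₀ h4, one_smul]
          have h6 : b • f = -(a • e) := eq_neg_of_add_eq_zero_right h3
          rw [h5, mul_smul, h6, smul_neg, smul_smul, neg_smul]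
          congr 2
          rw [div_eq_mul_inv, mul_comm]
      have he22 : h e₂ e₂ = 0 := by
        rw [he₂]
        simp only [map_add, LinearMap.add_apply, map_smul, LinearMap.smul_apply, map_smulₛₗ, smul_eq_mul, G.ee, G.ff, G.ef,
          G.fe, mul_zero, add_zero]
      have hfix : ∀ c, σ c = c → E B e₂ 0 c • ω = ω := by
        intro c hc
        rw [he₂, E_rank1 G.toTI a b hc]
        exact h2 _
      by_cases hve : v ∈ Submodule.span F ({e₂} : Set V)
      · obtain ⟨d, rfl⟩ := Submodule.mem_span_singleton.1 hve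
        rw [E_smul B d he22 (by rw [map_zero]) (by rw [hcσ]; simp), smul_zero]
        apply hfix
        rw [map_mul, hcσ, nrm B.H.inv]
      · have G2 : Gp h e₂ v := ⟨⟨he22, hv, hab, B.H.symm_zero hab⟩, he20, hve⟩
        rcases reg_or_full C hc hreg G2 ω with h3 | h3
        · exfalso
          have h4 := hfix 1 (map_one σ)
          rw [E_vx G2.toTI (map_one σ)] at h4
          have h5 := h3 _ h4
          exact one_ne_zero (congrArg (fun m : M σ => m.1.1) h5)
        · rw [E_vy G2.toTI hcσ]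
          exact h3 _
    have hall := fix_all (B := B) hfull
    have hsub : Subsingleton Ω := by
      constructor
      intro ω₁ ω₂
      obtain ⟨g₁, rfl⟩ := exists_smul_eq (SU h) ω ω₁
      obtain ⟨g₂, rfl⟩ := exists_smul_eq (SU h) ω ω₂
      rw [hall, hall]
    have := Finite.card_le_one_iff_subsingleton.2 hsub
    omega

end H41.Uf10
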