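import Mathlib
import Cfsg.Agent.Lib.H41.Uf10

/-! The radicals of all totally isotropic planes cannot all act regularly. -/

set_option autoImplicit false
set_option linter.unusedSectionVars false

namespace H41.Uf11

open Module H95.UBasic H95.UPar H95.UPair H57.Polar H41.UnA H41.UnA2 H41.Dual H41.Uf1 H41.Uf2 H41.Uf3 H41.Uf4 H41.Uf5
  H41.Uf6 H41.Uf7 H41.Uf8 H41.Uf9 H41.Uf10 MulAction
open H41.UnB (A0 mem_A0)
open H41.UnM (cnt cnp cnp_add)

variable {F V : Type*} [Field F] [AddCommGroup V] [Module F V] {σ : F →+* F}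
variable {h : V →ₗ[F] V →ₛₗ[σ] F} [FiniteDimensional F V] [Finite F]
variable {q p : ℕ} {ψ : AddChar F ℂ} {B : B4 h} {Ω : Type*} [MulAction (SU h) Ω] [Finite Ω]
variable {e f e' f' : V}

theorem trans_A (C : Cx B q p ψ Ω) (T : TI h e f) {ω ω' : Ω} (h1 : Reg B e f ω) (h2 : Reg B e f ω') :
    ∃ m, A B e f m • ω' = ω := by
  apply (cls_eq (T := T)).1
  apply reg_unique C
  · rw [Ui_cls]
    exact U_top.2 h1
  · rw [Ui_cls]
    exact U_top.2 h2

theorem E_add_f' (Φ : Fr h e f e' f') (r s : F) : E B e (σ r • f') 0 * E B e (σ s • f') 0 = E B e (σ (r + s) • f') 0 := by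
  rw [E_mul B Φ.ee (by rw [map_smulₛₗ, Φ.ef', smul_zero]) (by rw [map_smulₛₗ, Φ.ef', smul_zero]) (by simp [Φ.f'f'])
    (by simp [Φ.f'f'])]
  have e1 : (0 : F) + 0 + h (σ s • f') (σ r • f') = 0 := by simp [Φ.f'f']
  rw [e1, map_add, add_smul]

/-- a Siegel element in the stabiliser -/
theorem exists_w (C : Cx B q p ψ Ω) (Φ : Fr h e f e' f') (hall : ∀ e f : V, Gp h e f → ∀ ω : Ω, Reg B e f ω) (ω : Ω) :
    ∃ r z a : F, r ≠ 0 ∧ a - σ a = h (σ z • f + σ r • f') (σ z • f + σ r • f') ∧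
      E B e (σ z • f + σ r • f') a • ω = ω := by
  have hT := Φ.toTI
  have hex : ∀ r : F, ∃ m, A B e f m • (E B e (σ r • f') 0 • ω) = ω := fun r =>
    trans_A C hT (hall e f (Fr.gp Φ) _) (hall e f (Fr.gp Φ) _)
  choose m hm using hex
  obtain ⟨r, s, hrs, hy⟩ : ∃ r s : F, r ≠ s ∧ (m r).2.1 = (m s).2.1 := by
    by_contra hcon
    push Not at hcon
    have h1 : Nat.card F ≤ Nat.card (A0 σ) := by
      apply Nat.card_le_card_of_injective (fun r => (m r).2.1)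
      intro r s hrs
      by_contra hne
      exact hcon r s hne hrs
    rw [C.N.hF, C.N.hq] at h1
    have := C.N.q2
    nlinarith
  set r₀ := r - s with hr₀
  have hr0 : r₀ ≠ 0 := sub_ne_zero.2 hrs
  set m' := m r - t1 B.H.inv r₀ (m s) with hm'
  have h1 : A B e f m' • (E B e (σ r₀ • f') 0 • ω) = ω := by
    have e1 : r = r₀ + s := by rw [hr₀]; ring
    have h2 := hm r
    have h3 := hm s
    have h4 : E B e (σ s • f') 0 • ω = A B e f (-m s) • ω := by
      conv_rhs => rw [← h3]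
      rw [← mul_smul, ← A_add hT, neg_add_cancel, A_zero hT, one_smul]
    have e2 : E B e (σ r • f') 0 = E B e (σ r₀ • f') 0 * E B e (σ s • f') 0 := by
      rw [E_add_f' Φ, ← e1]
    rw [e2, mul_smul, h4] at h2
    have h5 := (T1 (B := B) Φ r₀).conj (-m s)
    rw [T1_g, T1_τ] at h5
    rw [← mul_smul (E B e (σ r₀ • f') 0), h5, mul_smul, ← mul_smul, ← A_add hT, map_neg, ← sub_eq_add_neg] at h2
    exact h2
  have h2 : m'.2.1.1 = 0 := by
    change (m r).2.1.1 - (m s).2.1.1 = 0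
    rw [hy, sub_self]
  have h3 : A B e f m' = E B e (σ m'.2.2 • f) m'.1.1 := by
    rw [A, h2, E_zero, mul_one]
  rw [h3, ← mul_smul, E_mul B Φ.ee (by rw [map_smulₛₗ, Φ.ef, smul_zero]) (by rw [map_smulₛₗ, Φ.ef', smul_zero])
    (by rw [Uf1.hx]; simp [Φ.ff]) (by simp [Φ.f'f'])] at h1
  refine ⟨r₀, m'.2.2, _, hr0, ?_, h1⟩
  simp only [map_add, LinearMap.add_apply, map_smul, LinearMap.smul_apply, map_smulₛₗ, smul_eq_mul, Φ.ff, Φ.f'f', Φ.ff',
    Φ.f'f, B.H.inv, map_zero, map_mul, map_neg, map_one, Uf1.hx]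
  ring

/-- elements of stabilisers come from anisotropic vectors -/
theorem aniso_of_fix (hall : ∀ e f : V, Gp h e f → ∀ ω : Ω, Reg B e f ω) {w : V} {a : F} {ω : Ω} (hee : h e e = 0)
    (he0 : e ≠ 0) (hew : h e w = 0) (hw : w ∉ Submodule.span F ({e} : Set V)) (ha : a - σ a = h w w)
    (hfix : E B e w a • ω = ω) : h w w ≠ 0 := by
  intro hww
  rw [hww, sub_eq_zero] at ha
  have G : Gp h e w := ⟨⟨hee, hww, hew, B.H.symm_zero hew⟩, he0, hw⟩
  have h1 : A B e w (mkM a 0 1 ha.symm (map_zero σ)) = E B e w a := by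
    change E B e (σ 1 • w) a * E B w 0 0 = _
    rw [map_one, one_smul, E_zero, mul_one]
  rw [← h1] at hfix
  have h2 := hall e w G ω _ hfix
  exact one_ne_zero (congrArg (fun m : M σ => m.2.2) h2)

theorem notin_span {e f : V} (T : TI h e f) {w : V} (hw : h w f ≠ 0) : w ∉ Submodule.span F ({e} : Set V) := by
  intro h0
  obtain ⟨c, rfl⟩ := Submodule.mem_span_singleton.1 h0
  apply hw
  rw [map_smul, LinearMap.smul_apply, T.ef, smul_zero]

theorem hwf (Φ : Fr h e f e' f') (c r : F) : h (c • f + σ r • f') f = - σ r := by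
  simp only [map_add, LinearMap.add_apply, map_smul, LinearMap.smul_apply, smul_eq_mul, Φ.ff, Φ.f'f]
  ring

theorem hew (Φ : Fr h e f e' f') (c d : F) : h e (c • f + d • f') = 0 := by
  simp only [map_add, map_smulₛₗ, smul_eq_mul, Φ.ef, Φ.ef']
  ring

theorem hwe (Φ : Fr h e f e' f') (c d : F) : h (c • f + d • f') e = 0 := by
  simp only [map_add, LinearMap.add_apply, map_smul, LinearMap.smul_apply, smul_eq_mul, Φ.fe, Φ.f'e]
  ring

/-- characteristic two -/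
theorem even_false [Nonempty Ω] (C : Cx B q p ψ Ω) (h2 : (2 : F) = 0)
    (hall : ∀ e f : V, Gp h e f → ∀ ω : Ω, Reg B e f ω) (Φ : Fr h e f e' f') : False := by
  obtain ⟨ω⟩ := ‹Nonempty Ω›
  obtain ⟨r, z, a, hr, ha, hfix⟩ := exists_w C Φ hall ω
  set w := σ z • f + σ r • f' with hw
  have hwe0 : h e w = 0 := hew Φ _ _
  have hns : w ∉ Submodule.span F ({e} : Set V) := by
    apply notin_span Φ.toTI
    rw [hw, hwf Φ, neg_ne_zero]
    exact fun h0 => hr (B.H.inj h0)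
  have hww := aniso_of_fix hall Φ.ee (Fr.gp Φ).e0 hwe0 hns ha hfix
  have h3 := E_mul B Φ.ee hwe0 hwe0 ha ha
  have e1 : w + w = 0 := by
    rw [← two_smul F w, h2, zero_smul]
  have e2 : a + a + h w w = h w w := by linear_combination a * h2
  rw [e1, e2] at h3
  have h4 : E B e 0 (h w w) • ω = ω := by
    rw [← h3, mul_smul, hfix, hfix]
  have h5 : σ (h w w) = h w w := by
    rw [B.H.self]
    linear_combination (-h w w) * h2
  rw [E_vx Φ.toTI h5] at h4
  have h6 := hall e f (Fr.gp Φ) ω _ h4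
  exact hww (congrArg (fun m : M σ => m.1.1) h6)

/-- the vectors -/
def wv (σ : F →+* F) (f f' : V) (r t : F) : V := (t / r) • f + σ r • f'

theorem wv_self (Φ : Fr h e f e' f') (B : B4 h) {r : F} (hr : r ≠ 0) (t : F) : h (wv σ f f' r t) (wv σ f f' r t) = t - σ t := by
  have hσr : σ r ≠ 0 := fun h0 => hr (B.H.inj h0)
  simp only [wv, map_add, LinearMap.add_apply, map_smul, LinearMap.smul_apply, map_smulₛₗ, smul_eq_mul, Φ.ff, Φ.f'f',
    Φ.ff', Φ.f'f, B.H.inv, map_div₀]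
  field_simp
  ring

/-- the relation -/
def Fx (B : B4 h) (e f f' : V) (ω : Ω) (r t : F) : Prop :=
  ∃ a : F, a - σ a = h (wv σ f f' r t) (wv σ f f' r t) ∧ E B e (wv σ f f' r t) a • ω = ω

theorem Fx.unique (Φ : Fr h e f e' f') (hall : ∀ e f : V, Gp h e f → ∀ ω : Ω, Reg B e f ω) {ω : Ω} {r t₁ t₂ : F}
    (hr : r ≠ 0) (h1 : Fx B e f f' ω r t₁) (h2 : Fx B e f f' ω r t₂) : t₁ = t₂ := by
  obtain ⟨a₁, ha₁, hf₁⟩ := h1
  obtain ⟨a₂, ha₂, hf₂⟩ := h2
  set w₁ := wv σ f f' r t₁ with hw₁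
  set w₂ := wv σ f f' r t₂ with hw₂
  have hd : w₁ - w₂ = (t₁ / r - t₂ / r) • f := by
    rw [hw₁, hw₂, wv, wv]
    module
  have hw12 : h w₁ w₂ = -σ (h w₂ w₁) := B.H.skew _ _
  set b := a₁ - a₂ - h w₂ (w₁ - w₂) with hb
  have hbb : b - σ b = h (w₁ - w₂) (w₁ - w₂) := by
    have e1 : σ (h w₂ w₁) = - h w₁ w₂ := by rw [hw12, neg_neg]
    have e2 : σ (h w₂ w₂) = - h w₂ w₂ := B.H.self _
    rw [hb]
    simp only [map_sub, LinearMap.sub_apply, e1, e2]
    linear_combination ha₁ - ha₂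
  have h3 := E_mul B (w := w₁ - w₂) (w' := w₂) (a := b) (a' := a₂) Φ.ee (by
    rw [map_sub, hw₁, hw₂, wv, wv, hew Φ, hew Φ, sub_zero]) (hew Φ _ _) hbb ha₂
  rw [sub_add_cancel] at h3
  have e3 : b + a₂ + h w₂ (w₁ - w₂) = a₁ := by rw [hb]; ring
  rw [e3] at h3
  have h4 : E B e (w₁ - w₂) b • ω = ω := by
    have h5 := hf₁
    rw [← h3, mul_smul, hf₂] at h5
    exact h5
  by_contra hne
  have hc : t₁ / r - t₂ / r ≠ 0 := by
    rw [← sub_div]
    exact div_ne_zero (sub_ne_zero.2 hne) hr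
  have hff : h (w₁ - w₂) (w₁ - w₂) = 0 := by
    rw [hd]
    simp [Φ.ff]
  refine aniso_of_fix hall Φ.ee (Fr.gp Φ).e0 ?_ ?_ hbb h4 hff
  · rw [hd, map_smulₛₗ, Φ.ef, smul_zero]
  · rw [hd]
    intro h0
    apply (Fr.gp Φ).nf
    have h5 := Submodule.smul_mem _ (t₁ / r - t₂ / r)⁻¹ h0
    rwa [smul_smul, inv_mul_cancel₀ hc, one_smul] at h5

/-- many points with a given vector -/
theorem Fx.card (N : N4 σ q) (Φ : Fr h e f e' f') (hall : ∀ e f : V, Gp h e f → ∀ ω : Ω, Reg B e f ω) {ω : Ω} {r t : F}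
    (h1 : Fx B e f f' ω r t) : q ^ 3 ≤ Nat.card {ω : Ω // Fx B e f f' ω r t} := by
  obtain ⟨a, ha, hf⟩ := h1
  set w := wv σ f f' r t with hw
  have hmem : ∀ m : A0 σ × F, Fx B e f f' (A B e f (m.1, 0, m.2) • ω) r t := by
    intro m
    set g := A B e f (m.1, 0, m.2) with hg
    have h2 : (g : V ≃ₗ[F] V) w = w + (m.2 * h w f) • e := by
      rw [hg, A_apply Φ.toTI, hw, wv, hwe Φ]
      simp
    have h3 : (g : V ≃ₗ[F] V) e = e := A_e Φ.toTI _
    have h4 := E_conj B g e w a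
    have hew' : h e w = 0 := hew Φ _ _
    rw [h2, h3, E_shift B Φ.ee hew' ha] at h4
    refine ⟨a + (m.2 * h w f + σ (m.2 * h w f)), ?_, ?_⟩
    · rw [map_add, map_add, B.H.inv]
      linear_combination ha
    · rw [← h4, mul_smul, mul_smul, inv_smul_smul, hf]
  have h2 : Nat.card (A0 σ × F) = q ^ 3 := by
    rw [Nat.card_prod, N.hq, N.hF]
    ring
  rw [← h2]
  apply Nat.card_le_card_of_injective (fun m => (⟨_, hmem m⟩ : {ω : Ω // Fx B e f f' ω r t}))
  intro m m' hmm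
  have h3 : A B e f (m.1, 0, m.2) • ω = A B e f (m'.1, 0, m'.2) • ω := congrArg Subtype.val hmm
  have h4 : A B e f (-(m'.1, 0, m'.2) + (m.1, 0, m.2)) • ω = ω := by
    rw [A_add Φ.toTI, mul_smul, h3, ← mul_smul, ← A_add Φ.toTI, neg_add_cancel, A_zero Φ.toTI, one_smul]
  have h5 := hall e f (Fr.gp Φ) ω _ h4
  have h6 : (m.1, (0 : A0 σ), m.2) = (m'.1, 0, m'.2) := by
    rw [neg_add_eq_zero] at h5
    exact h5.symm
  rw [Prod.mk.injEq, Prod.mk.injEq] at h6
  exact Prod.ext h6.1 h6.2.2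

/-- moving anisotropic vectors of the plane -/
theorem exists_iso2 (B : B4 h) (Φ : Fr h e f e' f') {r₀ t₀ r' t' : F} (hr₀ : r₀ ≠ 0) (hr' : r' ≠ 0) (ht₀ : σ t₀ ≠ t₀)
    (htt : t₀ - σ t₀ = t' - σ t') : ∃ g ∈ isom h, g e = e ∧ g (wv σ f f' r₀ t₀) = wv σ f f' r' t' ∧
      ∃ D : F, D * σ D = 1 ∧ ((LinearEquiv.det g : Fˣ) : F) = D := by
  set x := wv σ f f' r₀ t₀ with hx
  set y := wv σ f f' r' t' with hy
  have hσr₀ : σ r₀ ≠ 0 := fun h0 => hr₀ (B.H.inj h0)
  have hσr' : σ r' ≠ 0 := fun h0 => hr' (B.H.inj h0)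
  have hxx : h x x = t₀ - σ t₀ := wv_self Φ B hr₀ t₀
  have hyy : h y y = t' - σ t' := wv_self Φ B hr' t'
  have hxx0 : h x x ≠ 0 := by
    rw [hxx]
    exact sub_ne_zero.2 ht₀.symm
  by_cases hD : (t₀ / r₀) * σ r' = σ r₀ * (t' / r')
  · set β := σ r' / σ r₀ with hβ
    have hyx : y = β • x := by
      rw [hy, hx, wv, wv, smul_add, smul_smul, smul_smul]
      congr 2
      · rw [hβ]
        field_simp
        field_simp at hD
        linear_combination -hD
      · rw [hβ]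
        field_simp
    have hββ : β * σ β = 1 := by
      have h1 : h y y = (β * σ β) * h x x := by
        rw [hyx]
        simp only [map_smul, LinearMap.smul_apply, map_smulₛₗ, smul_eq_mul]
        ring
      rw [hyy, ← htt, ← hxx] at h1
      have h2 : (β * σ β - 1) * h x x = 0 := by linear_combination -h1
      exact sub_eq_zero.1 ((mul_eq_zero.1 h2).resolve_right hxx0)
    obtain ⟨g, hg, g1, g2, g3⟩ := qref B.H hxx0 hββ
    refine ⟨g, hg, g2 e (hew Φ _ _), ?_, β, hββ, g3⟩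
    rw [g1, hyx]
  · have hxW : x ∈ p2 h ⊤ e e' := by
      refine mem_p2.2 ⟨trivial, hwe Φ _ _, ?_⟩
      rw [hx, wv]
      simp [Φ.fe', Φ.f'e']
    have hyW : y ∈ p2 h ⊤ e e' := by
      refine mem_p2.2 ⟨trivial, hwe Φ _ _, ?_⟩
      rw [hy, wv]
      simp [Φ.fe', Φ.f'e']
    have hxy : h x y = (t₀ / r₀) * r' - σ r₀ * σ (t' / r') := by
      rw [hx, hy, wv, wv]
      simp only [map_add, LinearMap.add_apply, map_smul, LinearMap.smul_apply, map_smulₛₗ, smul_eq_mul, Φ.ff, Φ.f'f',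
        Φ.ff', Φ.f'f, B.H.inv]
      ring
    obtain ⟨g, hg, hgx⟩ := H6.SUGen.trans_nd B.H hxW hyW (by rw [hxx, hyy, htt]) hxx0 (by
      have e1 : h x x * h x x = h x x * h y y := by rw [hyy, ← htt, ← hxx]
      have hx2 : h x x = (t₀ / r₀) * r₀ - σ r₀ * σ (t₀ / r₀) := by
        rw [hxx, map_div₀]
        field_simp
      have hy2 : h y y = (t' / r') * r' - σ r' * σ (t' / r') := by
        rw [hyy, map_div₀]
        field_simp
      rw [e1, hxy, hx2, hy2]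
      have e2 : (t₀ / r₀ * r₀ - σ r₀ * σ (t₀ / r₀)) * (t' / r' * r' - σ r' * σ (t' / r')) +
          (t₀ / r₀ * r' - σ r₀ * σ (t' / r')) * σ (t₀ / r₀ * r' - σ r₀ * σ (t' / r')) =
          (t₀ / r₀ * σ r' - σ r₀ * (t' / r')) * σ (t₀ / r₀ * σ r' - σ r₀ * (t' / r')) := by
        simp only [map_sub, map_mul, B.H.inv]
        ring
      rw [e2]
      have e3 : t₀ / r₀ * σ r' - σ r₀ * (t' / r') ≠ 0 := sub_ne_zero.2 hD
      exact mul_ne_zero e3 (fun h0 => e3 (B.H.inj h0)))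
    have hgS := TU_le_SU B.H _ hg
    refine ⟨g, SU_le h hgS, ?_, hgx, 1, by rw [map_one, mul_one], ?_⟩
    · apply TU_fix hg
      intro u hu
      exact B.H.symm_zero (mem_p2.1 hu).2.1
    · have h1 : LinearEquiv.det g = 1 := hgS.2
      rw [h1, Units.val_one]

/-- all anisotropic vectors of the plane occur -/
theorem Fx.move (Φ : Fr h e f e' f') {ω₀ : Ω} {r₀ t₀ r t : F} (hr₀ : r₀ ≠ 0) (hr : r ≠ 0) (ht₀ : σ t₀ ≠ t₀) (ht : σ t ≠ t)
    (h1 : Fx B e f f' ω₀ r₀ t₀) : ∃ ω : Ω, Fx B e f f' ω r t := by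
  obtain ⟨a₀, ha₀, hf₀⟩ := h1
  have hd0 : t₀ - σ t₀ ≠ 0 := sub_ne_zero.2 ht₀.symm
  have hd : t - σ t ≠ 0 := sub_ne_zero.2 ht.symm
  set n := (t - σ t) / (t₀ - σ t₀) with hn
  have hn0 : n ≠ 0 := div_ne_zero hd hd0
  have hσn : σ n = n := by
    rw [hn, map_div₀, map_sub, map_sub, B.H.inv, B.H.inv, ← neg_sub t, ← neg_sub t₀, neg_div_neg_eq]
  obtain ⟨l, hl⟩ := B.H.norm n hσn
  have hl0 : l ≠ 0 := by
    rintro rfl
    rw [zero_mul] at hl
    exact hn0 hl.symm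
  have hσl : σ l ≠ 0 := fun h0 => hl0 (B.H.inj h0)
  have hσr : σ r ≠ 0 := fun h0 => hr (B.H.inj h0)
  have htt : t₀ - σ t₀ = t / n - σ (t / n) := by
    rw [map_div₀, hσn, ← sub_div, hn]
    field_simp
  have hr' : r / l ≠ 0 := div_ne_zero hr hl0
  obtain ⟨g2, hg2, g2e, g2x, D, hD, hdet2⟩ := exists_iso2 B Φ hr₀ hr' ht₀ htt
  set y := wv σ f f' (r / l) (t / n) with hy
  -- the correction
  have hD0 : D ≠ 0 := by
    rintro rfl
    rw [zero_mul] at hD
    exact zero_ne_one hD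
  obtain ⟨P, hP, P1, P2, P3⟩ := plane B.H Φ.ee Φ.e'e' Φ.ee' hl0
  set w₄ := σ (t / n / (r / l)) • f + (r / l) • f' with hw₄
  have hw44 : h w₄ w₄ ≠ 0 := by
    have e1 : h w₄ w₄ = σ (t / n) - t / n := by
      have hσr' : σ (r / l) ≠ 0 := fun h0 => hr' (B.H.inj h0)
      rw [hw₄]
      simp only [map_add, LinearMap.add_apply, map_smul, LinearMap.smul_apply, map_smulₛₗ, smul_eq_mul, Φ.ff, Φ.f'f',
        Φ.ff', Φ.f'f, B.H.inv]
      have e2 : σ (t / n / (r / l)) * σ (r / l) = σ (t / n) := by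
        rw [← map_mul, div_mul_cancel₀ _ hr']
      have e3 : (r / l) * (t / n / (r / l)) = t / n := by
        rw [mul_comm, div_mul_cancel₀ _ hr']
      linear_combination e2 - e3
    rw [e1, ← neg_sub, ← htt]
    exact neg_ne_zero.2 hd0
  obtain ⟨Q, hQ, Q1, Q2, Q3⟩ := qref B.H hw44 (ε := (D * (l * (σ l)⁻¹))⁻¹) (by
    have hσD : σ D ≠ 0 := fun h0 => hD0 (B.H.inj h0)
    simp only [map_inv₀, map_mul, B.H.inv]
    field_simp
    linear_combination -hD)
  have hyw : h y w₄ = 0 := by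
    rw [hy, wv, hw₄]
    simp only [map_add, LinearMap.add_apply, map_smul, LinearMap.smul_apply, map_smulₛₗ, smul_eq_mul, Φ.ff, Φ.f'f',
      Φ.ff', Φ.f'f, B.H.inv]
    ring
  have hQy : Q y = y := Q2 y hyw
  have hQe : Q e = e := Q2 e (hew Φ _ _)
  have hPy : P y = y := by
    apply P2
    · exact hwe Φ _ _
    · rw [hy, wv]
      simp [Φ.fe', Φ.f'e']
  have hgdet : LinearEquiv.det (P * (Q * g2)) = 1 := by
    rw [← Units.val_inj, map_mul, map_mul, Units.val_mul, Units.val_mul, P3, Q3, hdet2, Units.val_one]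
    field_simp
  let g : SU h := ⟨P * (Q * g2), (isom h).mul_mem hP ((isom h).mul_mem hQ hg2), hgdet⟩
  have hge : (g : V ≃ₗ[F] V) e = l • e := by
    change P (Q (g2 e)) = l • e
    rw [g2e, hQe, P1]
  have hgx : (g : V ≃ₗ[F] V) (wv σ f f' r₀ t₀) = y := by
    change P (Q (g2 _)) = y
    rw [g2x, hQy, hPy]
  have h4 := E_conj B g e (wv σ f f' r₀ t₀) a₀
  rw [hge, hgx] at h4
  have hyy : h y y = t₀ - σ t₀ := by
    rw [hy, wv_self Φ B hr', ← htt]
  rw [wv_self Φ B hr₀] at ha₀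
  have hey : h e y = 0 := hew Φ _ _
  rw [E_smul B l Φ.ee hey (by rw [hyy]; exact ha₀), hl] at h4
  have h5 : σ l • y = wv σ f f' r t := by
    rw [hy, wv, wv, smul_add, smul_smul, smul_smul, map_div₀]
    congr 2
    · rw [← hl]
      field_simp
    · field_simp
  rw [h5] at h4
  refine ⟨g • ω₀, a₀ * n, ?_, ?_⟩
  · rw [wv_self Φ B hr, map_mul, hσn, ← sub_mul, ha₀, hn]
    field_simp
  · rw [← h4, mul_smul, mul_smul, inv_smul_smul, hf₀]

/-- fields with at least three elements -/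
theorem odd_false [Nonempty Ω] (C : Cx B q p ψ Ω) (hq3 : 3 ≤ q)
    (hall : ∀ e f : V, Gp h e f → ∀ ω : Ω, Reg B e f ω) (Φ : Fr h e f e' f') : False := by
  classical
  have hN := C.N
  obtain ⟨ω₀⟩ := ‹Nonempty Ω›
  have : Fintype Ω := Fintype.ofFinite _
  have : Fintype F := Fintype.ofFinite _
  have hΩ : Nat.card Ω = q ^ 4 := by
    rw [← card_reg C Φ.toTI (hall e f (Fr.gp Φ) ω₀)]
    exact Nat.card_congr (Equiv.subtypeUnivEquiv fun ω => hall e f (Fr.gp Φ) ω).symm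
  obtain ⟨r₀, z, a, hr₀, ha, hfix⟩ := exists_w C Φ hall ω₀
  have hw0 : σ z • f + σ r₀ • f' = wv σ f f' r₀ (σ z * r₀) := by
    rw [wv, mul_div_cancel_right₀ _ hr₀]
  have hns : σ z • f + σ r₀ • f' ∉ Submodule.span F ({e} : Set V) := by
    apply notin_span Φ.toTI
    rw [hwf Φ, neg_ne_zero]
    exact fun h0 => hr₀ (B.H.inj h0)
  have hww := aniso_of_fix hall Φ.ee (Fr.gp Φ).e0 (hew Φ _ _) hns ha hfix
  rw [hw0] at ha hfix hww
  rw [wv_self Φ B hr₀] at hww
  have ht₀ : σ (σ z * r₀) ≠ σ z * r₀ := fun h0 => hww (sub_eq_zero.2 h0.symm)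
  have hF₀ : Fx B e f f' ω₀ r₀ (σ z * r₀) := ⟨a, ha, hfix⟩
  -- double counting
  let R : Finset F := Finset.univ.filter (fun r => r ≠ 0)
  let T : Finset F := Finset.univ.filter (fun t => σ t ≠ t)
  have hR : R.card = q ^ 2 - 1 := by
    have h1 : R = Finset.univ.erase 0 := by
      ext x
      simp [R]
    rw [h1, Finset.card_erase_of_mem (Finset.mem_univ _), Finset.card_univ, ← Nat.card_eq_fintype_card, hN.hF]
  have hT : T.card + q = q ^ 2 := by
    have h1 : (Finset.univ.filter (fun t : F => σ t = t)).card = q := by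
      rw [← hN.hq, ← Fintype.card_subtype, ← Nat.card_eq_fintype_card]
      rfl
    have h2 := Finset.card_filter_add_card_filter_not (s := (Finset.univ : Finset F)) (fun t => σ t = t)
    rw [h1, Finset.card_univ, ← Nat.card_eq_fintype_card, hN.hF] at h2
    rw [add_comm]
    exact h2
  have h1 : ∑ x ∈ R ×ˢ T, (Finset.univ.filter (fun ω : Ω => Fx B e f f' ω x.1 x.2)).card =
      ∑ ω : Ω, ((R ×ˢ T).filter (fun x => Fx B e f f' ω x.1 x.2)).card :=
    Finset.sum_card_bipartiteAbove_eq_sum_card_bipartiteBelow (s := R ×ˢ T) (t := Finset.univ)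
      (fun (x : F × F) (ω : Ω) => Fx B e f f' ω x.1 x.2)
  have h2 : (R.card * T.card) * q ^ 3 ≤ ∑ x ∈ R ×ˢ T, (Finset.univ.filter (fun ω : Ω => Fx B e f f' ω x.1 x.2)).card := by
    rw [← Finset.card_product, ← smul_eq_mul, ← Finset.sum_const]
    apply Finset.sum_le_sum
    intro x hx
    rw [Finset.mem_product, Finset.mem_filter, Finset.mem_filter] at hx
    obtain ⟨ω, hω⟩ := Fx.move Φ hr₀ hx.1.2 ht₀ hx.2.2 hF₀
    have h3 := Fx.card hN Φ hall hω
    rwa [Nat.card_eq_fintype_card, Fintype.card_subtype] at h3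
  have h3 : ∑ ω : Ω, ((R ×ˢ T).filter (fun x => Fx B e f f' ω x.1 x.2)).card ≤ q ^ 4 * R.card := by
    rw [← hΩ, Nat.card_eq_fintype_card, ← Finset.card_univ, ← smul_eq_mul, ← Finset.sum_const]
    apply Finset.sum_le_sum
    intro ω _
    apply Finset.card_le_card_of_injOn Prod.fst
    · intro x hx
      rw [Finset.mem_coe, Finset.mem_filter, Finset.mem_product] at hx
      exact hx.1.1
    · intro x hx y hy hxy
      rw [Finset.mem_coe, Finset.mem_filter, Finset.mem_product, Finset.mem_filter] at hx hy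
      have h4 := hy.2
      rw [← hxy] at h4
      exact Prod.ext hxy (Fx.unique Φ hall hx.1.1.2 hx.2 h4)
  rw [h1] at h2
  have h4 := h2.trans h3
  have hR0 : 0 < R.card := by
    rw [hR]
    have : 1 < q ^ 2 := Nat.one_lt_pow (by norm_num) (by omega)
    omega
  have h5 : T.card * q ^ 3 ≤ q ^ 4 := by
    apply Nat.le_of_mul_le_mul_left _ hR0
    calc R.card * (T.card * q ^ 3) = R.card * T.card * q ^ 3 := by ring
      _ ≤ q ^ 4 * R.card := h4
      _ = R.card * q ^ 4 := by ring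
  have h6 : T.card ≤ q := by
    apply Nat.le_of_mul_le_mul_right _ (show 0 < q ^ 3 by positivity)
    calc T.card * q ^ 3 ≤ q ^ 4 := h5
      _ = q * q ^ 3 := by ring
  nlinarith

/-- the main theorem: lower bound for the degree -/
theorem main [IsPretransitive (SU h) Ω] (B : B4 h) (N : N4 σ q) {p : ℕ} (hp : p.Prime) (hpF : (p : F) = 0)
    (hc : cnt h 0 = (q ^ 4 - 1) * (q ^ 3 + 1) + 1) (hΩ : Nat.card Ω ≤ q ^ 4 + q ^ 3 + q) (h1 : 1 < Nat.card Ω) : False := by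
  obtain ⟨ψ, hψ⟩ := exists_psi F
  have C : Cx B q p ψ Ω := ⟨N, hp, hpF, hψ, hΩ⟩
  have hne : Nonempty Ω := by
    by_contra hcon
    rw [not_nonempty_iff] at hcon
    rw [Nat.card_of_isEmpty] at h1
    omega
  obtain ⟨e, he0, hee⟩ : ∃ e : V, e ≠ 0 ∧ h e e = 0 := by
    obtain ⟨e, -, h1, h2⟩ := H95.UPair.exists_iso B.H (U := ⊤) (by rw [finrank_top, B.n4]; norm_num)
    exact ⟨e, h1, h2⟩
  obtain ⟨f, e', f', Φ⟩ := exists_frame1 hee he0 B
  by_cases hreg : ∃ ω : Ω, Reg B e f ω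
  · obtain ⟨ω₀, hω₀⟩ := hreg
    have hex : ∀ e f : V, Gp h e f → ∃ ω : Ω, Reg B e f ω := fun e₁ f₁ G₁ => exists_reg (Fr.gp Φ) G₁ hω₀
    have hall : ∀ e f : V, Gp h e f → ∀ ω : Ω, Reg B e f ω := fun e₁ f₁ G₁ ω => all_reg C hc hex h1 G₁ ω
    have hq2 := N.q2
    rcases Nat.eq_or_lt_of_le hq2 with h2 | h2
    · refine even_false C ?_ hall Φ
      have hpq := p_dvd N hp hpF
      rw [← h2] at hpq
      have h6 := (Nat.prime_dvd_prime_iff_eq hp Nat.prime_two).1 hpq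
      rw [h6] at hpF
      exact_mod_cast hpF
    · exact odd_false C h2 hall Φ
  · have hA : ∀ e f e' f' : V, Fr h e f e' f' → ∀ ω : Ω, Lin B e f ω := by
      intro e₁ f₁ e₁' f₁' Φ₁ ω
      rcases dichP C Φ₁ ω with h2 | h2
      · exfalso
        exact hreg (exists_reg (Fr.gp Φ₁) (Fr.gp Φ) h2)
      · exact h2
    have hsub := caseA' (B := B) hA
    have := Finite.card_le_one_iff_subsingleton.2 hsub
    omega

end H41.Uf11
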