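import Mathlib

set_option autoImplicit false
set_option maxHeartbeats 4000000

namespace H41.UnN

theorem quad {A B C z0 z : ℤ} (hz : z0 ≤ z) (h0 : 0 ≤ z0) (hA : 0 ≤ A) (h1 : 0 ≤ A * z0 + B)
    (h2 : 0 < z0 * (A * z0 + B) + C) : 0 < A * z ^ 2 + B * z + C := by
  have h3 : A * z0 + B ≤ A * z + B := by
    have := mul_le_mul_of_nonneg_left hz hA
    linarith
  have h4 : z0 * (A * z0 + B) ≤ z * (A * z + B) := mul_le_mul hz h3 h1 (by linarith)
  linarith [show A * z ^ 2 + B * z + C = z * (A * z + B) + C by ring]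

/-- the inequalities -/
theorem ineqs {q z ε N' s0 s1 : ℤ} (hq : 2 ≤ q) (hz : q ^ 2 ≤ z) (hε : ε = 1 ∧ q ^ 3 ≤ z ∨ ε = -1)
    (hs1 : s1 = z * (q * z - ε)) (hs0 : s0 = (q * z - ε) * (z + ε)) (hN : (q ^ 2 - 1) * N' = (q * z - ε) * (z + ε)) :
    (q ^ 3 * z ^ 2 + q ^ 2 * N' < q * ((q + 1) * (s0 + 1))) ∧
    (q ^ 3 * z ^ 2 + q ^ 2 * N' < q * (q * s1 + s0)) ∧
    (q ^ 3 * z ^ 2 + q ^ 2 * N' < q * (q * s1 + s1)) ∧
    (q ^ 3 * z ^ 2 + q ^ 2 * N' < (q + 1) * (q ^ 2 * z ^ 2)) ∧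
    (q ^ 2 * N' < 2 * s1) ∧ (q ^ 2 * N' < s0 + s1) ∧ 0 < N' ∧ 0 < s1 ∧ (ε = -1 ∨ 3 ≤ q → 3 * (q ^ 2 * N') < 4 * s1) := by
  have hq1 : 0 < q ^ 2 - 1 := by nlinarith
  have key : ∀ {a b : ℤ} (c : ℤ), 0 < (q ^ 2 - 1) * (b - a) - c * ((q * z - ε) * (z + ε)) → a + c * N' < b := by
    intro a b c hab
    have h1 : (q ^ 2 - 1) * (b - a) - c * ((q * z - ε) * (z + ε)) = (q ^ 2 - 1) * (b - (a + c * N')) := by
      rw [← hN]; ring
    rw [h1] at hab
    have := (mul_pos_iff_of_pos_left hq1).1 hab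
    linarith
  have key' : ∀ {b : ℤ} (c : ℤ), 0 < (q ^ 2 - 1) * b - c * ((q * z - ε) * (z + ε)) → c * N' < b := by
    intro b c hab
    have h1 : (q ^ 2 - 1) * b - c * ((q * z - ε) * (z + ε)) = (q ^ 2 - 1) * (b - c * N') := by
      rw [← hN]; ring
    rw [h1] at hab
    have := (mul_pos_iff_of_pos_left hq1).1 hab
    linarith
  obtain ⟨t, rfl⟩ : ∃ t : ℕ, q = t + 2 := ⟨(q - 2).toNat, by rw [Int.toNat_of_nonneg (by linarith)]; ring⟩
  subst hs1 hs0
  have h20 : (0 : ℤ) ≤ ((t : ℤ) + 2) ^ 2 := by positivity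
  have h30 : (0 : ℤ) ≤ ((t : ℤ) + 2) ^ 3 := by positivity
  rcases hε with ⟨rfl, hz3⟩ | rfl
  · refine ⟨?_, ?_, ?_, ?_, ?_, ?_, ?_, ?_, fun h => ?_⟩
    · refine key _ (lt_of_lt_of_eq (quad (A := (t+2)^4-(t+2)^3-(t+2)^2) (B := (t+2)*((t+2)^2-1)^2-(t+2)^2*((t+2)-1)) (C := (t+2)^2) hz3 h30 (by ring_nf; positivity) (by ring_nf; positivity) (by ring_nf; positivity)) (by ring))
    · refine key _ (lt_of_lt_of_eq (quad (A := (t+2)^4-(t+2)^3-(t+2)^2) (B := -2*(t+2)^3+(t+2)^2+(t+2)) (C := -(t+2)^3+(t+2)+(t+2)^2) hz3 h30 (by ring_nf; positivity) (by ring_nf; positivity) (by ring_nf; positivity)) (by ring))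
    · refine key _ (lt_of_lt_of_eq (quad (A := (t+2)^4-(t+2)^3-(t+2)^2) (B := -(t+2)^4-2*(t+2)^3+2*(t+2)^2+(t+2)) (C := (t+2)^2) hz3 h30 (by ring_nf; positivity) (by ring_nf; positivity) (by ring_nf; positivity)) (by ring))
    · refine key _ (lt_of_lt_of_eq (quad (A := (t+2)^4-(t+2)^3-(t+2)^2) (B := -((t+2)^2*((t+2)-1))) (C := (t+2)^2) hz3 h30 (by ring_nf; positivity) (by ring_nf; positivity) (by ring_nf; positivity)) (by ring))
    · refine key' _ (lt_of_lt_of_eq (quad (A := (t+2)^3-2*(t+2)) (B := -(t+2)^3-(t+2)^2+2) (C := (t+2)^2) hz3 h30 (by ring_nf; positivity) (by ring_nf; positivity) (by ring_nf; positivity)) (by ring))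
    · refine key' _ (lt_of_lt_of_eq (quad (A := (t+2)^3-2*(t+2)) (B := -(t+2)^2-(t+2)+2) (C := 1) hz3 h30 (by ring_nf; positivity) (by ring_nf; positivity) (by ring_nf; positivity)) (by ring))
    · refine (mul_pos_iff_of_pos_left hq1).1 ?_
      rw [hN]
      exact lt_of_lt_of_eq (quad (A := (t+2)) (B := (t+2)-1) (C := -1) hz3 h30 (by ring_nf; positivity) (by ring_nf; positivity) (by ring_nf; positivity)) (by ring)
    · exact lt_of_lt_of_eq (quad (A := (t+2)) (B := -1) (C := 0) hz3 h30 (by ring_nf; positivity) (by ring_nf; positivity) (by ring_nf; positivity)) (by ring)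
    · rw [← mul_assoc]
      rcases h with h | h
      · norm_num at h
      obtain ⟨u, rfl⟩ : ∃ u : ℕ, t = u + 1 := ⟨t - 1, by omega⟩
      have e1 : (((u + 1 : ℕ) : ℤ) + 2) = u + 3 := by push_cast; ring
      rw [e1] at hz3 h30 key' ⊢
      exact key' _ (lt_of_lt_of_eq (quad (A := (u+3)^3-4*(u+3)) (B := -3*(u+3)^3-(u+3)^2+4) (C := 3*(u+3)^2) hz3 h30 (by ring_nf; positivity) (by ring_nf; positivity) (by ring_nf; positivity)) (by ring))
  · refine ⟨?_, ?_, ?_, ?_, ?_, ?_, ?_, ?_, fun h => ?_⟩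
    · refine key _ (lt_of_lt_of_eq (quad (A := (t+2)^4-(t+2)^3-(t+2)^2) (B := -((t+2)*((t+2)^2-1)^2-(t+2)^2*((t+2)-1))) (C := (t+2)^2) hz h20 (by ring_nf; positivity) (by ring_nf; positivity) (by ring_nf; positivity)) (by ring))
    · refine key _ (lt_of_lt_of_eq (quad (A := (t+2)^4-(t+2)^3-(t+2)^2) (B := -(-2*(t+2)^3+(t+2)^2+(t+2))) (C := -(t+2)^3+(t+2)+(t+2)^2) hz h20 (by ring_nf; positivity) (by ring_nf; positivity) (by ring_nf; positivity)) (by ring))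
    · refine key _ (lt_of_lt_of_eq (quad (A := (t+2)^4-(t+2)^3-(t+2)^2) (B := -(-(t+2)^4-2*(t+2)^3+2*(t+2)^2+(t+2))) (C := (t+2)^2) hz h20 (by ring_nf; positivity) (by ring_nf; positivity) (by ring_nf; positivity)) (by ring))
    · refine key _ (lt_of_lt_of_eq (quad (A := (t+2)^4-(t+2)^3-(t+2)^2) (B := -(-((t+2)^2*((t+2)-1)))) (C := (t+2)^2) hz h20 (by ring_nf; positivity) (by ring_nf; positivity) (by ring_nf; positivity)) (by ring))
    · refine key' _ (lt_of_lt_of_eq (quad (A := (t+2)^3-2*(t+2)) (B := -(-(t+2)^3-(t+2)^2+2)) (C := (t+2)^2) hz h20 (by ring_nf; positivity) (by ring_nf; positivity) (by ring_nf; positivity)) (by ring))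
    · refine key' _ (lt_of_lt_of_eq (quad (A := (t+2)^3-2*(t+2)) (B := -(-(t+2)^2-(t+2)+2)) (C := 1) hz h20 (by ring_nf; positivity) (by ring_nf; positivity) (by ring_nf; positivity)) (by ring))
    · refine (mul_pos_iff_of_pos_left hq1).1 ?_
      rw [hN]
      exact lt_of_lt_of_eq (quad (A := (t+2)) (B := -((t+2)-1)) (C := -1) hz h20 (by ring_nf; positivity) (by ring_nf; positivity) (by ring_nf; positivity)) (by ring)
    · exact lt_of_lt_of_eq (quad (A := (t+2)) (B := -(-1)) (C := 0) hz h20 (by ring_nf; positivity) (by ring_nf; positivity) (by ring_nf; positivity)) (by ring)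
    · rw [← mul_assoc]
      exact key' _ (lt_of_lt_of_eq (quad (A := (t+2)^3-4*(t+2)) (B := -(-3*(t+2)^3-(t+2)^2+4)) (C := 3*(t+2)^2) hz h20 (by ring_nf; positivity) (by ring_nf; positivity) (by ring_nf; positivity)) (by ring))

end H41.UnN
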