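import Mathlib
import Cfsg.Agent.Lib.H41.UnM
import Cfsg.Agent.Lib.H41.UnN

/-! The numerical hypotheses for the standard hermitian form. -/

set_option autoImplicit false
set_option linter.unusedSectionVars false

namespace H41.UnO

open Module H95.UBasic H95.UPar H95.UPair H57.Polar H41.UnA H41.UnA2 H41.Dual H41.UnB H41.UnC H41.UnD H41.UnE H41.UnF
  H41.UnG H41.UnM MulAction H7.HermCount H7.QuadExt

theorem card_split {α : Type*} [Finite α] (P Q : α → Prop) :
    Nat.card {x // P x} = Nat.card {x // P x ∧ ¬ Q x} + Nat.card {x // P x ∧ Q x} := by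
  classical
  have : Fintype α := Fintype.ofFinite α
  rw [Nat.card_eq_fintype_card, Nat.card_eq_fintype_card, Nat.card_eq_fintype_card,
    Fintype.card_subtype, Fintype.card_subtype, Fintype.card_subtype, ← Finset.card_union_of_disjoint]
  · congr 1
    ext y
    simp only [Finset.mem_filter, Finset.mem_univ, true_and, Finset.mem_union]
    tauto
  · rw [Finset.disjoint_left]
    intro y hy hy'
    rw [Finset.mem_filter] at hy hy'
    exact hy.2.2 hy'.2.2

variable {K : Type*} [Field K] [Fintype K] {q n : ℕ}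

theorem cnt_zero (D : H6.SUGenC.Data n K q) : cnt D.h 0 = M K q n 0 := by
  rw [cnt, M]
  apply Nat.card_congr
  apply Equiv.subtypeEquivRight
  intro v
  rw [H6.SUGenC.iso_iff, hermForm_self]

theorem cnt_ne (hK : Fintype.card K = q ^ 2) (D : H6.SUGenC.Data n K q) {c : K} (hc : D.σ c = -c) (h0 : c ≠ 0) :
    cnt D.h c = M K q n 1 := by
  rw [← M_smul hK n (c := c / D.ζ) ?_ (div_ne_zero h0 D.ζ0), cnt, M]
  · apply Nat.card_congr
    apply Equiv.subtypeEquivRight
    intro v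
    rw [D.h_eq, hermForm_self, eq_div_iff D.ζ0, mul_comm]
  · rw [← D.σ_eq, map_div₀, hc, D.σζ, neg_div_neg_eq]

theorem card_A0 (hK : Fintype.card K = q ^ 2) (D : H6.SUGenC.Data n K q) : Nat.card (A0 D.σ) = q := by
  refine Eq.trans ?_ (card_fixed hK)
  apply Nat.card_congr
  apply Equiv.subtypeEquivRight
  intro a
  rw [← D.σ_eq]
  rfl

theorem exists_num (hK : Fintype.card K = q ^ 2) (hn : 5 ≤ n) (D : H6.SUGenC.Data n K q) :
    ∃ s0 s1 N' : ℕ, Num D.h q n s0 s1 N' ∧ (s1 : ℤ) = (q : ℤ) ^ (n - 3) * (q * (q : ℤ) ^ (n - 3) - (-1) ^ n) ∧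
      (((q : ℤ) ^ 2 - 1) * N' = (q * (q : ℤ) ^ (n - 3) - (-1) ^ n) * ((q : ℤ) ^ (n - 3) + (-1) ^ n)) ∧
      ((Odd n ∨ 3 ≤ q) → 3 * (q ^ 2 * N') < 4 * s1) := by
  have hq := one_lt_q hK
  have hqz : (2 : ℤ) ≤ q := by exact_mod_cast hq
  have hF : Nat.card K = q ^ 2 := by rw [Nat.card_eq_fintype_card, hK]
  have hfr : finrank K (Fin n → K) = n := finrank_fin_fun K
  set z : ℤ := (q : ℤ) ^ (n - 3) with hz
  set ε : ℤ := (-1) ^ n with hε
  have hε2 : ε * ε = 1 := by rw [hε, ← mul_pow]; norm_num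
  have hor : (ε = 1 ∧ Even n) ∨ (ε = -1 ∧ Odd n) := by
    rcases Nat.even_or_odd n with h | h
    · left
      exact ⟨h.neg_one_pow, h⟩
    · right
      exact ⟨h.neg_one_pow, h⟩
  have hz2 : (q : ℤ) ^ 2 ≤ z := pow_le_pow_right₀ (by linarith) (by omega)
  have hz3 : ε = 1 ∧ (q : ℤ) ^ 3 ≤ z ∨ ε = -1 := by
    rcases hor with h | h
    · left
      refine ⟨h.1, pow_le_pow_right₀ (by linarith) ?_⟩
      obtain ⟨m, hm⟩ := h.2
      omega
    · exact Or.inr h.1
  have hdvd : ((q : ℤ) ^ 2 - 1) ∣ (q * z - ε) * (z + ε) := by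
    rcases hor with ⟨h, m, hm⟩ | ⟨h, m, hm⟩
    · apply Dvd.dvd.mul_right
      rw [h, hz, ← pow_succ']
      have e1 : n - 3 + 1 = 2 * (m - 1) := by omega
      rw [e1, pow_mul]
      exact sub_one_dvd_pow_sub_one _ _
    · apply Dvd.dvd.mul_left
      rw [h, hz]
      have e1 : n - 3 = 2 * (m - 1) := by omega
      rw [e1, pow_mul, ← sub_eq_add_neg]
      exact sub_one_dvd_pow_sub_one _ _
  obtain ⟨N', hN⟩ := hdvd
  obtain ⟨i1, i2, i3, i4, i5, i6, i7, i8, i9⟩ := UnN.ineqs (q := q) (z := z) (ε := ε) (N' := N')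
    (s0 := (q * z - ε) * (z + ε)) (s1 := z * (q * z - ε)) hqz hz2 hz3 rfl rfl hN.symm
  obtain ⟨N1, rfl⟩ := Int.eq_ofNat_of_zero_le i7.le
  obtain ⟨s1, hs1⟩ := Int.eq_ofNat_of_zero_le i8.le
  have e1 : 1 ≤ q ^ 2 := Nat.one_le_pow _ _ (by omega)
  have hs0 : ((q ^ 2 - 1 : ℕ) : ℤ) * (N1 : ℤ) = (q * z - ε) * (z + ε) := by
    rw [hN]
    push_cast [e1]
    rfl
  have p3 : (q : ℤ) ^ (2 * n - 3) = q ^ 3 * z ^ 2 := by
    rw [hz, ← pow_mul, ← pow_add]
    congr 1
    omega
  have p4 : (q : ℤ) ^ (2 * n - 4) = q ^ 2 * z ^ 2 := by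
    rw [hz, ← pow_mul, ← pow_add]
    congr 1
    omega
  have hM := formulas hK n
  have hneg : (-q : ℤ) ^ n = ε * (q ^ 3 * z) := by
    rw [neg_pow, hz, ← pow_add]
    congr 2
    omega
  have p6 : (q : ℤ) ^ (2 * n) = q ^ 6 * z ^ 2 := by
    rw [hz, ← pow_mul, ← pow_add]
    congr 1
    omega
  rw [hneg, p6] at hM
  have hq0 : (q : ℤ) ≠ 0 := by linarith
  have hM0 : (M K q n 0 : ℤ) = q ^ 5 * z ^ 2 + (q - 1) * ε * (q ^ 2 * z) := by
    apply mul_left_cancel₀ hq0
    rw [hM.1]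
    ring
  have hM1 : (M K q n 1 : ℤ) = q ^ 5 * z ^ 2 - ε * (q ^ 2 * z) := by
    apply mul_left_cancel₀ hq0
    rw [hM.2]
    ring
  have hX : (q * z - ε) * (z + ε) = q * z ^ 2 + (q - 1) * ε * z - 1 := by
    linear_combination (-1 : ℤ) * hε2
  rw [hX] at hs0
  have hs1' : (s1 : ℤ) = q * z ^ 2 - ε * z := by rw [← hs1]; ring
  refine ⟨(q ^ 2 - 1) * N1, s1, N1, ⟨hq, card_A0 hK D, hF, hfr, ?_, ?_, rfl, ?_, ?_, ?_, ?_, ?_, ?_, ?_, ?_⟩, ?_, ?_, ?_⟩
  · -- c0
    intro v hv0 hv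
    have h1 := cnp_add D.skew hv hv0 hq (card_A0 hK D) hF hfr (by omega) (c := 0) (by simp)
    rw [cnt_zero] at h1
    have h2 : cnp D.h v 0 = Nat.card {x : Fin n → K // (D.h v x = 0 ∧ D.h x x = 0) ∧ x ∉ Submodule.span K ({v} : Set (Fin n → K))}
        + q ^ 2 := by
      rw [cnp, card_split _ (fun x => x ∈ Submodule.span K ({v} : Set (Fin n → K)))]
      congr 1
      have h3 : Nat.card (Submodule.span K ({v} : Set (Fin n → K))) = q ^ 2 := by
        rw [Module.natCard_eq_pow_finrank (K := K) (V := Submodule.span K ({v} : Set (Fin n → K))), finrank_span_singleton hv0, pow_one, hF]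
      rw [← h3]
      apply Nat.card_congr
      apply Equiv.subtypeEquivRight
      intro x
      constructor
      · exact fun h => h.2
      · intro h
        refine ⟨?_, h⟩
        obtain ⟨c, rfl⟩ := Submodule.mem_span_singleton.1 h
        exact ⟨by simp [hv], by simp [hv]⟩
    rw [h2] at h1
    have h4 : Nat.card {x : Fin n → K // D.h v x = 0 ∧ D.h x x = 0 ∧ x ∉ Submodule.span K ({v} : Set (Fin n → K))} =
        Nat.card {x : Fin n → K // (D.h v x = 0 ∧ D.h x x = 0) ∧ x ∉ Submodule.span K ({v} : Set (Fin n → K))} := by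
      apply Nat.card_congr
      apply Equiv.subtypeEquivRight
      intro x
      rw [and_assoc]
    rw [h4]
    generalize Nat.card {x : Fin n → K // (D.h v x = 0 ∧ D.h x x = 0) ∧ x ∉ Submodule.span K ({v} : Set (Fin n → K))} = c at h1 ⊢
    have h5 := congrArg (Nat.cast (R := ℤ)) h1
    push_cast [e1] at h5
    rw [hM0, p3] at h5
    zify
    rw [hs0]
    linear_combination h5
  · -- c1
    intro v hv0 hv c hc0 hc
    have h1 := cnp_add D.skew hv hv0 hq (card_A0 hK D) hF hfr (by omega) (c := c) hc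
    rw [cnt_ne hK D hc hc0, cnp] at h1
    generalize Nat.card {x : Fin n → K // D.h v x = 0 ∧ D.h x x = c} = c at h1 ⊢
    have h5 := congrArg (Nat.cast (R := ℤ)) h1
    push_cast [e1] at h5
    rw [hM1, p3] at h5
    zify
    rw [hs1']
    linear_combination h5
  · exact_mod_cast i7
  · zify
    rw [hs0, p3, ← hX]
    exact i1
  · zify
    rw [hs0, p3, ← hX, ← hs1]
    exact i2
  · zify
    rw [p3, ← hs1]
    exact i3
  · zify
    rw [p3, p4]
    exact i4
  · zify
    rw [← hs1]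
    exact i5
  · zify
    rw [hs0, ← hX, ← hs1]
    exact i6
  · have h1 : cnt D.h 0 = Nat.card {v : Fin n → K // v ≠ 0 ∧ D.h v v = 0} + 1 := by
      rw [cnt, card_split _ (fun x => x = 0)]
      congr 1
      · apply Nat.card_congr
        apply Equiv.subtypeEquivRight
        intro x
        rw [and_comm]
      · rw [Nat.card_eq_one_iff_unique]
        refine ⟨⟨?_⟩, ⟨⟨0, by simp, rfl⟩⟩⟩
        rintro ⟨a, -, ha⟩ ⟨b, -, hb⟩
        exact Subtype.ext (ha.trans hb.symm)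
    rw [cnt_zero] at h1
    generalize Nat.card {v : Fin n → K // v ≠ 0 ∧ D.h v v = 0} = c at h1 ⊢
    have h5 := congrArg (Nat.cast (R := ℤ)) h1
    push_cast at h5
    rw [hM0] at h5
    zify [e1]
    rw [p3]
    have h6 := hs0
    push_cast [e1] at h6
    linear_combination -h5 - q ^ 2 * h6
  · rw [hs1']
    ring
  · rw [← hN]
  · intro h
    zify
    rw [← hs1]
    apply i9
    rcases h with h | h
    · left
      exact h.neg_one_pow
    · right
      exact_mod_cast h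

end H41.UnO
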