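import Mathlib
import Cfsg.Agent.Lib.H41.UnO
import Cfsg.Agent.Lib.H41.OrH

/-! The minimal index of `PSU n q`, `n ≥ 5`. -/

set_option autoImplicit false
set_option linter.unusedSectionVars false

namespace H41.UnP

open Module H95.UBasic H95.UPar H95.UPair H57.Polar H41.UnA H41.UnA2 H41.Dual H41.UnB H41.UnC H41.UnD H41.UnE H41.UnF
  H41.UnG H41.UnM H41.UnO MulAction H7.HermCount H7.QuadExt

variable {K : Type*} [Field K] [Fintype K] {q n : ℕ}

theorem finSU (D : H6.SUGenC.Data n K q) : Finite (SU D.h) := by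
  have : Finite ((Fin n → K) ≃ₗ[K] (Fin n → K)) := Finite.of_injective (fun e => (e : (Fin n → K) → (Fin n → K))) DFunLike.coe_injective
  infer_instance

/-- passage to the quotient -/
theorem bridge (D : H6.SUGenC.Data n K q) {N : ℕ} (h1 : ∀ L : Subgroup (SU D.h), L ≠ ⊤ → N ≤ L.index)
    (h2 : ∃ L : Subgroup (SU D.h), L.index = N ∧ Subgroup.center (SU D.h) ≤ L) :
    (∀ H : Subgroup (Cfsg.PSU n K q), H ≠ ⊤ → N ≤ H.index) ∧ ∃ H : Subgroup (Cfsg.PSU n K q), H.index = N := by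
  let e : Cfsg.SU n K q ≃* SU D.h :=
    (MonoidHom.ofInjective (H6.SUGenC.emb_injective n K q)).trans
      (MulEquiv.subgroupCongr (H6.SUGenC.range_emb D))
  constructor
  · intro H hH
    let f : SU D.h →* Cfsg.PSU n K q := (QuotientGroup.mk' _).comp e.symm.toMonoidHom
    have hf : Function.Surjective f := (QuotientGroup.mk'_surjective _).comp e.symm.surjective
    have h3 : (H.comap f).index = H.index := Subgroup.index_comap_of_surjective H hf
    rw [← h3]
    apply h1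
    intro h4
    apply hH
    rw [eq_top_iff]
    intro x _
    obtain ⟨y, rfl⟩ := hf x
    have : y ∈ H.comap f := by rw [h4]; trivial
    exact this
  · obtain ⟨L, hL, hc⟩ := h2
    refine ⟨(L.comap e.toMonoidHom).map (QuotientGroup.mk' _), ?_⟩
    rw [Subgroup.index_map_eq _ (QuotientGroup.mk'_surjective _),
      Subgroup.index_comap_of_surjective L (f := e.toMonoidHom) e.surjective, hL]
    rw [QuotientGroup.ker_mk']
    intro g hg
    rw [Subgroup.mem_comap]
    apply hc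
    rw [Subgroup.mem_center_iff] at hg ⊢
    intro x
    have h3 := hg (e.symm x)
    apply e.symm.injective
    rw [map_mul, map_mul]
    have h4 : e.symm (e.toMonoidHom g) = g := e.symm_apply_apply g
    rw [h4]
    exact h3

/-- the lower bound -/
theorem lower (hn : 5 ≤ n) (D : H6.SUGenC.Data n K q) {s0 s1 N' : ℕ}
    (Nm : Num D.h q n s0 s1 N') (L : Subgroup (SU D.h)) (hL : L ≠ ⊤) :
    q ^ (2 * n - 3) + q ^ 2 * N' < L.index ∨ 3 * q ^ (2 * n - 3) + 4 * s1 ≤ 3 * L.index := by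
  by_contra hcon
  push Not at hcon
  have := finSU D
  have h1 : 1 < L.index := Subgroup.one_lt_index_of_ne_top hL
  exact UnL.main (Ω := SU D.h ⧸ L) ⟨D.skew, by rw [Nm.hn]; exact hn⟩ Nm D.σ_eq hcon.1 hcon.2 h1

/-- the stabiliser of an isotropic point -/
theorem exists_iso_stab (hK : Fintype.card K = q ^ 2) (hn : 5 ≤ n) (D : H6.SUGenC.Data n K q) {N : ℕ}
    (hN : Nat.card {v : Fin n → K // v ≠ 0 ∧ D.h v v = 0} = (q ^ 2 - 1) * N) :
    ∃ L : Subgroup (SU D.h), L.index = N ∧ Subgroup.center (SU D.h) ≤ L := by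
  have hfr : finrank K (Fin n → K) = n := finrank_fin_fun K
  have hq := one_lt_q hK
  obtain ⟨v, -, hv0, hv⟩ := exists_iso D.skew (U := ⊤) (by rw [finrank_top]; omega)
  obtain ⟨L, hL, hc⟩ := pt_stab (G := SU D.h) hv0
  have horb : ∀ w, w ∈ orbit (SU D.h) v ↔ w ≠ 0 ∧ D.h w w = 0 := by
    intro w
    constructor
    · rintro ⟨g, rfl⟩
      refine ⟨?_, ?_⟩
      · change (g : (Fin n → K) ≃ₗ[K] (Fin n → K)) v ≠ 0
        exact (LinearEquiv.map_ne_zero_iff _).2 hv0
      · change D.h ((g : (Fin n → K) ≃ₗ[K] (Fin n → K)) v) ((g : (Fin n → K) ≃ₗ[K] (Fin n → K)) v) = 0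
        rw [SU_le D.h g.2, hv]
    · rintro ⟨hw0, hw⟩
      obtain ⟨g, hg, hgv⟩ := H6.SUGenB.trans_iso D.skew (by omega) hv0 hv hw0 hw
      exact ⟨⟨g, TU_le_SU D.skew ⊤ hg⟩, hgv⟩
  refine ⟨L, ?_, fun z hz => hc z ?_⟩
  · have h1 : Nat.card (orbit (SU D.h) v) = (q ^ 2 - 1) * N := by
      rw [← hN]
      exact Nat.card_congr (Equiv.subtypeEquivRight horb)
    have h2 : Nat.card {c : K // c • v ∈ orbit (SU D.h) v} = q ^ 2 - 1 := by
      rw [← hK, ← Nat.card_eq_fintype_card, ← Nat.card_units]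
      symm
      apply Nat.card_congr
      refine (unitsEquivNeZero).trans (Equiv.subtypeEquivRight fun c => ?_)
      rw [horb]
      constructor
      · intro h
        exact ⟨smul_ne_zero h hv0, smul_iso D.skew hv c⟩
      · rintro ⟨h, -⟩ rfl
        exact h (zero_smul _ _)
    rw [h1, h2, mul_comm] at hL
    have e1 : 1 < q ^ 2 := Nat.one_lt_pow (by norm_num) hq
    exact Nat.eq_of_mul_eq_mul_left (by omega) hL
  · obtain ⟨c, hc⟩ := center_scalar D.skew (by omega) hz
    exact ⟨c, hc v⟩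

/-- the stabiliser of an anisotropic point -/
theorem exists_ani_stab (hK : Fintype.card K = q ^ 2) (hn : 5 ≤ n) (D : H6.SUGenC.Data n K q) {N : ℕ}
    (hN : M K q n 1 = (q + 1) * N) :
    ∃ L : Subgroup (SU D.h), L.index = N ∧ Subgroup.center (SU D.h) ≤ L := by
  have hfr : finrank K (Fin n → K) = n := finrank_fin_fun K
  have hq := one_lt_q hK
  obtain ⟨e, -, f, -, hee, hff, hef⟩ := exists_hyp D.skew (nd_top D.skew) (by rw [finrank_top]; omega)
  obtain ⟨κ, hκ⟩ := D.skew.ne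
  have hfe := hfe D.skew hef
  obtain ⟨v, hv⟩ : ∃ v, D.h v v ≠ 0 := by
    refine ⟨e + κ • f, ?_⟩
    simp only [map_add, LinearMap.add_apply, map_smul, LinearMap.smul_apply, map_smulₛₗ, smul_eq_mul, hee, hff, hef, hfe]
    intro h0
    apply hκ
    linear_combination h0
  have hv0 : v ≠ 0 := by
    rintro rfl
    exact hv (by simp)
  obtain ⟨L, hL, hc⟩ := pt_stab (G := SU D.h) hv0
  have horb : ∀ w, w ∈ orbit (SU D.h) v ↔ D.h w w = D.h v v := by
    intro w
    constructor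
    · rintro ⟨g, rfl⟩
      change D.h ((g : (Fin n → K) ≃ₗ[K] (Fin n → K)) v) ((g : (Fin n → K) ≃ₗ[K] (Fin n → K)) v) = _
      rw [SU_le D.h g.2]
    · intro hw
      obtain ⟨g, hg, hgv⟩ := H6.SUGen.trans_aniso D.skew (nd_top D.skew) (by rw [finrank_top]; omega)
        (Or.inl (by rw [finrank_top]; omega)) (x := v) (y := w) trivial trivial hw.symm hv
      exact ⟨⟨g, TU_le_SU D.skew ⊤ hg⟩, hgv⟩
  refine ⟨L, ?_, fun z hz => hc z ?_⟩
  · have h1 : Nat.card (orbit (SU D.h) v) = (q + 1) * N := by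
      rw [← hN, ← cnt_ne hK D (D.skew.self v) hv, cnt]
      exact Nat.card_congr (Equiv.subtypeEquivRight horb)
    have h2 : Nat.card {c : K // c • v ∈ orbit (SU D.h) v} = q + 1 := by
      refine Eq.trans ?_ (card_norm_one hK)
      apply Nat.card_congr
      apply Equiv.subtypeEquivRight
      intro c
      rw [horb]
      simp only [map_smul, LinearMap.smul_apply, map_smulₛₗ, smul_eq_mul]
      rw [pow_succ', ← D.σ_eq]
      constructor
      · intro h
        have h3 : D.h v v * (c * D.σ c - 1) = 0 := by linear_combination h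
        exact sub_eq_zero.1 ((mul_eq_zero.1 h3).resolve_left hv)
      · intro h
        linear_combination (D.h v v) * h
    rw [h1, h2, mul_comm] at hL
    exact Nat.eq_of_mul_eq_mul_left (by omega) hL
  · obtain ⟨c, hc⟩ := center_scalar D.skew (by omega) hz
    exact ⟨c, hc v⟩

/-- the isotropic case -/
theorem main_iso (hK : Fintype.card K = q ^ 2) (hn : 5 ≤ n) (hor : Odd n ∨ 3 ≤ q) {N : ℕ}
    (hN : M K q n 0 = (q ^ 2 - 1) * N + 1) :
    (∀ H : Subgroup (Cfsg.PSU n K q), H ≠ ⊤ → N ≤ H.index) ∧ ∃ H : Subgroup (Cfsg.PSU n K q), H.index = N := by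
  obtain ⟨D⟩ := H6.SUGenC.exists_data (F := K) n hK
  have hq := one_lt_q hK
  obtain ⟨s0, s1, N', Nm, -, -, h43⟩ := exists_num hK hn D
  have h43 := h43 hor
  have h1 : cnt D.h 0 = Nat.card {v : Fin n → K // v ≠ 0 ∧ D.h v v = 0} + 1 := by
    rw [cnt, card_split _ (fun x => x = 0)]
    congr 1
    · apply Nat.card_congr
      apply Equiv.subtypeEquivRight
      intro x
      rw [and_comm]
    · rw [Nat.card_eq_one_iff_unique]
      refine ⟨⟨?_⟩, ⟨⟨0, by simp, rfl⟩⟩⟩
      rintro ⟨a, -, ha⟩ ⟨b, -, hb⟩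
      exact Subtype.ext (ha.trans hb.symm)
  rw [cnt_zero, hN] at h1
  have h2 : Nat.card {v : Fin n → K // v ≠ 0 ∧ D.h v v = 0} = (q ^ 2 - 1) * N := by omega
  have h3 := Nm.cX
  rw [h2] at h3
  have e1 : 1 < q ^ 2 := Nat.one_lt_pow (by norm_num) hq
  have h4 : N = q ^ (2 * n - 3) + q ^ 2 * N' + 1 := Nat.eq_of_mul_eq_mul_left (by omega) h3
  refine bridge D (fun L hL => ?_) (exists_iso_stab hK hn D h2)
  rcases lower hn D Nm L hL with h | h <;> omega

/-- the anisotropic case -/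
theorem main_ani (hK : Fintype.card K = 2 ^ 2) (hn : 6 ≤ n) (hev : Even n) {N : ℕ}
    (hN : 3 * N = 2 ^ (n - 1) * (2 ^ n - 1)) :
    (∀ H : Subgroup (Cfsg.PSU n K 2), H ≠ ⊤ → N ≤ H.index) ∧ ∃ H : Subgroup (Cfsg.PSU n K 2), H.index = N := by
  obtain ⟨D⟩ := H6.SUGenC.exists_data (F := K) n hK
  obtain ⟨s0, s1, N', Nm, hs1, hN', -⟩ := exists_num hK (by omega) D
  have hz : (2 : ℤ) ^ n = 8 * 2 ^ (n - 3) := by
    have : n = 3 + (n - 3) := by omega
    conv_lhs => rw [this, pow_add]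
    norm_num
  have hz1 : (2 : ℤ) ^ (n - 1) = 4 * 2 ^ (n - 3) := by
    have : n - 1 = 2 + (n - 3) := by omega
    conv_lhs => rw [this, pow_add]
    norm_num
  have hz3 : (2 : ℤ) ^ (2 * n - 3) = 8 * (2 ^ (n - 3)) ^ 2 := by
    have : 2 * n - 3 = 3 + (n - 3) * 2 := by omega
    conv_lhs => rw [this, pow_add, pow_mul]
    norm_num
  have h3N : 3 * (N : ℤ) = 2 ^ (n - 1) * (2 ^ n - 1) := by
    have h1 : 1 ≤ 2 ^ n := Nat.one_le_pow _ _ (by norm_num)
    have h2 := congrArg (Nat.cast (R := ℤ)) hN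
    push_cast [h1] at h2
    exact h2
  rw [hev.neg_one_pow] at hs1 hN'
  push_cast at hs1 hN'
  rw [hz, hz1] at h3N
  have hz0 : (0 : ℤ) < 2 ^ (n - 3) := by positivity
  set z : ℤ := 2 ^ (n - 3) with hzd
  refine bridge D (fun L hL => ?_) (exists_ani_stab hK (by omega) D ?_)
  · rcases lower (by omega) D Nm L hL with h | h
    · have h' : (2 : ℤ) ^ (2 * n - 3) + 2 ^ 2 * N' < L.index := by exact_mod_cast h
      rw [hz3] at h'
      have : (N : ℤ) ≤ L.index := by nlinarith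
      exact_mod_cast this
    · have h' : 3 * (2 : ℤ) ^ (2 * n - 3) + 4 * s1 ≤ 3 * L.index := by exact_mod_cast h
      rw [hz3, hs1] at h'
      have : (N : ℤ) ≤ L.index := by nlinarith
      exact_mod_cast this
  · obtain ⟨m, rfl⟩ : ∃ m, n = m + 1 := ⟨n - 1, by omega⟩
    rw [M_one hK, if_neg (by
      intro h
      rw [Nat.even_add_one] at hev
      exact hev h)]
    rw [Nat.add_sub_cancel] at hN
    exact hN.symm

end H41.UnP
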