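import Mathlib
import Cfsg.Agent.Lib.H41.Uf11
import Cfsg.Agent.Lib.H41.UnP

/-! The stabiliser of a totally isotropic plane; the minimal index of `PSU 4 q`. -/

set_option autoImplicit false
set_option linter.unusedSectionVars false

namespace H41.Uf12

open Module H95.UBasic H95.UPar H95.UPair H57.Polar H41.UnA H41.UnA2 H41.Uf1 H41.Uf5 H41.Uf9 H41.Uf10 H41.Uf11 MulAction
open H41.UnB (A0 mem_A0)
open H41.UnM (cnt)

variable {F V : Type*} [Field F] [AddCommGroup V] [Module F V] {σ : F →+* F}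
variable {h : V →ₗ[F] V →ₛₗ[σ] F} [FiniteDimensional F V] [Finite F]
variable {q : ℕ}

/-- the totally isotropic planes -/
def Pl (h : V →ₗ[F] V →ₛₗ[σ] F) := {T : Submodule F V // ∃ e f, Gp h e f ∧ T = Submodule.span F {e, f}}

theorem map_span (g : V ≃ₗ[F] V) (e f : V) :
    (Submodule.span F ({e, f} : Set V)).map (g : V →ₗ[F] V) = Submodule.span F {g e, g f} := by
  rw [Submodule.map_span, Set.image_pair]
  rfl

noncomputable instance plAct : MulAction (SU h) (Pl h) where
  smul g T := ⟨T.1.map ((g : V ≃ₗ[F] V) : V →ₗ[F] V), by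
    obtain ⟨e, f, G, hT⟩ := T.2
    exact ⟨_, _, Gp.map G g, by rw [hT, map_span]⟩⟩
  one_smul T := Subtype.ext (Submodule.map_id _)
  mul_smul a b T := Subtype.ext (Submodule.map_comp _ _ _)

theorem coe_smul (g : SU h) (T : Pl h) : (g • T).1 = T.1.map ((g : V ≃ₗ[F] V) : V →ₗ[F] V) := rfl

theorem pl_trans (B : B4 h) : IsPretransitive (SU h) (Pl h) := by
  constructor
  rintro ⟨T, e, f, G, rfl⟩ ⟨T', e', f', G', rfl⟩
  obtain ⟨g, h1, b, hb, h2⟩ := trans_pair B G G'
  refine ⟨g, Subtype.ext ?_⟩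
  change (Submodule.span F ({e, f} : Set V)).map ((g : V ≃ₗ[F] V) : V →ₗ[F] V) = Submodule.span F {e', f'}
  rw [map_span, h1, h2]
  apply le_antisymm
  · rw [Submodule.span_le]
    intro x hx
    rcases hx with rfl | rfl
    · exact Submodule.subset_span (by simp)
    · exact Submodule.smul_mem _ _ (Submodule.subset_span (by simp))
  · rw [Submodule.span_le]
    intro x hx
    rcases hx with rfl | rfl
    · exact Submodule.subset_span (by simp)
    · have h3 : b⁻¹ • (b • x) ∈ Submodule.span F ({e', b • x} : Set V) :=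
        Submodule.smul_mem _ _ (Submodule.subset_span (Set.mem_insert_of_mem _ rfl))
      rwa [smul_smul, inv_mul_cancel₀ hb, one_smul] at h3

theorem Gp.li {e f : V} (G : Gp h e f) : LinearIndependent F ![e, f] := by
  rw [LinearIndependent.pair_iff]
  intro s t hst
  have ht : t = 0 := by
    by_contra ht
    apply G.nf
    rw [Submodule.mem_span_singleton]
    refine ⟨-(s / t), ?_⟩
    have h5 : f = (t⁻¹ * t) • f := by rw [inv_mul_cancel₀ ht, one_smul]
    have h6 : t • f = -(s • e) := eq_neg_of_add_eq_zero_right hst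
    rw [h5, mul_smul, h6, smul_neg, smul_smul, neg_smul]
    congr 2
    rw [div_eq_mul_inv, mul_comm]
  rw [ht, zero_smul, add_zero] at hst
  exact ⟨(smul_eq_zero.1 hst).resolve_right G.e0, ht⟩

theorem finrank_pl {e f : V} (G : Gp h e f) : finrank F (Submodule.span F ({e, f} : Set V)) = 2 := by
  have h1 := finrank_span_eq_card (Gp.li G)
  rw [Fintype.card_fin] at h1
  have h2 : Set.range ![e, f] = {e, f} := by simp [Set.pair_comm]
  rw [h2] at h1
  exact h1

/-- other bases of the same plane -/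
theorem gp_of_mem (B : B4 h) {e f e₁ f₁ : V} (G : Gp h e f) (he : e₁ ∈ Submodule.span F ({e, f} : Set V))
    (hf : f₁ ∈ Submodule.span F ({e, f} : Set V)) (he0 : e₁ ≠ 0) (hn : f₁ ∉ Submodule.span F ({e₁} : Set V)) :
    Gp h e₁ f₁ ∧ Submodule.span F ({e₁, f₁} : Set V) = Submodule.span F {e, f} := by
  have hTI : ∀ x ∈ Submodule.span F ({e, f} : Set V), ∀ y ∈ Submodule.span F ({e, f} : Set V), h x y = 0 := by
    intro x hx y hy
    obtain ⟨a, b, rfl⟩ := Submodule.mem_span_pair.1 hx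
    obtain ⟨c, d, rfl⟩ := Submodule.mem_span_pair.1 hy
    simp only [map_add, LinearMap.add_apply, map_smul, LinearMap.smul_apply, map_smulₛₗ, smul_eq_mul, G.ee, G.ff, G.ef, G.fe,
      mul_zero, add_zero]
  have G' : Gp h e₁ f₁ := ⟨⟨hTI _ he _ he, hTI _ hf _ hf, hTI _ he _ hf, hTI _ hf _ he⟩, he0, hn⟩
  refine ⟨G', ?_⟩
  apply Submodule.eq_of_le_of_finrank_eq
  · rw [Submodule.span_le]
    intro x hx
    rcases hx with rfl | rfl
    · exact he
    · exact hf
  · rw [finrank_pl G, finrank_pl G']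

instance : Finite (Pl h) := by
  have : Finite V := Module.finite_of_finite F
  have : Finite (Submodule F V) := Finite.of_injective (fun T => (T : Set V)) SetLike.coe_injective
  exact inferInstanceAs (Finite {T : Submodule F V // ∃ e f, Gp h e f ∧ T = Submodule.span F {e, f}})

/-- the fibres -/
theorem card_fib (B : B4 h) (N : N4 σ q) (T : Pl h) :
    Nat.card {x : Pr h // Submodule.span F ({x.1.1, x.1.2} : Set V) = T.1} = (q ^ 4 - 1) * (q ^ 4 - q ^ 2) := by
  classical
  have : Finite V := Module.finite_of_finite F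
  obtain ⟨e, f, G, hT⟩ := T.2
  have hTf : finrank F T.1 = 2 := by rw [hT, finrank_pl G]
  have hTc : Nat.card T.1 = q ^ 4 := by
    rw [Module.natCard_eq_pow_finrank (K := F), hTf, N.hF]
    ring
  have : Fintype T.1 := Fintype.ofFinite _
  have hmem : ∀ {x y : V}, x ∈ T.1 → y ∈ T.1 → x ≠ 0 → y ∉ Submodule.span F ({x} : Set V) →
      Gp h x y ∧ Submodule.span F ({x, y} : Set V) = T.1 := by
    intro x y hx hy hx0 hn
    rw [hT] at hx hy ⊢
    exact gp_of_mem B G hx hy hx0 hn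
  have e1 : {x : Pr h // Submodule.span F ({x.1.1, x.1.2} : Set V) = T.1} ≃
      Σ x : {x : T.1 // x ≠ 0}, {y : T.1 // y ∉ Submodule.span F ({x.1} : Set T.1)} :=
    { toFun := fun x => ⟨⟨⟨x.1.1.1, le_of_eq x.2 (Submodule.subset_span (by simp))⟩,
          fun h0 => x.1.2.e0 (congrArg Subtype.val h0)⟩,
        ⟨⟨x.1.1.2, le_of_eq x.2 (Submodule.subset_span (by simp))⟩, fun h0 => by
          obtain ⟨c, hc⟩ := Submodule.mem_span_singleton.1 h0
          apply x.1.2.nf
          rw [Submodule.mem_span_singleton]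
          exact ⟨c, congrArg Subtype.val hc⟩⟩⟩
      invFun := fun x => ⟨⟨(x.1.1.1, x.2.1.1), (hmem x.1.1.2 x.2.1.2 (fun h0 => x.1.2 (Subtype.ext h0)) (fun h0 => by
          obtain ⟨c, hc⟩ := Submodule.mem_span_singleton.1 h0
          apply x.2.2
          rw [Submodule.mem_span_singleton]
          exact ⟨c, Subtype.ext hc⟩)).1⟩, (hmem x.1.1.2 x.2.1.2 (fun h0 => x.1.2 (Subtype.ext h0)) (fun h0 => by
          obtain ⟨c, hc⟩ := Submodule.mem_span_singleton.1 h0
          apply x.2.2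
          rw [Submodule.mem_span_singleton]
          exact ⟨c, Subtype.ext hc⟩)).2⟩
      left_inv := fun x => rfl
      right_inv := fun x => rfl }
  rw [Nat.card_congr e1, Nat.card_sigma]
  have h1 : ∀ x : {x : T.1 // x ≠ 0}, Nat.card {y : T.1 // y ∉ Submodule.span F ({x.1} : Set T.1)} = q ^ 4 - q ^ 2 := by
    intro x
    have h2 : Nat.card (Submodule.span F ({x.1} : Set T.1)) = q ^ 2 := by
      rw [Module.natCard_eq_pow_finrank (K := F), finrank_span_singleton x.2, pow_one, N.hF]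
    rw [Nat.card_eq_fintype_card, Fintype.card_subtype_compl, ← Nat.card_eq_fintype_card, hTc,
      ← Nat.card_eq_fintype_card]
    congr 1
  rw [Finset.sum_congr rfl (fun x _ => h1 x), Finset.sum_const, Finset.card_univ, smul_eq_mul, Fintype.card_subtype_compl,
    Fintype.card_subtype_eq, ← Nat.card_eq_fintype_card, hTc]

/-- the number of planes -/
theorem card_Pl (B : B4 h) (N : N4 σ q) (hc : cnt h 0 = (q ^ 4 - 1) * (q ^ 3 + 1) + 1) :
    Nat.card (Pl h) = (q + 1) * (q ^ 3 + 1) := by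
  classical
  have : Fintype (Pl h) := Fintype.ofFinite _
  let φ : Pr h → Pl h := fun x => ⟨Submodule.span F {x.1.1, x.1.2}, x.1.1, x.1.2, x.2, rfl⟩
  have h1 := Nat.card_congr (Equiv.sigmaFiberEquiv φ)
  rw [Nat.card_sigma, card_Pr B N hc] at h1
  have h2 : ∀ T : Pl h, Nat.card {x : Pr h // φ x = T} = (q ^ 4 - 1) * (q ^ 4 - q ^ 2) := by
    intro T
    rw [← card_fib B N T]
    apply Nat.card_congr
    apply Equiv.subtypeEquivRight
    intro x
    exact ⟨fun h => congrArg Subtype.val h, fun h => Subtype.ext h⟩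
  rw [Finset.sum_congr rfl (fun T _ => h2 T), Finset.sum_const, Finset.card_univ, smul_eq_mul,
    ← Nat.card_eq_fintype_card] at h1
  have hq := N.q2
  have e1 : 1 < q ^ 2 := Nat.one_lt_pow (by norm_num) (by omega)
  have e2 : 1 < q ^ 4 := Nat.one_lt_pow (by norm_num) (by omega)
  have e3 : q ^ 4 - q ^ 2 = q ^ 2 * (q ^ 2 - 1) := by
    rw [Nat.mul_sub, mul_one]
    congr 1
    ring
  rw [e3] at h1
  have hpos : 0 < (q ^ 4 - 1) * (q ^ 2 * (q ^ 2 - 1)) :=
    Nat.mul_pos (by omega) (Nat.mul_pos (by positivity) (by omega))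
  apply Nat.eq_of_mul_eq_mul_right hpos
  rw [h1]
  ring

/-- the center acts by scalars -/
theorem center_scalar (B : B4 h) {z : SU h} (hz : z ∈ Subgroup.center (SU h)) :
    ∃ c : F, ∀ x, (z : V ≃ₗ[F] V) x = c • x := by
  have H := B.H
  apply H6.SUGenB.scalar_of_fix H (by rw [B.n4]; norm_num)
  intro u hu
  by_cases hu0 : u = 0
  · exact ⟨0, by rw [hu0, map_zero, smul_zero]⟩
  have hmem := sieg_mem_SU H (by rw [B.n4]; norm_num) u 0 1
  have h1 := Subgroup.mem_center_iff.1 hz ⟨_, hmem⟩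
  have hg := good_tr hu (map_one σ)
  obtain ⟨y, hy⟩ : ∃ y, h y u = 1 := by
    obtain ⟨f, -, hf⟩ := H6.SUGenB.exists_partner H hu0 hu
    exact ⟨-f, by rw [map_neg, LinearMap.neg_apply, hfe H hf, neg_neg]⟩
  have h2 : sieg h u 0 1 ((z : V ≃ₗ[F] V) y) = (z : V ≃ₗ[F] V) (sieg h u 0 1 y) :=
    congrArg (fun g : SU h => (g : V ≃ₗ[F] V) y) h1
  rw [sieg_apply hg, sieg_apply hg] at h2
  simp only [hy, map_zero, smul_zero, add_zero, one_mul, mul_one, one_smul, map_add, zero_smul] at h2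
  exact ⟨_, (add_left_cancel h2).symm⟩

/-- the stabiliser of a plane -/
theorem exists_pl_stab (B : B4 h) (N : N4 σ q) (hc : cnt h 0 = (q ^ 4 - 1) * (q ^ 3 + 1) + 1) :
    ∃ L : Subgroup (SU h), L.index = (q + 1) * (q ^ 3 + 1) ∧ Subgroup.center (SU h) ≤ L := by
  obtain ⟨e, -, he0, hee⟩ := H95.UPair.exists_iso B.H (U := ⊤) (by rw [finrank_top, B.n4]; norm_num)
  obtain ⟨f, e', f', Φ⟩ := exists_frame1 hee he0 B
  let T : Pl h := ⟨Submodule.span F {e, f}, e, f, Fr.gp Φ, rfl⟩
  have := pl_trans B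
  refine ⟨stabilizer (SU h) T, ?_, ?_⟩
  · rw [index_stabilizer, orbit_eq_univ, Set.ncard_univ, card_Pl B N hc]
  · intro z hz
    obtain ⟨c, hc⟩ := center_scalar B hz
    have hc0 : c ≠ 0 := by
      rintro rfl
      have h1 := hc e
      rw [zero_smul] at h1
      exact he0 ((LinearEquiv.map_eq_zero_iff _).1 h1)
    rw [mem_stabilizer_iff]
    apply Subtype.ext
    rw [coe_smul]
    apply le_antisymm
    · rintro _ ⟨x, hx, rfl⟩
      change (z : V ≃ₗ[F] V) x ∈ _
      rw [hc]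
      exact Submodule.smul_mem _ _ hx
    · intro x hx
      refine ⟨c⁻¹ • x, Submodule.smul_mem _ _ hx, ?_⟩
      change (z : V ≃ₗ[F] V) (c⁻¹ • x) = x
      rw [hc, smul_smul, mul_inv_cancel₀ hc0, one_smul]

/-- the minimal index of `PSU 4 q` -/
theorem psu4 {K : Type*} [Field K] [Fintype K] {q : ℕ} (hK : Fintype.card K = q ^ 2) :
    (∀ H : Subgroup (Cfsg.PSU 4 K q), H ≠ ⊤ → (q + 1) * (q ^ 3 + 1) ≤ H.index) ∧
      ∃ H : Subgroup (Cfsg.PSU 4 K q), H.index = (q + 1) * (q ^ 3 + 1) := by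
  obtain ⟨D⟩ := H6.SUGenC.exists_data (F := K) 4 hK
  have hq : 1 < q := H7.QuadExt.one_lt_q hK
  have B : B4 D.h := ⟨D.skew, finrank_fin_fun K⟩
  have hcard : Nat.card (A0 D.σ) = q := UnO.card_A0 hK D
  have N : N4 D.σ q := ⟨hq, hcard, by rw [Nat.card_eq_fintype_card, hK], D.σ_eq⟩
  have hc : cnt D.h 0 = (q ^ 4 - 1) * (q ^ 3 + 1) + 1 := by
    rw [UnO.cnt_zero, H7.HermCount.M_iso hK 4, if_pos (by decide)]
  obtain ⟨p, hp⟩ := CharP.exists K
  have hpp : p.Prime := CharP.char_is_prime K p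
  have := UnP.finSU D
  refine UnP.bridge D (fun L hL => ?_) (exists_pl_stab B N hc)
  by_contra hcon
  push Not at hcon
  have h1 : 1 < L.index := Subgroup.one_lt_index_of_ne_top hL
  have h2 : (q + 1) * (q ^ 3 + 1) = q ^ 4 + q ^ 3 + q + 1 := by ring
  exact Uf11.main (Ω := SU D.h ⧸ L) B N hpp (CharP.cast_eq_zero K p) hc (by
    change L.index ≤ _
    omega) h1

end H41.Uf12
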